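import Cfsg.Agent.Lib.SchurMult.Reduce
import Cfsg.Agent.Lib.SchurMult.CentralComm
import Cfsg.Agent.Lib.SchurMult.SmallSylow

/-!
The prime `3` for a Sylow subgroup `E ⋊ ⟨u, v⟩` with `E` elementary abelian, an element `z` inverting
`E` and centralising `u` and `v`.

The lifts `⁅e, z⁆` span a complement of the kernel in the preimage of `E` which is normalised by the
lifts of `u` and `v`, and these commute by fusion.
-/

set_option autoImplicit false

namespace CfsgLib.SchurMult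

open Subgroup
open scoped commutatorElement

universe v

variable {G : Type v} [Group G] [Finite G]
variable {Γ : Type v} [Group Γ] [Finite Γ] {σ : Γ →* G}

/-- An inverted elementary abelian group extended by a commuting pair of its centraliser. -/
theorem not_three_dvd_of_inverted (hσ : Cfsg.IsStemExtension σ) {ι : Type*} (E : ι → G)
    {z u v g : G} {a b c d : ℕ}
    (hE : ∀ i, E i ^ 3 = 1) (hcomm : ∀ i j, Commute (E i) (E j))
    (hz : ∀ i, z * E i = (E i)⁻¹ * z)
    (hpair : ∀ i j, i = j ∨ ∃ (h : G) (a b c d : ℕ), h * E i * h⁻¹ = E i ^ a * E j ^ b ∧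
      h * E j * h⁻¹ = E i ^ c * E j ^ d ∧ (a * d + 2 * (b * c)) % 3 ≠ 1)
    (hzu : Commute z u) (hzv : Commute z v) (huv : Commute u v) (hu : u ^ 3 = 1)
    (hgu : g * u * g⁻¹ = u ^ a * v ^ b) (hgv : g * v * g⁻¹ = u ^ c * v ^ d)
    (hdet : (a * d + 2 * (b * c)) % 3 ≠ 1)
    (huE : ∀ i, u * E i * u⁻¹ ∈ Subgroup.closure (Set.range E))
    (hvE : ∀ i, v * E i * v⁻¹ ∈ Subgroup.closure (Set.range E))
    (hindex : ¬ 3 ∣ (Subgroup.closure (Set.range E ∪ {u, v})).index) : ¬ 3 ∣ Nat.card σ.ker := by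
  have hc := hσ.2.1
  choose L hL using fun i => hσ.1 (E i)
  obtain ⟨Z, hZ⟩ := hσ.1 z
  obtain ⟨U, hU⟩ := hσ.1 u
  obtain ⟨V, hV⟩ := hσ.1 v
  have cen : ∀ {k : Γ}, k ∈ σ.ker → ∀ h : Γ, h * k = k * h := fun hk h => ker_comm hc hk h
  -- lifts of `E` commute
  have hLL : ∀ i j, ⁅L i, L j⁆ = 1 := by
    intro i j
    rcases hpair i j with rfl | ⟨h, a', b', c', d', e1, e2, e3⟩
    · rw [commutatorElement_eq_one_iff_mul_comm]
    · exact comm_eq_one_of_det hc hσ.1 (by rw [hL, hL]; exact hcomm i j) (by rw [hL, hE])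
        (by rw [hL, hL]; exact e1) (by rw [hL, hL]; exact e2) e3
  set A := (Subgroup.closure (σ '' Set.range L)).comap σ with hA
  have hAbot : ⁅A, A⁆ = ⊥ := commutator_comap_closure_eq_bot hc _ (by
    rintro _ ⟨i, rfl⟩ _ ⟨j, rfl⟩
    exact hLL i j)
  have habel : ∀ p ∈ A, ∀ q ∈ A, p * q = q * p := fun p hp q hq => by
    rw [← commutatorElement_eq_one_iff_mul_comm, ← Subgroup.mem_bot, ← hAbot]
    exact Subgroup.commutator_mem_commutator hp hq
  have himg : σ '' Set.range L = Set.range E := by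
    rw [← Set.range_comp]; exact congrArg Set.range (funext hL)
  have hEA : ∀ {p : Γ}, σ p ∈ Subgroup.closure (Set.range E) → p ∈ A := fun hp => by
    rw [hA, Subgroup.mem_comap, himg]; exact hp
  -- the new lifts
  set l : ι → Γ := fun i => ⁅L i, Z⁆ with hl
  have hzinv : ∀ i, z * E i * z⁻¹ = (E i)⁻¹ := fun i => by rw [hz, mul_inv_cancel_right]
  have hσl : ∀ i, σ (l i) = E i ^ 2 := fun i => by
    rw [hl, map_commutatorElement, hL, hZ, commutatorElement_def,
      show E i * z * (E i)⁻¹ * z⁻¹ = E i * (z * E i * z⁻¹)⁻¹ by group, hzinv, inv_inv, pow_two]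
  have hlA : ∀ i, l i ∈ A := fun i => hEA (by
    rw [hσl]; exact pow_mem (Subgroup.subset_closure (Set.mem_range_self i)) 2)
  have hLA : ∀ i, L i ∈ A := fun i => hEA (by rw [hL]; exact Subgroup.subset_closure ⟨i, rfl⟩)
  have hpow : ∀ (i) (n : ℕ), ⁅L i ^ n, Z⁆ = l i ^ n := by
    intro i n
    induction n with
    | zero => simp
    | succ n ih =>
      have h1 : ⁅L i ^ (n + 1), Z⁆ = L i * ⁅L i ^ n, Z⁆ * (L i)⁻¹ * ⁅L i, Z⁆ := by
        simp only [commutatorElement_def, pow_succ']; group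
      rw [h1, ih, habel _ (hLA i) _ (pow_mem (hlA i) n), mul_inv_cancel_right, pow_succ]
  have hl3 : ∀ i, l i ^ 3 = 1 := fun i => by
    rw [← hpow, commutatorElement_eq_one_iff_mul_comm]
    exact (cen (show L i ^ 3 ∈ σ.ker by rw [MonoidHom.mem_ker, map_pow, hL, hE]) Z).symm
  have hinv : ∀ i, Z * l i * Z⁻¹ = (l i)⁻¹ := by
    intro i
    have hk : L i * (Z * L i * Z⁻¹) ∈ σ.ker := by
      rw [MonoidHom.mem_ker, map_mul, map_mul, map_mul, map_inv, hL, hZ, hzinv, mul_inv_cancel]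
    set k := L i * (Z * L i * Z⁻¹) with hkdef
    have e1 : Z * L i * Z⁻¹ = (L i)⁻¹ * k := by rw [hkdef]; group
    calc Z * l i * Z⁻¹ = (Z * L i * Z⁻¹) * Z * (Z * L i * Z⁻¹)⁻¹ * Z⁻¹ := by
          simp only [hl, commutatorElement_def]; group
      _ = (L i)⁻¹ * (k * Z * k⁻¹) * L i * Z⁻¹ := by rw [e1]; group
      _ = (L i)⁻¹ * Z * L i * Z⁻¹ := by rw [← cen hk Z, mul_inv_cancel_right]
      _ = (L i)⁻¹ * ⁅Z, L i⁆ * L i := by rw [commutatorElement_def]; group
      _ = ⁅Z, L i⁆ := by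
        have h1 : ⁅Z, L i⁆ ∈ A := by rw [← commutatorElement_inv]; exact inv_mem (hlA i)
        rw [mul_assoc, habel _ h1 _ (hLA i), inv_mul_cancel_left]
      _ = (l i)⁻¹ := (commutatorElement_inv _ _).symm
  set N := Subgroup.closure (Set.range l) with hN
  have hNA : N ≤ A := (Subgroup.closure_le A).2 (by rintro _ ⟨i, rfl⟩; exact hlA i)
  have hN3 : ∀ p ∈ N, p ^ 3 = 1 ∧ Z * p * Z⁻¹ = p⁻¹ := by
    intro p hp
    induction hp using Subgroup.closure_induction with
    | mem p hp => obtain ⟨i, rfl⟩ := hp; exact ⟨hl3 i, hinv i⟩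
    | one => simp
    | mul p q hp hq ihp ihq =>
      have hpq : Commute p q := habel _ (hNA hp) _ (hNA hq)
      refine ⟨by rw [hpq.mul_pow, ihp.1, ihq.1, one_mul], ?_⟩
      calc Z * (p * q) * Z⁻¹ = (Z * p * Z⁻¹) * (Z * q * Z⁻¹) := by group
        _ = (p * q)⁻¹ := by rw [ihp.2, ihq.2, hpq.inv_inv.eq, mul_inv_rev]
    | inv p hp ihp =>
      refine ⟨by rw [inv_pow, ihp.1, inv_one], ?_⟩
      rw [show Z * p⁻¹ * Z⁻¹ = (Z * p * Z⁻¹)⁻¹ by group, ihp.2]
  have hmapN : N.map σ = Subgroup.closure (Set.range E) := by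
    rw [hN, MonoidHom.map_closure, ← Set.range_comp]
    refine le_antisymm ((Subgroup.closure_le _).2 ?_) ((Subgroup.closure_le _).2 ?_)
    · rintro _ ⟨i, rfl⟩
      show σ (l i) ∈ Subgroup.closure (Set.range E)
      rw [hσl]; exact pow_mem (Subgroup.subset_closure (Set.mem_range_self i)) 2
    · rintro _ ⟨i, rfl⟩
      have h := pow_mem (Subgroup.subset_closure ⟨i, hσl i⟩ :
        E i ^ 2 ∈ Subgroup.closure (Set.range (σ ∘ l))) 2
      rwa [← pow_mul, show 2 * 2 = 3 + 1 from rfl, pow_succ, hE, one_mul] at h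
  -- elements normalising the new lifts
  have hnorm : ∀ {W : Γ} {w : G}, σ W = w → Commute z w →
      (∀ i, w * E i * w⁻¹ ∈ Subgroup.closure (Set.range E)) → ∀ i, W * l i * W⁻¹ ∈ N := by
    intro W w hW hzw hwE i
    have hmem : σ (W * l i * W⁻¹) ∈ N.map σ := by
      rw [hmapN, map_mul, map_mul, map_inv, hW, hσl, ← conj_pow]
      exact pow_mem (hwE i) 2
    obtain ⟨f, hf, hfe⟩ := hmem
    have hk : f⁻¹ * (W * l i * W⁻¹) ∈ σ.ker := by
      rw [MonoidHom.mem_ker, map_mul, map_inv, hfe, inv_mul_cancel]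
    set k := f⁻¹ * (W * l i * W⁻¹) with hkdef
    have e : W * l i * W⁻¹ = f * k := by rw [hkdef, mul_inv_cancel_left]
    have hfk : Commute f k := cen hk f
    have hk3 : k ^ 3 = 1 := by
      have h1 : (f * k) ^ 3 = 1 := by rw [← e, conj_pow, hl3, mul_one, mul_inv_cancel]
      rwa [hfk.mul_pow, (hN3 f hf).1, one_mul] at h1
    have hw' : W⁻¹ * (Z * W * Z⁻¹) ∈ σ.ker := by
      rw [MonoidHom.mem_ker, map_mul, map_inv, map_mul, map_mul, map_inv, hW, hZ, hzw.eq,
        mul_inv_cancel_right, inv_mul_cancel]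
    set k' := W⁻¹ * (Z * W * Z⁻¹) with hk'def
    have h2 : Z * (W * l i * W⁻¹) * Z⁻¹ = W * (l i)⁻¹ * W⁻¹ := by
      calc Z * (W * l i * W⁻¹) * Z⁻¹ = (W * k') * (Z * l i * Z⁻¹) * (W * k')⁻¹ := by
            rw [hk'def]; group
        _ = W * (k' * (l i)⁻¹ * k'⁻¹) * W⁻¹ := by rw [hinv]; group
        _ = _ := by rw [← cen hw' (l i)⁻¹, mul_inv_cancel_right]
    have h3 : f⁻¹ * k = f⁻¹ * k⁻¹ := by
      have hL' : Z * (f * k) * Z⁻¹ = f⁻¹ * k := by
        calc Z * (f * k) * Z⁻¹ = (Z * f * Z⁻¹) * (Z * k * Z⁻¹) := by group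
          _ = _ := by rw [(hN3 f hf).2, cen hk Z, mul_inv_cancel_right]
      have hR : W * (l i)⁻¹ * W⁻¹ = f⁻¹ * k⁻¹ := by
        rw [show W * (l i)⁻¹ * W⁻¹ = (W * l i * W⁻¹)⁻¹ by group, e, hfk.eq, mul_inv_rev]
      rw [← hL', ← e, h2, hR]
    have hk2 : k * k = 1 := by
      have := mul_left_cancel h3
      nth_rewrite 1 [this]
      exact inv_mul_cancel k
    have hk1 : k = 1 := by
      rw [pow_succ, pow_two, hk2, one_mul] at hk3
      exact hk3
    rw [e, hk1, mul_one]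
    exact hf
  have hnu := hnorm hU hzu huE
  have hnv := hnorm hV hzv hvE
  have hUV : ⁅U, V⁆ = 1 := comm_eq_one_of_det hc hσ.1 (by rw [hU, hV]; exact huv) (by rw [hU, hu])
    (by rw [hU, hV]; exact hgu) (by rw [hU, hV]; exact hgv) hdet
  have hnormal : ∀ W : Γ, (∀ i, W * l i * W⁻¹ ∈ N) → W ∈ Subgroup.normalizer (N : Set Γ) := by
    intro W hW
    have hmap : N.map (MulAut.conj W).toMonoidHom ≤ N := by
      rw [hN, MonoidHom.map_closure, Subgroup.closure_le, ← hN]
      rintro _ ⟨_, ⟨i, rfl⟩, rfl⟩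
      exact hW i
    have heq : N.map (MulAut.conj W).toMonoidHom = N :=
      Subgroup.eq_of_le_of_card_ge hmap
        (Subgroup.card_map_of_injective (MulAut.conj W).injective).ge
    rw [Subgroup.mem_normalizer_iff]
    intro h
    constructor
    · exact fun hh => hmap ⟨h, hh, rfl⟩
    · intro hh
      have hh' : MulAut.conj W h ∈ N := hh
      rw [← heq] at hh'
      obtain ⟨p, hp, e⟩ := hh'
      exact (MulAut.conj W).injective e ▸ hp
  refine not_dvd_card_ker_of_local hσ Nat.prime_three _ hindex fun p hp hpk => ?_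
  have hclos : Subgroup.closure (Set.range E ∪ {u, v}) =
      Subgroup.closure (σ '' (Set.range l ∪ {U, V})) := by
    rw [Set.image_union, Set.image_pair, hU, hV, Subgroup.closure_union, Subgroup.closure_union,
      ← hmapN, hN, MonoidHom.map_closure]
  rw [hclos] at hp
  have hpN : p ∈ N := by
    refine commutator_comap_closure_le hc (Set.range l ∪ {U, V}) N ?_ ?_ hp
    · rintro s (⟨i, rfl⟩ | rfl | rfl)
      · exact Subgroup.le_normalizer (Subgroup.subset_closure ⟨i, rfl⟩)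
      · exact hnormal _ hnu
      · exact hnormal _ hnv
    · have hul : ∀ {W : Γ}, (∀ i, W * l i * W⁻¹ ∈ N) → ∀ i, ⁅W, l i⁆ ∈ N := fun hW i => by
        rw [commutatorElement_def]
        exact mul_mem (hW i) (inv_mem (Subgroup.subset_closure ⟨i, rfl⟩))
      have hlu : ∀ {W : Γ}, (∀ i, W * l i * W⁻¹ ∈ N) → ∀ i, ⁅l i, W⁆ ∈ N := fun hW i => by
        rw [← commutatorElement_inv]; exact inv_mem (hul hW i)
      rintro s (⟨i, rfl⟩ | rfl | rfl) t (⟨j, rfl⟩ | rfl | rfl)
      · rw [commutatorElement_eq_one_iff_mul_comm.2 (habel _ (hlA i) _ (hlA j))]; exact one_mem N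
      · exact hlu hnu i
      · exact hlu hnv i
      · exact hul hnu j
      · simp
      · rw [hUV]; exact one_mem N
      · exact hul hnv j
      · rw [← commutatorElement_inv, hUV, inv_one]; exact one_mem N
      · simp
  obtain ⟨h3, h2⟩ := hN3 p hpN
  have hp' : p = p⁻¹ := by rwa [cen hpk Z, mul_inv_cancel_right] at h2
  rw [pow_succ, pow_two] at h3
  nth_rewrite 1 [hp'] at h3
  rwa [inv_mul_cancel, one_mul] at h3

end CfsgLib.SchurMult
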