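import Cfsg.Agent.Lib.SchurMult.CentralComm
import Cfsg.Agent.Lib.SchurMult.Reduce
import Mathlib.GroupTheory.GroupAction.Basic
import Mathlib.GroupTheory.Index

/-!
A central extension of order `3` induced from a point stabiliser: monomial lifts modulo the product of
the kernel coordinates. It is a stem extension as soon as one commuting pair of elements of order `3`
has a nontrivial product of lifted commutators over its common fixed points.
-/

set_option autoImplicit false
set_option linter.style.haveILetI false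

namespace CfsgLib.SchurMult.Transfer

open Subgroup
open scoped commutatorElement

variable {X : Type*}

/-- The point of a three-cycle with least number. -/
noncomputable def rep [Fintype X] (σ : X → X) (y : X) : X :=
  if Fintype.equivFin X y < Fintype.equivFin X (σ y) ∧ Fintype.equivFin X y < Fintype.equivFin X (σ (σ y))
  then y
  else if Fintype.equivFin X (σ y) < Fintype.equivFin X (σ (σ y)) then σ y else σ (σ y)

theorem rep_spec [Fintype X] {σ : X → X} {y : X} (h1 : σ y ≠ y) (h3 : σ (σ (σ y)) = y) :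
    rep σ (σ y) = rep σ y ∧
    (Fintype.equivFin X (rep σ y) < Fintype.equivFin X (σ (rep σ y)) ∧
      Fintype.equivFin X (rep σ y) < Fintype.equivFin X (σ (σ (rep σ y)))) ∧
    (rep σ y = y ∨ rep σ y = σ y ∨ rep σ y = σ (σ y)) := by
  have h2 : σ (σ y) ≠ y := fun h => h1 (by rw [h] at h3; exact h3)
  have h12 : σ (σ y) ≠ σ y := fun h => h2 (by
    have := congrArg σ h; rw [h3] at this; exact this.symm)
  have d1 : Fintype.equivFin X (σ y) ≠ Fintype.equivFin X y := fun h => h1 ((Fintype.equivFin X).injective h)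
  have d2 : Fintype.equivFin X (σ (σ y)) ≠ Fintype.equivFin X y := fun h =>
    h2 ((Fintype.equivFin X).injective h)
  have d3 : Fintype.equivFin X (σ (σ y)) ≠ Fintype.equivFin X (σ y) := fun h =>
    h12 ((Fintype.equivFin X).injective h)
  rcases lt_or_gt_of_ne d1 with a | a <;> rcases lt_or_gt_of_ne d2 with b | b <;>
    rcases lt_or_gt_of_ne d3 with c | c <;>
    simp [rep, h3, a, b, c, not_lt_of_gt a, not_lt_of_gt b, not_lt_of_gt c] <;>
    exact absurd (lt_trans (by assumption) (by assumption)) (lt_asymm (by assumption))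

variable {M : Type*} [CommMonoid M]

/-- A product over points moved by a map with `σ³ = 1`, cycle by cycle. -/
theorem prod_three [Fintype X] [DecidableEq X] (s : Finset X) (σ : X → X) (hmem : ∀ y ∈ s, σ y ∈ s)
    (hne : ∀ y ∈ s, σ y ≠ y) (h3 : ∀ y ∈ s, σ (σ (σ y)) = y) (k : X → M) :
    ∏ y ∈ s, k y = ∏ y ∈ s.filter (fun y => rep σ y = y), k y * k (σ y) * k (σ (σ y)) := by
  have hrep : ∀ y ∈ s, rep σ y ∈ s := fun y hy => by
    obtain ⟨-, -, h | h | h⟩ := rep_spec (hne y hy) (h3 y hy) <;> rw [h]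
    exacts [hy, hmem y hy, hmem _ (hmem y hy)]
  rw [← Finset.prod_fiberwise_of_maps_to (t := s.filter fun y => rep σ y = y) (g := rep σ)
    (fun y hy => Finset.mem_filter.2 ⟨hrep y hy, by
      obtain ⟨e, hlt, h⟩ := rep_spec (hne y hy) (h3 y hy)
      obtain ⟨e', -⟩ := rep_spec (hne _ (hmem y hy)) (h3 _ (hmem y hy))
      rcases h with h | h | h <;> rw [h]
      exacts [h, e.trans h, e'.trans (e.trans h)]⟩) k]
  refine Finset.prod_congr rfl fun r hr => ?_
  obtain ⟨hrs, hrr⟩ := Finset.mem_filter.1 hr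
  have n1 := hne r hrs
  have n2 : σ (σ r) ≠ r := fun h => n1 (by
    have := h3 r hrs; rw [h] at this; exact this)
  have n3 : σ (σ r) ≠ σ r := hne _ (hmem r hrs)
  have e1 := (rep_spec (hne r hrs) (h3 r hrs)).1
  have e2 := (rep_spec (hne _ (hmem r hrs)) (h3 _ (hmem r hrs))).1
  have hset : s.filter (fun y => rep σ y = r) = {r, σ r, σ (σ r)} := by
    ext y
    simp only [Finset.mem_filter, Finset.mem_insert, Finset.mem_singleton]
    constructor
    · rintro ⟨hy, e⟩
      obtain ⟨-, -, h | h | h⟩ := rep_spec (hne y hy) (h3 y hy) <;> rw [e] at h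
      · exact Or.inl h.symm
      · exact Or.inr (Or.inr (by rw [h, h3 y hy]))
      · exact Or.inr (Or.inl (by rw [h, h3 y hy]))
    · rintro (rfl | rfl | rfl)
      exacts [⟨hrs, hrr⟩, ⟨hmem r hrs, e1.trans hrr⟩, ⟨hmem _ (hmem r hrs), e2.trans (e1.trans hrr)⟩]
  rw [hset, Finset.prod_insert (by simp [n1.symm, n2.symm]), Finset.prod_insert (by simp [n3.symm]),
    Finset.prod_singleton, mul_assoc]

variable {G E : Type*} [Group G] [MulAction G X] [Group E]

/-- The multiplier part of a monomial element. -/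
def fAt (w : G × Equiv.Perm (X × E)) (y : X) : E := (w.2 (y, 1)).2

/-- The monomial lifts of the elements of `G`. -/
def monomial (π : E →* G) (s : X → G) : Subgroup (G × Equiv.Perm (X × E)) where
  carrier := {w | ∀ (y : X) (e : E), w.2 (y, e) = (w.1 • y, fAt w y * e) ∧
    π (fAt w y) = (s (w.1 • y))⁻¹ * w.1 * s y}
  one_mem' := fun y e => by simp [fAt]
  mul_mem' := fun {v w} hv hw y e => by
    have h1 : fAt (v * w) y = fAt v (w.1 • y) * fAt w y := by
      show ((v * w).2 (y, 1)).2 = _
      rw [Prod.snd_mul, Equiv.Perm.mul_apply, (hw y 1).1, (hv (w.1 • y) _).1]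
      rw [mul_one]
    refine ⟨?_, ?_⟩
    · rw [h1, Prod.snd_mul, Equiv.Perm.mul_apply, (hw y e).1, (hv _ _).1, Prod.fst_mul, mul_smul, mul_assoc]
    · rw [h1, map_mul, (hv (w.1 • y) 1).2, (hw y 1).2, Prod.fst_mul, mul_smul]
      group
  inv_mem' := fun {w} hw y e => by
    have h : ∀ e : E, (w⁻¹).2 (y, e) = (w.1⁻¹ • y, (fAt w (w.1⁻¹ • y))⁻¹ * e) := fun e => by
      rw [Prod.snd_inv, Equiv.Perm.inv_eq_iff_eq, (hw _ _).1, smul_inv_smul, mul_inv_cancel_left]
    have h1 : fAt w⁻¹ y = (fAt w (w.1⁻¹ • y))⁻¹ := by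
      show ((w⁻¹).2 (y, 1)).2 = _
      rw [h, mul_one]
    refine ⟨by rw [h1, h, Prod.fst_inv], ?_⟩
    rw [h1, map_inv, (hw _ 1).2, Prod.fst_inv, smul_inv_smul]
    group

variable {π : E →* G} {s : X → G}

theorem fAt_mul {v w : G × Equiv.Perm (X × E)} (hv : v ∈ monomial π s) (hw : w ∈ monomial π s) (y : X) :
    fAt (v * w) y = fAt v (w.1 • y) * fAt w y := by
  show ((v * w).2 (y, 1)).2 = _
  rw [Prod.snd_mul, Equiv.Perm.mul_apply, (hw y 1).1, (hv (w.1 • y) _).1, mul_one]

theorem exists_monomial_lift (g : G) (n : X → E) (hn : ∀ y, π (n y) = (s (g • y))⁻¹ * g * s y) :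
    ∃ w ∈ monomial π s, w.1 = g ∧ ∀ y, fAt w y = n y := by
  let p : Equiv.Perm (X × E) :=
    { toFun := fun q => (g • q.1, n q.1 * q.2)
      invFun := fun q => (g⁻¹ • q.1, (n (g⁻¹ • q.1))⁻¹ * q.2)
      left_inv := fun q => by simp
      right_inv := fun q => by simp }
  have hf : ∀ y, fAt ((g, p) : G × Equiv.Perm (X × E)) y = n y := fun y => mul_one _
  exact ⟨(g, p), fun y e => ⟨by rw [hf]; rfl, by rw [hf]; exact hn y⟩, rfl, hf⟩

/-- The stem extension of order `3` induced from a point stabiliser. -/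
theorem exists_cover [Finite G] [Finite E] [Fintype X] [DecidableEq X] (π : E →* G) (x₀ : X)
    (htr : ∀ y, ∃ g : G, g • x₀ = y) (hrange : π.range = MulAction.stabilizer G x₀)
    (hc : π.ker ≤ Subgroup.center E) (hcard : Nat.card π.ker = 3)
    {a b : G} (hab : Commute a b) (ha : a ^ 3 = 1) (hb : b ^ 3 = 1)
    {ι : Type*} [Fintype ι] (p : ι → X) (hp : Function.Injective p)
    (hfix : ∀ y, a • y = y → b • y = y → y ∈ Set.range p)
    (hfix' : ∀ i, a • p i = p i ∧ b • p i = p i)
    (t : ι → G) (ht : ∀ i, t i • x₀ = p i) (ea eb : ι → E)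
    (hea : ∀ i, π (ea i) = (t i)⁻¹ * a * t i) (heb : ∀ i, π (eb i) = (t i)⁻¹ * b * t i)
    (ls : List ι) (hls : ls.Nodup) (hall : ∀ i, i ∈ ls)
    (hne : (ls.map fun i => ⁅ea i, eb i⁆).prod ≠ 1) :
    ∃ (W : Subgroup (G × Equiv.Perm (X × E))) (N : Subgroup W) (_ : N.Normal) (τ : W ⧸ N →* G),
      Cfsg.IsStemExtension τ ∧ Nat.card τ.ker = 3 := by
  classical
  letI : CommGroup π.ker :=
    { mul_comm := fun u v => Subtype.ext (Subgroup.mem_center_iff.1 (hc v.2) (u : E)) }
  choose s0 hs0 using htr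
  let s : X → G := fun y => if h : ∃ i, p i = y then t h.choose else s0 y
  have hs : ∀ y, s y • x₀ = y := fun y => by
    by_cases h : ∃ i, p i = y
    · simp only [s, dif_pos h, ht, h.choose_spec]
    · simp only [s, dif_neg h, hs0]
  have hsp : ∀ i, s (p i) = t i := fun i => by
    have h : ∃ j, p j = p i := ⟨i, rfl⟩
    simp only [s, dif_pos h, hp h.choose_spec]
  have hstab : ∀ g y, (s (g • y))⁻¹ * g * s y ∈ π.range := fun g y => by
    rw [hrange, MulAction.mem_stabilizer_iff, mul_smul, mul_smul, hs, inv_smul_eq_iff, hs]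
  let W := monomial π s
  have hlift : ∀ g, ∃ w : W, (w : G × Equiv.Perm (X × E)).1 = g := fun g => by
    choose n hn using hstab g
    obtain ⟨w, hw, hwg, -⟩ := exists_monomial_lift (π := π) g n hn
    exact ⟨⟨w, hw⟩, hwg⟩
  let τ₀ : W →* G := (MonoidHom.fst _ _).comp W.subtype
  have hker : ∀ w : W, w ∈ τ₀.ker → ∀ y, fAt (w : G × Equiv.Perm (X × E)) y ∈ π.ker := fun w hw y => by
    have hw1 : (w : G × Equiv.Perm (X × E)).1 = 1 := hw
    rw [MonoidHom.mem_ker, (w.2 y 1).2, hw1, one_smul, mul_one, inv_mul_cancel]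
  let θ : τ₀.ker →* π.ker := MonoidHom.mk'
    (fun w => ∏ y, (⟨fAt ((w : W) : G × Equiv.Perm (X × E)) y, hker w w.2 y⟩ : π.ker))
    (fun v w => by
      rw [← Finset.prod_mul_distrib]
      refine Finset.prod_congr rfl fun y _ => Subtype.ext ?_
      show fAt (((v : W) : G × Equiv.Perm (X × E)) * ((w : W) : G × Equiv.Perm (X × E))) y = _
      rw [fAt_mul (v : W).2 (w : W).2, show ((w : W) : G × Equiv.Perm (X × E)).1 = 1 from w.2, one_smul]
      rfl)
  have hconj : ∀ (w : W) (n : τ₀.ker) (h : w * n * w⁻¹ ∈ τ₀.ker), θ ⟨_, h⟩ = θ n := fun w n h => by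
    show ∏ y, _ = ∏ y, _
    refine (Fintype.prod_equiv (MulAction.toPerm (w : G × Equiv.Perm (X × E)).1) _ _ fun y => ?_).symm
    refine Subtype.ext ?_
    show fAt ((n : W) : G × Equiv.Perm (X × E)) y = fAt (((w * (n : W) * w⁻¹ : W)) : G × Equiv.Perm (X × E))
      ((w : G × Equiv.Perm (X × E)).1 • y)
    have e1 : ((w * (n : W) * w⁻¹ : W) : G × Equiv.Perm (X × E)) * w = (w : G × Equiv.Perm (X × E)) * (n : W) := by
      rw [← Subgroup.coe_mul, inv_mul_cancel_right, Subgroup.coe_mul]
    have e2 := congrArg (fun u => fAt u y) e1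
    simp only [fAt_mul (w * (n : W) * w⁻¹).2 w.2, fAt_mul w.2 (n : W).2,
      show ((n : W) : G × Equiv.Perm (X × E)).1 = 1 from n.2, one_smul,
      Subgroup.mem_center_iff.1 (hc (hker n n.2 y)) (fAt (w : G × Equiv.Perm (X × E)) y)] at e2
    exact (mul_right_cancel e2).symm
  let N : Subgroup W := θ.ker.map τ₀.ker.subtype
  haveI hN : N.Normal := ⟨fun n hn w => by
    obtain ⟨m, hm, rfl⟩ := hn
    have h : w * (m : W) * w⁻¹ ∈ τ₀.ker := τ₀.normal_ker.conj_mem _ m.2 w
    exact ⟨⟨_, h⟩, MonoidHom.mem_ker.2 ((hconj w m h).trans hm), rfl⟩⟩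
  have hNle : N ≤ τ₀.ker := Subgroup.map_subtype_le _
  let τ : W ⧸ N →* G := QuotientGroup.lift N τ₀ hNle
  have hτker : τ.ker = τ₀.ker.map (QuotientGroup.mk' N) := QuotientGroup.ker_lift N τ₀ hNle
  have hθ : Function.Surjective θ := fun k => by
    obtain ⟨w, hw, hw1, hwf⟩ := exists_monomial_lift (π := π) (s := s) 1
      (fun y => if y = x₀ then (k : E) else 1) (fun y => by
        rw [one_smul, mul_one, inv_mul_cancel]
        split_ifs
        exacts [k.2, map_one π])
    refine ⟨⟨⟨w, hw⟩, hw1⟩, ?_⟩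
    show ∏ y, _ = k
    rw [Finset.prod_eq_single x₀ (fun y _ hy => Subtype.ext ((hwf y).trans (if_neg hy)))
      (fun h => absurd (Finset.mem_univ _) h)]
    exact Subtype.ext ((hwf x₀).trans (if_pos rfl))
  have hcard' : Nat.card τ.ker = 3 := by
    have h := Subgroup.relIndex_ker (f := QuotientGroup.mk' N) τ₀.ker
    rw [QuotientGroup.ker_mk'] at h
    rw [hτker, ← h, Subgroup.relIndex, Subgroup.subgroupOf,
      Subgroup.comap_map_eq_self_of_injective τ₀.ker.subtype_injective, Subgroup.index_ker,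
      MonoidHom.range_eq_top.2 hθ, Subgroup.card_top, hcard]
  have hτsurj : Function.Surjective τ := fun g => by
    obtain ⟨w, hw⟩ := hlift g
    exact ⟨QuotientGroup.mk w, hw⟩
  have hcen : τ.ker ≤ Subgroup.center (W ⧸ N) := by
    rw [hτker]
    rintro _ ⟨n, hn, rfl⟩
    rw [Subgroup.mem_center_iff]
    intro q
    obtain ⟨w, rfl⟩ := QuotientGroup.mk'_surjective N q
    rw [← map_mul, ← map_mul, QuotientGroup.mk'_apply, QuotientGroup.mk'_apply, QuotientGroup.eq]
    have h : w * n * w⁻¹ ∈ τ₀.ker := τ₀.normal_ker.conj_mem _ hn w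
    have h' : (w * n)⁻¹ * (n * w) ∈ τ₀.ker := by
      rw [MonoidHom.mem_ker, map_mul, map_inv, map_mul, map_mul, MonoidHom.mem_ker.1 hn]; simp
    refine ⟨⟨_, h'⟩, ?_, rfl⟩
    have e : (⟨_, h'⟩ : τ₀.ker) =
        ⟨_, τ₀.normal_ker.conj_mem _ (inv_mem hn) w⁻¹⟩ * ⟨w⁻¹ * n * w⁻¹⁻¹, τ₀.normal_ker.conj_mem _ hn w⁻¹⟩ *
          (⟨n, hn⟩ : τ₀.ker)⁻¹ * ⟨w⁻¹ * n * w⁻¹⁻¹, τ₀.normal_ker.conj_mem _ hn w⁻¹⟩ := by
      refine Subtype.ext ?_
      simp only [Subgroup.coe_mul, Subgroup.coe_inv]
      group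
    rw [SetLike.mem_coe, MonoidHom.mem_ker, e, map_mul, map_mul, map_mul, map_inv, hconj w⁻¹ ⟨n⁻¹, inv_mem hn⟩,
      hconj w⁻¹ ⟨n, hn⟩, show (⟨n⁻¹, inv_mem hn⟩ : τ₀.ker) = ⟨n, hn⟩⁻¹ from rfl, map_inv]
    simp
  -- the nontrivial commutator
  choose na hna using hstab a
  choose nb hnb using hstab b
  obtain ⟨wa, hwa, hwa1, hwaf⟩ := exists_monomial_lift (π := π) a na hna
  obtain ⟨wb, hwb, hwb1, hwbf⟩ := exists_monomial_lift (π := π) b nb hnb
  set c : W := ⁅(⟨wa, hwa⟩ : W), ⟨wb, hwb⟩⁆ with hcdef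
  have hc0 : c ∈ τ₀.ker := by
    rw [MonoidHom.mem_ker, hcdef, map_commutatorElement, commutatorElement_eq_one_iff_mul_comm]
    show wa.1 * wb.1 = wb.1 * wa.1
    rw [hwa1, hwb1]; exact hab
  let k : X → π.ker := fun y => ⟨fAt (c : G × Equiv.Perm (X × E)) ((b * a) • y), hker c hc0 _⟩
  have hk : ∀ y, na (b • y) * nb y = (k y : E) * (nb (a • y) * na y) := fun y => by
    have e : (wa : G × Equiv.Perm (X × E)) * wb = (c : G × Equiv.Perm (X × E)) * (wb * wa) := by
      show ((⟨wa, hwa⟩ * ⟨wb, hwb⟩ : W) : G × Equiv.Perm (X × E)) = ((c * (⟨wb, hwb⟩ * ⟨wa, hwa⟩) : W) : _)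
      rw [hcdef, commutatorElement_def]
      congr 1
      group
    have := congrArg (fun u => fAt u y) e
    simp only [fAt_mul hwa hwb, fAt_mul c.2 (mul_mem hwb hwa), fAt_mul hwb hwa, hwaf, hwbf, hwb1, hwa1,
      Prod.fst_mul] at this
    exact this
  have hθc : θ ⟨c, hc0⟩ = ∏ y, k y := by
    show ∏ y, _ = _
    exact (Fintype.prod_equiv (MulAction.toPerm (b * a)) _ _ fun y => rfl).symm
  have hcen' : ∀ (z : π.ker) (e : E), e * (z : E) = z * e := fun z e => Subgroup.mem_center_iff.1 (hc z.2) e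
  have hba : ∀ y : X, a • b • y = b • a • y := fun y => by rw [← mul_smul, hab.eq, mul_smul]
  have ha3 : ∀ y : X, a • a • a • y = y := fun y => by
    rw [← mul_smul, ← mul_smul, show a * a * a = a ^ 3 by rw [pow_succ, pow_two], ha, one_smul]
  have hb3 : ∀ y : X, b • b • b • y = y := fun y => by
    rw [← mul_smul, ← mul_smul, show b * b * b = b ^ 3 by rw [pow_succ, pow_two], hb, one_smul]
  have hLb : ∀ y, nb (b • b • y) * nb (b • y) * nb y ∈ π.ker := fun y => by
    rw [MonoidHom.mem_ker, map_mul, map_mul, hnb, hnb, hnb, hb3]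
    calc (s y)⁻¹ * b * s (b • b • y) * ((s (b • b • y))⁻¹ * b * s (b • y)) * ((s (b • y))⁻¹ * b * s y)
        = (s y)⁻¹ * (b ^ 3) * s y := by simp only [pow_succ, pow_zero]; group
      _ = 1 := by rw [hb, mul_one, inv_mul_cancel]
  let L : X → π.ker := fun y => ⟨_, hLb y⟩
  have hrot : ∀ y, L (b • y) = L y := fun y => by
    refine Subtype.ext ?_
    show nb (b • b • b • y) * nb (b • b • y) * nb (b • y) = nb (b • b • y) * nb (b • y) * nb y
    rw [hb3]
    have h := hcen' (L y) (nb y)
    refine mul_right_cancel (b := nb y) ?_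
    calc nb y * nb (b • b • y) * nb (b • y) * nb y = nb y * (L y : E) := by simp only [L]; group
      _ = _ := h
  have hrel : ∀ y, k y * k (b • y) * k (b • b • y) * L (a • y) = L y := fun y => by
    refine Subtype.ext ?_
    have e0 := hk y
    have e1 := hk (b • y)
    have e2 := hk (b • b • y)
    rw [hb3, hba, hba] at e2
    rw [hba] at e1
    show (k y : E) * k (b • y) * k (b • b • y) * L (a • y) = L y
    refine mul_left_cancel (a := na y) ?_
    calc na y * ((k y : E) * k (b • y) * k (b • b • y) * L (a • y))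
        = (k y : E) * k (b • y) * k (b • b • y) * (L (a • y) * na y) := by
          rw [show ((k y : E) * k (b • y) * k (b • b • y) * L (a • y)) =
            ((k y * k (b • y) * k (b • b • y) * L (a • y) : π.ker) : E) from rfl, hcen']
          simp only [Subgroup.coe_mul, mul_assoc]
      _ = (k (b • b • y) : E) * nb (b • b • a • y) * ((k (b • y) : E) * nb (b • a • y) *
            ((k y : E) * (nb (a • y) * na y))) := by
          rw [show (k y : E) * k (b • y) * k (b • b • y) =
            ((k (b • b • y) * k (b • y) * k y : π.ker) : E) by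
              rw [← Subgroup.coe_mul, ← Subgroup.coe_mul]
              exact congrArg Subtype.val (by ac_rfl)]
          simp only [Subgroup.coe_mul, L, mul_assoc]
          simp only [← mul_assoc, hcen' (k (b • y)) (_ : E)]
          simp only [mul_assoc]
          simp only [← mul_assoc, hcen' (k y) (_ : E)]
      _ = na y * (L y : E) := by
          rw [← e0]
          rw [show (k (b • y) : E) * nb (b • a • y) * (na (b • y) * nb y) =
            na (b • b • y) * nb (b • y) * nb y by
              rw [← mul_assoc, mul_assoc (k (b • y) : E), ← e1]]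
          rw [show (k (b • b • y) : E) * nb (b • b • a • y) * (na (b • b • y) * nb (b • y) * nb y) =
            na y * nb (b • b • y) * nb (b • y) * nb y by
              rw [← mul_assoc, ← mul_assoc, mul_assoc (k (b • b • y) : E), ← e2]]
          simp only [L, mul_assoc]
  have hMa : ∀ y, b • y = y → na (a • a • y) * na (a • y) * na y ∈ π.ker := fun y _ => by
    rw [MonoidHom.mem_ker, map_mul, map_mul, hna, hna, hna, ha3]
    calc (s y)⁻¹ * a * s (a • a • y) * ((s (a • a • y))⁻¹ * a * s (a • y)) * ((s (a • y))⁻¹ * a * s y)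
        = (s y)⁻¹ * (a ^ 3) * s y := by simp only [pow_succ, pow_zero]; group
      _ = 1 := by rw [ha, mul_one, inv_mul_cancel]
  have hrelA : ∀ y, b • y = y → k y * k (a • y) * k (a • a • y) = 1 := fun y hy => by
    refine Subtype.ext ?_
    have f1 : b • (a • y) = a • y := by rw [← hba, hy]
    have f2 : b • (a • a • y) = a • a • y := by rw [← hba, f1]
    have e0 := hk y
    have e1 := hk (a • y)
    have e2 := hk (a • a • y)
    rw [hy] at e0
    rw [f1] at e1
    rw [f2, ha3] at e2
    have hM := hcen' ⟨_, hMa y hy⟩ (nb y)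
    show (k y : E) * k (a • y) * k (a • a • y) = 1
    have e : na (a • a • y) * na (a • y) * (na y * nb y) =
        (k y : E) * k (a • y) * k (a • a • y) * (nb y * (na (a • a • y) * na (a • y) * na y)) := by
      rw [e0]
      calc na (a • a • y) * na (a • y) * ((k y : E) * (nb (a • y) * na y))
          = (k y : E) * (na (a • a • y) * (na (a • y) * nb (a • y)) * na y) := by
            rw [← mul_assoc, hcen' (k y)]; simp only [mul_assoc]
        _ = (k y : E) * (na (a • a • y) * ((k (a • y) : E) * (nb (a • a • y) * na (a • y))) * na y) := by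
            rw [e1]
        _ = (k y : E) * k (a • y) * (na (a • a • y) * nb (a • a • y) * (na (a • y) * na y)) := by
            rw [← mul_assoc (na (a • a • y)), hcen' (k (a • y))]; simp only [mul_assoc]
        _ = _ := by rw [e2]; simp only [mul_assoc]
    rw [hM] at e
    refine mul_right_cancel (b := na (a • a • y) * na (a • y) * na y * nb y) ?_
    rw [one_mul, ← e, ← mul_assoc]
  have hprod : ∏ y, k y = ∏ i, k (p i) := by
    set S1 := (Finset.univ : Finset X).filter fun y => b • y ≠ y with hS1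
    set S2 := (Finset.univ : Finset X).filter fun y => b • y = y ∧ a • y ≠ y with hS2
    have h1 : ∏ y ∈ S1, k y = 1 := by
      rw [prod_three S1 (fun y => b • y) (fun y hy => by
          simp only [hS1, Finset.mem_filter, Finset.mem_univ, true_and, ne_eq, smul_left_cancel_iff] at hy ⊢
          exact hy)
        (fun y hy => (Finset.mem_filter.1 hy).2) (fun y _ => hb3 y)]
      set R := S1.filter fun y => rep (fun y => b • y) y = y
      have hR : ∀ y ∈ S1, rep (fun y => b • y) y ∈ R ∧ L (rep (fun y => b • y) y) = L y ∧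
          rep (fun y => b • y) (b • y) = rep (fun y => b • y) y := fun y hy => by
        have hne' : b • y ≠ y := (Finset.mem_filter.1 hy).2
        have hmem : ∀ z, z ∈ S1 ↔ b • z ≠ z := fun z => by simp [hS1]
        obtain ⟨e1, -, h | h | h⟩ := rep_spec (σ := fun y => b • y) hne' (hb3 y) <;>
          refine ⟨Finset.mem_filter.2 ⟨?_, ?_⟩, ?_, e1⟩
        · rw [h]; exact hy
        · rw [h, h]
        · rw [h]
        · rw [h, hmem]; simpa using hne'
        · rw [h, e1, h]
        · rw [h, hrot]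
        · rw [h, hmem]; simpa using hne'
        · rw [h]
          exact ((rep_spec (σ := fun y => b • y) (by simpa using hne') (hb3 (b • y))).1.trans e1).trans h
        · rw [h, hrot, hrot]
      have hmoved : ∀ (g : G), Commute g b → ∀ y ∈ S1, g • y ∈ S1 := fun g hg y hy => by
        simp only [hS1, Finset.mem_filter, Finset.mem_univ, true_and, ne_eq] at hy ⊢
        rw [← mul_smul, ← hg.eq, mul_smul, smul_left_cancel_iff]
        exact hy
      have hrepc : ∀ (g : G), Commute g b → ∀ y ∈ S1,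
          rep (fun y => b • y) (g • rep (fun y => b • y) y) = rep (fun y => b • y) (g • y) := fun g hg y hy => by
        obtain ⟨-, -, h | h | h⟩ := rep_spec (σ := fun y => b • y) (Finset.mem_filter.1 hy).2 (hb3 y) <;>
          rw [h]
        · rw [← mul_smul, hg.eq, mul_smul, (hR _ (hmoved g hg y hy)).2.2]
        · rw [← mul_smul, hg.eq, mul_smul, ← mul_smul g b, hg.eq, mul_smul,
            (hR _ (hmoved b (Commute.refl b) _ (hmoved g hg y hy))).2.2, (hR _ (hmoved g hg y hy)).2.2]
      have hbij : ∏ y ∈ R, L (a • y) = ∏ y ∈ R, L y := by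
        refine Finset.prod_bij' (fun y _ => rep (fun y => b • y) (a • y))
          (fun y _ => rep (fun y => b • y) (a⁻¹ • y)) (fun y hy => ?_) (fun y hy => ?_) (fun y hy => ?_)
          (fun y hy => ?_) (fun y hy => ?_)
        · exact (hR _ (hmoved a hab y (Finset.mem_filter.1 hy).1)).1
        · exact (hR _ (hmoved a⁻¹ hab.inv_left y (Finset.mem_filter.1 hy).1)).1
        · obtain ⟨hy1, hy2⟩ := Finset.mem_filter.1 hy
          rw [hrepc a⁻¹ hab.inv_left _ (hmoved a hab y hy1), inv_smul_smul, hy2]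
        · obtain ⟨hy1, hy2⟩ := Finset.mem_filter.1 hy
          rw [hrepc a hab _ (hmoved a⁻¹ hab.inv_left y hy1), smul_inv_smul, hy2]
        · exact (hR _ (hmoved a hab y (Finset.mem_filter.1 hy).1)).2.1.symm
      rw [Finset.prod_congr rfl fun y _ => eq_mul_inv_of_mul_eq (hrel y), Finset.prod_mul_distrib,
        Finset.prod_inv_distrib, hbij, mul_inv_cancel]
    have h2 : ∏ y ∈ S2, k y = 1 := by
      rw [prod_three S2 (fun y => a • y) (fun y hy => by
          simp only [hS2, Finset.mem_filter, Finset.mem_univ, true_and, ne_eq] at hy ⊢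
          rw [← hba, hy.1]; exact ⟨rfl, fun h => hy.2 (MulAction.injective a h)⟩)
        (fun y hy => (Finset.mem_filter.1 hy).2.2) (fun y _ => ha3 y)]
      exact Finset.prod_eq_one fun y hy => hrelA y (Finset.mem_filter.1 (Finset.mem_filter.1 hy).1).2.1
    rw [← Finset.prod_filter_mul_prod_filter_not Finset.univ (fun y => b • y ≠ y) k, ← hS1, h1, one_mul,
      ← Finset.prod_filter_mul_prod_filter_not (Finset.univ.filter fun y => ¬ b • y ≠ y)
        (fun y => a • y ≠ y) k,
      Finset.filter_filter, Finset.filter_filter]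
    rw [show (Finset.univ.filter fun y => ¬ b • y ≠ y ∧ a • y ≠ y) = S2 by
      simp only [hS2, not_not], h2, one_mul]
    refine (Finset.prod_bij (fun i _ => p i) (fun i _ => ?_) (fun i _ j _ h => hp h) (fun y hy => ?_)
      (fun i _ => rfl)).symm
    · simp [hfix' i]
    · simp only [Finset.mem_filter, Finset.mem_univ, true_and, not_not] at hy
      obtain ⟨i, rfl⟩ := hfix y hy.2 hy.1
      exact ⟨i, Finset.mem_univ _, rfl⟩
  have hkp : ∀ i, (k (p i) : E) = ⁅ea i, eb i⁆ := fun i => by
    have e := hk (p i)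
    rw [(hfix' i).1, (hfix' i).2] at e
    have hcom : ⁅na (p i), nb (p i)⁆ = ⁅ea i, eb i⁆ := comm_eq_of_map_eq hc
      (by rw [hea, hna, (hfix' i).1, hsp]) (by rw [heb, hnb, (hfix' i).2, hsp])
    rw [← hcom, commutatorElement_def, e]
    group
  have hθne : θ ⟨c, hc0⟩ ≠ 1 := by
    rw [hθc, hprod]
    intro h
    refine hne ?_
    have := congrArg Subtype.val h
    rw [show (Finset.univ : Finset ι) = ls.toFinset from
      (Finset.eq_univ_of_forall fun i => List.mem_toFinset.2 (hall i)).symm, List.prod_toFinset _ hls,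
      Subgroup.val_list_prod, List.map_map] at this
    simpa [Function.comp_def, hkp] using this
  refine ⟨W, N, hN, τ, ⟨hτsurj, hcen, ?_⟩, hcard'⟩
  haveI : Fact (Nat.Prime 3) := ⟨Nat.prime_three⟩
  have hcm : QuotientGroup.mk' N c ∈ _root_.commutator (W ⧸ N) := by
    rw [hcdef, map_commutatorElement]
    exact Subgroup.commutator_mem_commutator (Subgroup.mem_top _) (Subgroup.mem_top _)
  have hck : QuotientGroup.mk' N c ∈ τ.ker := by
    rw [hτker]; exact Subgroup.mem_map_of_mem _ hc0
  have hc1 : QuotientGroup.mk' N c ≠ 1 := by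
    rw [QuotientGroup.mk'_apply, Ne, QuotientGroup.eq_one_iff]
    rintro ⟨m, hm, e⟩
    exact hθne (by rw [show (⟨c, hc0⟩ : τ₀.ker) = m from Subtype.ext e.symm]; exact hm)
  have htop := zpowers_eq_top_of_prime_card hcard' (g := (⟨_, hck⟩ : τ.ker))
    (fun h => hc1 (congrArg Subtype.val h))
  intro z hz
  obtain ⟨j, hj⟩ : (⟨z, hz⟩ : τ.ker) ∈ Subgroup.zpowers (⟨_, hck⟩ : τ.ker) := by
    rw [htop]; exact Subgroup.mem_top _
  have e : (QuotientGroup.mk' N c) ^ j = z := congrArg Subtype.val hj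
  exact e ▸ zpow_mem hcm j

end CfsgLib.SchurMult.Transfer
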