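import Cfsg.Agent.Lib.Twisted.ReeDouble
import Cfsg.Agent.Lib.Twisted.ReeUnipotentLaw

/-!
Coordinates on the unipotent part of ²G₂(q) and the action of the torus on them.
-/

set_option autoImplicit false
set_option linter.unusedSectionVars false

namespace CfsgLib.SchurMult.Ree

open Cfsg.Lie
open CfsgLib.Twisted
open CfsgLib.Chevalley (auxG2 cert_G2 xG xG_zero torusHom chi acts_torus diagonalSubgroup_eq_range)

variable {K : Type*} [Field K]

/-- The twist. -/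
def sg (m : ℕ) (x : K) : K := (x ^ 3 ^ m) ^ 3

theorem sg_mul (m : ℕ) (x y : K) : sg m (x * y) = sg m x * sg m y := by simp [sg, mul_pow]

theorem sg_zero (m : ℕ) : sg m (0 : K) = 0 := by simp [sg]

theorem sg_ne_zero (m : ℕ) {x : K} (h : x ≠ 0) : sg m x ≠ 0 := pow_ne_zero _ (pow_ne_zero _ h)

theorem sg_eq (m : ℕ) (x : K) : sg m x = x ^ 3 ^ (m + 1) := by rw [sg, ← pow_mul, ← pow_succ]

variable [Fintype K] {m : ℕ} (hK : Fintype.card K = 3 ^ (2 * m + 1))
include hK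

theorem sg_add (x y : K) : sg m (x + y) = sg m x + sg m y := by
  have : CharP K 3 := charP_ree hK
  have : Fact (Nat.Prime 3) := ⟨Nat.prime_three⟩
  rw [sg_eq, sg_eq, sg_eq, add_pow_char_pow]

theorem sg_neg (x : K) : sg m (-x) = -sg m x :=
  eq_neg_of_add_eq_zero_left (by rw [← sg_add hK, neg_add_cancel, sg_zero])

omit hK in
theorem sg_one : sg m (1 : K) = 1 := by simp [sg]

theorem sg_sg (x : K) : sg m (sg m x) = x ^ 3 := by
  rw [sg_eq, sg_eq, ← pow_mul, ← pow_add, show m + 1 + (m + 1) = 2 * m + 1 + 1 by ring, pow_succ,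
    pow_mul, ← hK, FiniteField.pow_card]

/-- The element with coordinates `t`, `E`, `F`. -/
noncomputable def ru (t E F : K) : ↥(twistedG2 K (3 ^ m)) :=
  ⟨wordG cert_G2 (reeWordU (3 ^ m) t (E - t * sg m t) (F - t ^ 2 * sg m t)),
    (Subgroup.mem_inf.1 ((mem_unipotent_g2 hK (g2Twist_isTwist hK) le_rfl _).2 ⟨_, _, _, rfl⟩)).1⟩

theorem coe_ru_mem (t E F : K) : (ru hK t E F : GL chevG2.Idx K) ∈ chevG2.posUnipotent K :=
  (Subgroup.mem_inf.1 ((mem_unipotent_g2 hK (g2Twist_isTwist hK) le_rfl _).2 ⟨_, _, _, rfl⟩)).2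

theorem coord_ru (t E F : K) : ReeCoord (ru hK t E F : GL chevG2.Idx K) t E F := by
  have h := reeCoord_word hK t (E - t * sg m t) (F - t ^ 2 * sg m t)
  simp only [sg, sub_add_cancel] at h
  exact h

theorem exists_ru {x : ↥(twistedG2 K (3 ^ m))} (hx : (x : GL chevG2.Idx K) ∈ chevG2.posUnipotent K) :
    ∃ t E F, x = ru hK t E F := by
  obtain ⟨t, u, v, e⟩ := (mem_unipotent_g2 hK (g2Twist_isTwist hK) le_rfl _).1
    (Subgroup.mem_inf.2 ⟨x.2, hx⟩)
  exact ⟨t, u + t * sg m t, v + t ^ 2 * sg m t, Subtype.ext (by simp [ru, e])⟩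

theorem eq_ru {x : ↥(twistedG2 K (3 ^ m))} (hx : (x : GL chevG2.Idx K) ∈ chevG2.posUnipotent K)
    {t E F : K} (hc : ReeCoord (x : GL chevG2.Idx K) t E F) : x = ru hK t E F := by
  obtain ⟨t', E', F', rfl⟩ := exists_ru hK hx
  obtain ⟨rfl, rfl, rfl⟩ := (coord_ru hK t' E' F').unique hc
  rfl

theorem ru_mul (t E F t' E' F' : K) :
    ru hK t E F * ru hK t' E' F' =
      ru hK (t + t') (E + E' + t' * sg m t) (F + F' + t' ^ 2 * sg m t - E * t') := by
  have h30 : ((3 : ℕ) : K) = 0 := natCast_char_zero (p := 3) (k := 2 * m + 1) (by omega) hK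
  refine eq_ru hK (mul_mem (coe_ru_mem hK _ _ _) (coe_ru_mem hK _ _ _)) ?_
  exact ReeCoord.mul h30 ⟨(E - t * sg m t) ^ 3 ^ m, (F - t ^ 2 * sg m t) ^ 3 ^ m, by
    have h := (reeWordU_sorted hK t (E - t * sg m t) (F - t ^ 2 * sg m t)).1
    simpa [reeSorted, sg, ru] using h⟩ (coord_ru hK t' E' F')

theorem ru_zero : ru hK 0 0 0 = 1 :=
  (eq_ru hK (one_mem _) (reeCoord_one (K := K))).symm

theorem ru_injective {t E F t' E' F' : K} (h : ru hK t E F = ru hK t' E' F') :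
    t = t' ∧ E = E' ∧ F = F' :=
  (coord_ru hK t E F).unique (h ▸ coord_ru hK t' E' F')

omit [Fintype K] hK in
/-- The torus scales the six coordinates. -/
theorem torus_conj_sorted (c : Fin chevG2.rank → Kˣ) (t a cc d E F : K) :
    torusHom chevG2 K c * reeSorted t a cc d E F * (torusHom chevG2 K c)⁻¹ =
      reeSorted ((chi chevG2 6 c : Kˣ) * t) ((chi chevG2 7 c : Kˣ) * a) ((chi chevG2 8 c : Kˣ) * cc)
        ((chi chevG2 9 c : Kˣ) * d) ((chi chevG2 10 c : Kˣ) * E) ((chi chevG2 11 c : Kˣ) * F) := by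
  have hx : ∀ r < 12, ∀ s : K, torusHom chevG2 K c * xG cert_G2 r s * (torusHom chevG2 K c)⁻¹ =
      xG cert_G2 r (((chi chevG2 r c : Kˣ) : K) * s) := fun r hr s => by
    have h := (acts_torus cert_G2 c).conj (⟨r, hr⟩ : Fin chevG2.nroots) s
    simpa using h
  rw [← MulAut.conj_apply]
  simp only [reeSorted, wordG_cons, map_mul]
  simp only [MulAut.conj_apply, g2a, g2b, g2ab, g2aab, g2aaab, g2aaabb, hx 6 (by norm_num),
    hx 7 (by norm_num), hx 8 (by norm_num), hx 9 (by norm_num), hx 10 (by norm_num),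
    hx 11 (by norm_num)]
  simp [wordG]

/-- An element of the torus scales the coordinates by its value at `b`. -/
theorem torus_act (g : ↥(chevG2.diagonalSubgroup K ⊓ twistedG2 K (3 ^ m))) (t E F : K) :
    (⟨g, g.2.2⟩ : ↥(twistedG2 K (3 ^ m))) * ru hK t E F * (⟨g, g.2.2⟩ : ↥(twistedG2 K (3 ^ m)))⁻¹ =
      ru hK (sg m (reeTorusVal g) * t) (sg m (reeTorusVal g) * sg m (sg m (reeTorusVal g)) * E)
        (sg m (reeTorusVal g) ^ 2 * sg m (sg m (reeTorusVal g)) * F) := by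
  classical
  set a := reeTorusVal g with ha
  obtain ⟨c, hgc, hfix⟩ := reeTorus_fixed hK g.2
  have h7 : ((chi chevG2 7 c : Kˣ) : K) = a := by
    show _ = ((g : GL chevG2.Idx K) : Matrix chevG2.Idx chevG2.Idx K) _ _
    rw [hgc, CfsgLib.Chevalley.coe_torusHom, Matrix.diagonal_apply_eq]
    rfl
  have h6 : ((chi chevG2 6 c : Kˣ) : K) = sg m a := by
    have := hfix 7 (by norm_num)
    rw [reeTorus_data.1.2.2.1] at this
    rw [← this, g2Twist, reeTorus_data.1.2.2.2.2.1, h7]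
    simp [sg, ← pow_mul, mul_comm]
  have h73 : a ^ 3 = sg m (sg m a) := by rw [sg_sg hK]
  have h10 : ((chi chevG2 10 c : Kˣ) : K) = sg m a * sg m (sg m a) := by
    rw [(chi_ree c).1, Units.val_mul, Units.val_pow_eq_pow_val, h6, h7, h73, mul_comm]
  have h11 : ((chi chevG2 11 c : Kˣ) : K) = sg m a ^ 2 * sg m (sg m a) := by
    rw [(chi_ree c).2, Units.val_mul, Units.val_pow_eq_pow_val, Units.val_pow_eq_pow_val, h6, h7,
      h73, mul_comm]
  obtain ⟨a', c', d', hs⟩ := coord_ru hK t E F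
  have e : (torusHom chevG2 K c * reeSorted t a' c' d' E F * (torusHom chevG2 K c)⁻¹) =
      reeSorted (sg m a * t) (((chi chevG2 7 c : Kˣ) : K) * a') (((chi chevG2 8 c : Kˣ) : K) * c')
        (((chi chevG2 9 c : Kˣ) : K) * d') (sg m a * sg m (sg m a) * E) (sg m a ^ 2 * sg m (sg m a) * F) := by
    rw [torus_conj_sorted, h6, h10, h11]
  have hcoe : (((⟨g, g.2.2⟩ : ↥(twistedG2 K (3 ^ m))) * ru hK t E F * ⟨g, g.2.2⟩⁻¹ :
      ↥(twistedG2 K (3 ^ m))) : GL chevG2.Idx K) =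
      torusHom chevG2 K c * reeSorted t a' c' d' E F * (torusHom chevG2 K c)⁻¹ := by
    rw [← hgc, ← hs]
    rfl
  refine eq_ru hK ?_ ⟨_, _, _, by rw [hcoe, e]⟩
  rw [hcoe, e]
  refine Subgroup.list_prod_mem _ fun x hx => ?_
  obtain ⟨p, hp, rfl⟩ := List.mem_map.1 hx
  have hpos : ∀ r ∈ [g2a, g2b, g2ab, g2aab, g2aaab, g2aaabb], chevG2.IsPosRoot r := by decide +kernel
  refine Subgroup.subset_closure ⟨p.1, p.2, hpos _ ?_, rfl⟩
  simp only [List.mem_cons, List.not_mem_nil, or_false] at hp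
  rcases hp with rfl | rfl | rfl | rfl | rfl | rfl <;> simp

theorem sg_bijective : Function.Bijective (sg m : K → K) := by
  refine Finite.injective_iff_bijective.1 fun x y h => ?_
  have : CharP K 3 := charP_ree hK
  have : Fact (Nat.Prime 3) := ⟨Nat.prime_three⟩
  rw [sg_eq, sg_eq] at h
  exact iterateFrobenius_inj K 3 (m + 1) (by simpa [iterateFrobenius_def] using h)

/-- The torus elements. -/
theorem exists_torus :
    ∃ d : Kˣ → ↥(twistedG2 K (3 ^ m)), (∀ a b, Commute (d a) (d b)) ∧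
      ∀ (l : Kˣ) (t E F : K), d l * ru hK t E F * (d l)⁻¹ =
        ru hK ((l : K) * t) ((l : K) * sg m (l : K) * E) ((l : K) ^ 2 * sg m (l : K) * F) := by
  classical
  have key : ∀ l : Kˣ, ∃ g : ↥(twistedG2 K (3 ^ m)), (g : GL chevG2.Idx K) ∈ chevG2.diagonalSubgroup K ∧
      ∀ t E F, g * ru hK t E F * g⁻¹ =
        ru hK ((l : K) * t) ((l : K) * sg m (l : K) * E) ((l : K) ^ 2 * sg m (l : K) * F) := by
    intro l
    obtain ⟨a, ha⟩ := (sg_bijective hK).2 l
    have ha0 : a ≠ 0 := fun e => l.ne_zero (by rw [← ha, e, sg_zero])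
    obtain ⟨g, hg⟩ := reeTorusVal_surj hK ha0
    exact ⟨⟨g, g.2.2⟩, g.2.1, fun t E F => by rw [torus_act, hg, ha]⟩
  choose d hd hd' using key
  refine ⟨d, fun a b => Subtype.ext ?_, hd'⟩
  have hr := diagonalSubgroup_eq_range (F := K) fullReeG2
  obtain ⟨ca, hca⟩ : (d a : GL chevG2.Idx K) ∈ (torusHom chevG2 K).range := hr ▸ hd a
  obtain ⟨cb, hcb⟩ : (d b : GL chevG2.Idx K) ∈ (torusHom chevG2 K).range := hr ▸ hd b
  change (d a : GL chevG2.Idx K) * (d b : GL chevG2.Idx K) = (d b : GL chevG2.Idx K) * (d a : GL chevG2.Idx K)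
  rw [← hca, ← hcb, ← map_mul, ← map_mul, mul_comm]

end CfsgLib.SchurMult.Ree
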