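import Cfsg.Agent.Lib.SchurMult.CentralComm
import Mathlib.GroupTheory.Perm.Cycle.Basic
import Mathlib.GroupTheory.Sylow

/-!
An elementary abelian 2-subgroup of order at least 8 whose involutions are permuted transitively by one
normalising element contributes nothing to the multiplier.
-/

set_option autoImplicit false
set_option linter.style.haveILetI false

namespace CfsgLib.SchurMult

open scoped commutatorElement

universe u v

variable {Γ : Type u} {G : Type v} [Group Γ] [Group G] {σ : Γ →* G}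

/-- The preimage of such a subgroup is abelian. -/
theorem comm_eq_one_of_singer (hc : σ.ker ≤ Subgroup.center Γ) (hs : Function.Surjective σ)
    (S : Subgroup G) [Finite S] (hexp : ∀ a ∈ S, a * a = 1) (h8 : 8 ≤ Nat.card S) (n : G)
    (hnorm : ∀ i : ℤ, ∀ a ∈ S, n ^ i * a * (n ^ i)⁻¹ ∈ S)
    (hn : ∀ a ∈ S, a ≠ 1 → ∀ b ∈ S, b ≠ 1 → ∃ i : ℤ, n ^ i * a * (n ^ i)⁻¹ = b)
    {x y : Γ} (hx : σ x ∈ S) (hy : σ y ∈ S) : ⁅x, y⁆ = 1 := by
  classical
  obtain ⟨L, hL⟩ : ∃ L : G → Γ, ∀ a, σ (L a) = a := ⟨fun a => (hs a).choose, fun a => (hs a).choose_spec⟩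
  have hcomm : ∀ a ∈ S, ∀ b ∈ S, Commute a b := fun a ha b hb => by
    have h := hexp _ (mul_mem ha hb)
    have ha' : a⁻¹ = a := inv_eq_of_mul_eq_one_right (hexp a ha)
    have hb' : b⁻¹ = b := inv_eq_of_mul_eq_one_right (hexp b hb)
    have := inv_eq_of_mul_eq_one_right h
    rw [_root_.mul_inv_rev, ha', hb'] at this
    exact this.symm
  let e : G → G → Γ := fun a b => ⁅L a, L b⁆
  have cc : ∀ a ∈ S, ∀ b ∈ S, Commute (σ (L a)) (σ (L b)) := fun a ha b hb => by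
    rw [hL, hL]; exact hcomm a ha b hb
  have hek : ∀ a ∈ S, ∀ b ∈ S, ∀ g, g * e a b = e a b * g := fun a ha b hb g =>
    ker_comm hc (comm_mem_ker (cc a ha b hb)) g
  have el : ∀ a ∈ S, ∀ b ∈ S, ∀ c ∈ S, e (a * b) c = e a c * e b c := fun a _ b hb c hc' => by
    show ⁅L (a * b), L c⁆ = _
    rw [comm_eq_of_map_eq hc (a' := L a * L b) (b' := L c) (by simp [hL]) rfl,
      comm_mul_left hc (cc b hb c hc')]
  have er : ∀ a ∈ S, ∀ b ∈ S, ∀ c ∈ S, e a (b * c) = e a b * e a c := fun a ha b _ c hc' => by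
    show ⁅L a, L (b * c)⁆ = _
    rw [comm_eq_of_map_eq hc (a' := L a) (b' := L b * L c) rfl (by simp [hL]),
      comm_mul_right hc (cc a ha c hc')]
  have e_one : ∀ a : G, e 1 a = 1 := fun a => by
    show ⁅L 1, L a⁆ = 1
    rw [comm_eq_of_map_eq hc (a' := 1) (b' := L a) (by simp [hL]) rfl, commutatorElement_one_left]
  have e_sq : ∀ a ∈ S, ∀ b ∈ S, e a b * e a b = 1 := fun a ha b hb => by
    rw [← el a ha a ha b hb, hexp a ha, e_one]
  have e_inv : ∀ (i : ℤ), ∀ a ∈ S, ∀ b ∈ S,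
      e (n ^ i * a * (n ^ i)⁻¹) (n ^ i * b * (n ^ i)⁻¹) = e a b := by
    intro i a ha b hb
    show ⁅L _, L _⁆ = ⁅L a, L b⁆
    rw [← comm_conj hc (cc a ha b hb) (L (n ^ i))]
    exact comm_eq_of_map_eq hc (by simp [hL]) (by simp [hL])
  -- every value of the pairing on a pair is one
  have main : ∀ a ∈ S, ∀ b ∈ S, e a b = 1 := by
    intro a ha b hb
    rcases eq_or_ne a 1 with rfl | ha1
    · exact e_one b
    rcases eq_or_ne b 1 with rfl | hb1
    · have h1 := er a ha 1 (one_mem S) 1 (one_mem S)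
      rw [mul_one] at h1
      exact left_eq_mul.1 h1
    obtain ⟨i, hi⟩ := hn a ha ha1 b hb hb1
    have hmem : ∀ u ∈ S, n ^ i * u * (n ^ i)⁻¹ ∈ S := hnorm i
    let Q : G → Γ := fun u => e u (n ^ i * u * (n ^ i)⁻¹)
    have hQ : ∀ u ∈ S, u ≠ 1 → Q u = e a b := by
      intro u hu hu1
      obtain ⟨j, rfl⟩ := hn a ha ha1 u hu hu1
      have h2 : n ^ i * (n ^ j * a * (n ^ j)⁻¹) * (n ^ i)⁻¹ = n ^ j * b * (n ^ j)⁻¹ := by
        rw [← hi]; group
      show e _ _ = e a b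
      rw [h2, e_inv j a ha b hb]
    let B : G → G → Γ := fun u v => e u (n ^ i * v * (n ^ i)⁻¹) * e v (n ^ i * u * (n ^ i)⁻¹)
    have hB : ∀ u ∈ S, ∀ v ∈ S, u ≠ 1 → v ≠ 1 → u ≠ v → B u v = e a b := by
      intro u hu v hv hu1 hv1 huv
      have hu' := hmem u hu
      have hv' := hmem v hv
      have huv1 : u * v ≠ 1 := fun h => huv (by
        rw [mul_eq_one_iff_eq_inv] at h
        rw [h, inv_eq_of_mul_eq_one_right (hexp v hv)])
      have hexp' : Q (u * v) = Q u * Q v * B u v := by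
        show e (u * v) (n ^ i * (u * v) * (n ^ i)⁻¹) = _
        rw [show n ^ i * (u * v) * (n ^ i)⁻¹ = (n ^ i * u * (n ^ i)⁻¹) * (n ^ i * v * (n ^ i)⁻¹) by group,
          el u hu v hv _ (mul_mem hu' hv'), er u hu _ hu' _ hv', er v hv _ hu' _ hv']
        show _ = Q u * Q v * (e u (n ^ i * v * (n ^ i)⁻¹) * e v (n ^ i * u * (n ^ i)⁻¹))
        simp only [Q]
        calc _ = e u (n ^ i * u * (n ^ i)⁻¹) * ((e u (n ^ i * v * (n ^ i)⁻¹) * e v (n ^ i * u * (n ^ i)⁻¹)) *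
              e v (n ^ i * v * (n ^ i)⁻¹)) := by group
          _ = _ := by rw [hek v hv _ hv']; group
      rw [hQ _ (mul_mem hu hv) huv1, hQ u hu hu1, hQ v hv hv1] at hexp'
      rw [← one_mul (B u v), ← e_sq a ha b hb]
      exact hexp'.symm
    -- three independent elements
    obtain ⟨c, hc0, hc1, d, hc2, hd1, hdc, w, hw, hw1, hwc, hwd, hwcd⟩ : ∃ c ∈ S, c ≠ 1 ∧ ∃ d ∈ S, d ≠ 1 ∧ d ≠ c ∧
        ∃ w ∈ S, w ≠ 1 ∧ w ≠ c ∧ w ≠ d ∧ w ≠ c * d := by
      haveI : Fintype S := Fintype.ofFinite S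
      rw [Nat.card_eq_fintype_card] at h8
      obtain ⟨⟨c, hc⟩, hc1⟩ := Finset.exists_mem_notMem_of_card_lt_card
        (s := ({1} : Finset S)) (t := Finset.univ) (by rw [Finset.card_singleton, Finset.card_univ]; omega)
      obtain ⟨⟨d, hd⟩, hd1⟩ := Finset.exists_mem_notMem_of_card_lt_card
        (s := ({1, ⟨c, hc⟩} : Finset S)) (t := Finset.univ)
        (lt_of_le_of_lt Finset.card_le_two (by rw [Finset.card_univ]; omega))
      obtain ⟨⟨w, hw⟩, hw1⟩ := Finset.exists_mem_notMem_of_card_lt_card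
        (s := ({1, ⟨c, hc⟩, ⟨d, hd⟩, ⟨c, hc⟩ * ⟨d, hd⟩} : Finset S)) (t := Finset.univ)
        (lt_of_le_of_lt Finset.card_le_four (by rw [Finset.card_univ]; omega))
      simp only [Finset.mem_univ, Finset.mem_insert, Finset.mem_singleton, true_and, not_or] at hc1 hd1 hw1
      refine ⟨c, hc, fun h => hc1 (Subtype.ext h), d, hd, fun h => hd1.1 (Subtype.ext h),
        fun h => hd1.2 (Subtype.ext h), w, hw, fun h => hw1.1 (Subtype.ext h),
        fun h => hw1.2.1 (Subtype.ext h), fun h => hw1.2.2.1 (Subtype.ext h),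
        fun h => hw1.2.2.2 (Subtype.ext h)⟩
    have hdw : d * w ≠ 1 := fun h => hwd (by
      rw [← inv_eq_of_mul_eq_one_right h, inv_eq_of_mul_eq_one_right (hexp d hc2)])
    have hcdw : c ≠ d * w := fun h => hwcd (by
      rw [h, (hcomm d hc2 w hw).eq, mul_assoc, hexp d hc2, mul_one])
    have h1 := hB c hc0 (d * w) (mul_mem hc2 hw) hc1 hdw hcdw
    have h2 : B c (d * w) = B c d * B c w := by
      show e c (n ^ i * (d * w) * (n ^ i)⁻¹) * e (d * w) (n ^ i * c * (n ^ i)⁻¹) = _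
      rw [show n ^ i * (d * w) * (n ^ i)⁻¹ = (n ^ i * d * (n ^ i)⁻¹) * (n ^ i * w * (n ^ i)⁻¹) by group,
        er c hc0 _ (hmem d hc2) _ (hmem w hw), el d hc2 w hw _ (hmem c hc0)]
      show _ = (e c (n ^ i * d * (n ^ i)⁻¹) * e d (n ^ i * c * (n ^ i)⁻¹)) *
        (e c (n ^ i * w * (n ^ i)⁻¹) * e w (n ^ i * c * (n ^ i)⁻¹))
      calc _ = e c (n ^ i * d * (n ^ i)⁻¹) * (e c (n ^ i * w * (n ^ i)⁻¹) * e d (n ^ i * c * (n ^ i)⁻¹)) *
            e w (n ^ i * c * (n ^ i)⁻¹) := by group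
        _ = _ := by rw [hek d hc2 _ (hmem c hc0)]; group
    rw [h1, hB c hc0 d hc2 hc1 hd1 (Ne.symm hdc), hB c hc0 w hw hc1 hw1 (Ne.symm hwc), e_sq a ha b hb] at h2
    exact h2
  rw [comm_eq_of_map_eq hc (a' := L (σ x)) (b' := L (σ y)) (by rw [hL]) (by rw [hL])]
  exact main _ hx _ hy

end CfsgLib.SchurMult
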