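import Cfsg.Agent.Lib.SchurMult.ReePart
import Cfsg.Agent.Lib.SchurMult.ReeUnipotent
import Cfsg.Agent.Lib.SchurMult.SingerEight
import Cfsg.Agent.Lib.SchurMult.Criterion
import Cfsg.Agent.Lib.Twisted.ReeSylowTwo

/-!
The Schur multiplier of ²G₂(q) is trivial, granted cyclic Sylow subgroups for the primes above 3.
-/

set_option autoImplicit false
set_option linter.style.haveILetI false

namespace CfsgLib.SchurMult.Ree

open Cfsg.Lie
open CfsgLib.Twisted
open Polynomial (X C eval)

variable {K : Type*} [Field K] [Fintype K] {m : ℕ} (hK : Fintype.card K = 3 ^ (2 * m + 1))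
include hK

theorem exists_nonadd (hm : 1 ≤ m) :
    ∃ a : K, a ≠ 0 ∧ 1 + a ≠ 0 ∧
      ((1 + a) ^ 2 * sg m (1 + a))⁻¹ - 1 - (a ^ 2 * sg m a)⁻¹ ≠ 0 := by
  set N := 2 + 3 ^ (m + 1) with hN
  let P : Polynomial K := X * (1 + X) * ((1 + X) ^ N * X ^ N + (1 + X) ^ N - X ^ N)
  have hN0 : N ≠ 0 := by omega
  have hP : P ≠ 0 := by
    have h0 : ((1 + X) ^ N * X ^ N + (1 + X) ^ N - X ^ N : Polynomial K).eval 0 = 1 := by
      simp [zero_pow hN0]
    have h1 : (X : Polynomial K) ≠ 0 := Polynomial.X_ne_zero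
    have h2 : (1 + X : Polynomial K) ≠ 0 := fun e => by simpa using congrArg (eval 0) e
    have h3 : ((1 + X) ^ N * X ^ N + (1 + X) ^ N - X ^ N : Polynomial K) ≠ 0 := fun e => by
      rw [e] at h0; simp at h0
    exact mul_ne_zero (mul_ne_zero h1 h2) h3
  have hdeg : P.natDegree < Fintype.card K := by
    have hle : P.natDegree ≤ 2 * N + 2 := by
      simp only [P]
      compute_degree
      all_goals omega
    have h3 : 3 ≤ 3 ^ m := Nat.le_self_pow (by omega) 3
    have h9 : 9 * 3 ^ m ≤ 3 ^ (2 * m + 1) := by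
      rw [show 2 * m + 1 = m + 1 + m by ring, pow_add, pow_succ]
      exact Nat.mul_le_mul_right _ (by omega)
    rw [hK]
    have e : 3 ^ (m + 1) = 3 * 3 ^ m := pow_succ' 3 m
    omega
  obtain ⟨a, ha⟩ := exists_eval_ne_zero P hP hdeg
  simp only [P, Polynomial.eval_mul, Polynomial.eval_add, Polynomial.eval_sub, Polynomial.eval_one,
    Polynomial.eval_X, Polynomial.eval_pow, ne_eq, mul_eq_zero, not_or] at ha
  obtain ⟨⟨ha0, ha1⟩, ha2⟩ := ha
  refine ⟨a, ha0, ha1, fun e => ha2 ?_⟩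
  rw [sg_eq, sg_eq, ← pow_add, ← pow_add, ← hN] at e
  have := pow_ne_zero N ha0
  have := pow_ne_zero N ha1
  field_simp at e
  linear_combination -e

/-- The data of the unipotent part. -/
noncomputable def data (hm : 1 ≤ m) : ReePart.Data K ↥(twistedG2 K (3 ^ m)) where
  s := sg m
  x := ru hK
  d := (exists_torus hK).choose
  three := by
    simpa using natCast_char_zero (p := 3) (k := 2 * m + 1) (by omega) hK
  s_add := sg_add hK
  s_neg := sg_neg hK
  s_one := sg_one
  x_mul := ru_mul hK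
  x_zero := ru_zero hK
  x_inj := fun h => ru_injective hK h
  d_comm := (exists_torus hK).choose_spec.1
  d_x := (exists_torus hK).choose_spec.2
  sq_E := fun a ha hsq => by
    obtain ⟨y, rfl⟩ := hsq
    have hy : y ≠ 0 := left_ne_zero_of_mul ha
    refine ⟨Units.mk0 (sg m y / y) (div_ne_zero (sg_ne_zero m hy) hy), ?_⟩
    have h := sg_mul m (sg m y / y) y
    rw [div_mul_cancel₀ _ hy, sg_sg hK] at h
    have := sg_ne_zero m hy
    rw [Units.val_mk0, show sg m (sg m y / y) = y ^ 3 / sg m y by rw [h]; field_simp]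
    field_simp
  sq_F := fun a ha _ => by
    refine ⟨Units.mk0 (a ^ 2 / sg m a) (div_ne_zero (pow_ne_zero _ ha) (sg_ne_zero m ha)), ?_⟩
    have hs := sg_ne_zero m ha
    have h := sg_mul m (a ^ 2 / sg m a) (sg m a)
    rw [div_mul_cancel₀ _ hs, pow_two, sg_mul, sg_sg hK] at h
    rw [Units.val_mk0, show sg m (a ^ 2 / sg m a) = sg m a * sg m a / a ^ 3 by rw [pow_two, h]; field_simp]
    field_simp
  ne_E := by
    have h3 : (3 : K) = 0 := by
      simpa using natCast_char_zero (p := 3) (k := 2 * m + 1) (by omega) hK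
    obtain ⟨a, ha⟩ := exists_eval_ne_zero (X * (X ^ 2 - 1) : Polynomial K)
      (by
        refine Polynomial.Monic.ne_zero ?_
        monicity!)
      (lt_of_le_of_lt (show _ ≤ 3 by compute_degree) (by
        rw [hK]
        exact lt_of_lt_of_le (show 3 < 3 ^ 3 by norm_num) (Nat.pow_le_pow_right (by norm_num) (by omega))))
    simp only [Polynomial.eval_mul, Polynomial.eval_sub, Polynomial.eval_one, Polynomial.eval_X,
      Polynomial.eval_pow, ne_eq, mul_eq_zero, not_or] at ha
    refine ⟨Units.mk0 a ha.1, fun e => ha.2 ?_⟩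
    rw [Units.val_mk0] at e
    have h := congrArg (sg m) e
    rw [sg_mul, sg_sg hK, sg_one] at h
    linear_combination h - a ^ 2 * e
  nonadd := exists_nonadd hK hm

/-- The Schur multiplier is trivial. -/
theorem hasCyclicSchurMultiplier_one (hm : 1 ≤ m)
    (hcyc : ∀ p : ℕ, p.Prime → 3 < p → ∀ P : Sylow p ↥(twistedG2 K (3 ^ m)),
      IsCyclic (P : Subgroup ↥(twistedG2 K (3 ^ m)))) :
    Cfsg.HasCyclicSchurMultiplier ↥(twistedG2 K (3 ^ m)) 1 := by
  classical
  refine hasCyclicSchurMultiplier_one_of_local fun Γ _ _ σ hσ p hp _ => ?_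
  haveI := Fact.mk hp
  have hc := hσ.2.1
  rcases Nat.lt_or_ge 3 p with hp3 | hp3
  · obtain ⟨P⟩ : Nonempty (Sylow p ↥(twistedG2 K (3 ^ m))) := inferInstance
    haveI := hcyc p hp hp3 P
    refine ⟨P, P.not_dvd_index, fun z hz _ => ?_⟩
    rwa [commutator_comap_eq_bot_of_isCyclic hc hσ.1, Subgroup.mem_bot] at hz
  obtain rfl | rfl : p = 2 ∨ p = 3 := by have := hp.two_le; omega
  · obtain ⟨S⟩ : Nonempty (Sylow 2 ↥(twistedG2 K (3 ^ m))) := inferInstance
    obtain ⟨h8, hexp⟩ := ree_sylow_two hK S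
    have hcS := (ree_sylow_two' hK S).2.2
    set N := Subgroup.normalizer ((S : Subgroup ↥(twistedG2 K (3 ^ m))) : Set ↥(twistedG2 K (3 ^ m))) with hN
    haveI : Fact (Nat.Prime 7) := ⟨by norm_num⟩
    obtain ⟨r, hr⟩ := exists_prime_orderOf_dvd_card' (G := N) 7 (by
      rw [ree_card_normalizer_sylow_two hK hm S]; norm_num)
    have hr7 : (r : ↥(twistedG2 K (3 ^ m))) ^ 7 = 1 := by
      rw [← Subgroup.coe_pow, ← hr, pow_orderOf_eq_one]; rfl
    set n : ↥(twistedG2 K (3 ^ m)) := (r : ↥(twistedG2 K (3 ^ m))) with hn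
    have hnorm : ∀ i : ℤ, ∀ a ∈ (S : Subgroup ↥(twistedG2 K (3 ^ m))),
        n ^ i * a * (n ^ i)⁻¹ ∈ (S : Subgroup ↥(twistedG2 K (3 ^ m))) := fun i a ha =>
      (Subgroup.mem_normalizer_iff.1 (zpow_mem r.2 i) a).1 ha
    -- the permutation of the involutions
    let T := {a : (S : Subgroup ↥(twistedG2 K (3 ^ m))) // a ≠ 1}
    have hT : Nat.card T = 7 := by
      haveI := Fintype.ofFinite (S : Subgroup ↥(twistedG2 K (3 ^ m)))
      rw [Nat.card_eq_fintype_card] at h8
      rw [Nat.card_eq_fintype_card, Fintype.card_subtype_compl, Fintype.card_subtype_eq]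
      have h8' : Fintype.card (S : Subgroup ↥(twistedG2 K (3 ^ m))) = 8 := by convert h8
      omega
    let π : Equiv.Perm T :=
      { toFun := fun a => ⟨⟨n * a.1 * n⁻¹, by simpa using hnorm 1 _ a.1.2⟩, fun h => a.2 (by
          have := congrArg Subtype.val h
          exact Subtype.ext (conj_eq_one_iff.1 this))⟩
        invFun := fun a => ⟨⟨n⁻¹ * a.1 * n, by simpa using hnorm (-1) _ a.1.2⟩, fun h => a.2 (by
          have := congrArg Subtype.val h
          have h' : n⁻¹ * (a.1 : ↥(twistedG2 K (3 ^ m))) * n⁻¹⁻¹ = 1 := by rw [inv_inv]; exact this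
          exact Subtype.ext (conj_eq_one_iff.1 h'))⟩
        left_inv := fun a => Subtype.ext (Subtype.ext (by simp [mul_assoc]))
        right_inv := fun a => Subtype.ext (Subtype.ext (by simp [mul_assoc])) }
    have hπ : ∀ (i : ℕ) (a : T), (((π ^ i) a).1 : ↥(twistedG2 K (3 ^ m))) = n ^ i * a.1 * (n ^ i)⁻¹ := by
      intro i
      induction i with
      | zero => simp
      | succ i ih =>
        intro a
        rw [pow_succ', Equiv.Perm.mul_apply]
        show n * _ * n⁻¹ = _
        rw [ih, pow_succ']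
        group
    have hπ7 : π ^ 7 = 1 := Equiv.ext fun a => Subtype.ext (Subtype.ext (by
      rw [hπ, hr7]; simp))
    have hπ1 : π ≠ 1 := by
      intro h
      have hmem : n ∈ (S : Subgroup ↥(twistedG2 K (3 ^ m))) := by
        refine hcS.le (Subgroup.mem_centralizer_iff.2 fun a ha => ?_)
        rcases eq_or_ne a 1 with rfl | ha1
        · simp
        have h1 := hπ 1 ⟨⟨a, ha⟩, fun e => ha1 (congrArg Subtype.val e)⟩
        rw [pow_one, pow_one, h, Equiv.Perm.one_apply] at h1
        calc a * n = (n * a * n⁻¹) * n := by rw [← h1]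
          _ = n * a := by group
      have h2 : n ^ 2 = 1 := by rw [pow_two]; exact hexp n hmem
      have h1 : n = 1 := by
        calc n = n ^ 7 * ((n ^ 2) ^ 3)⁻¹ := by group
          _ = 1 := by rw [hr7, h2]; simp
      have : r = 1 := Subtype.ext h1
      rw [this, orderOf_one] at hr
      norm_num at hr
    haveI : Fintype T := Fintype.ofFinite T
    have hcard : Fintype.card T = 7 := by rw [← Nat.card_eq_fintype_card, hT]
    have hord : orderOf π = 7 := orderOf_eq_prime hπ7 hπ1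
    have hcyc : π.IsCycle := Equiv.Perm.isCycle_of_prime_order'' (by rw [hcard]; norm_num) (by rw [hord, hcard])
    have hsupp : π.support = Finset.univ := Finset.eq_univ_of_card _ (by rw [← hcyc.orderOf, hord, hcard])
    refine ⟨S, S.not_dvd_index, fun z hz _ => ?_⟩
    have key : ∀ a ∈ (S : Subgroup ↥(twistedG2 K (3 ^ m))), a ≠ 1 → ∀ b ∈ (S : Subgroup ↥(twistedG2 K (3 ^ m))),
        b ≠ 1 → ∃ i : ℤ, n ^ i * a * (n ^ i)⁻¹ = b := by
      intro a ha ha1 b hb hb1
      obtain ⟨i, hi⟩ := hcyc.exists_pow_eq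
        (x := (⟨⟨a, ha⟩, fun e => ha1 (congrArg Subtype.val e)⟩ : T))
        (y := ⟨⟨b, hb⟩, fun e => hb1 (congrArg Subtype.val e)⟩)
        (Equiv.Perm.mem_support.1 (hsupp ▸ Finset.mem_univ _)) (Equiv.Perm.mem_support.1 (hsupp ▸ Finset.mem_univ _))
      refine ⟨(i : ℤ), ?_⟩
      have := hπ i ⟨⟨a, ha⟩, fun e => ha1 (congrArg Subtype.val e)⟩
      rw [hi] at this
      simpa using this.symm
    have hab : ⁅(S : Subgroup ↥(twistedG2 K (3 ^ m))).comap σ, (S : Subgroup ↥(twistedG2 K (3 ^ m))).comap σ⁆ = ⊥ := by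
      rw [eq_bot_iff, Subgroup.commutator_le]
      intro x hx y hy
      rw [Subgroup.mem_bot]
      exact comm_eq_one_of_singer hc hσ.1 _ hexp h8.ge n hnorm key hx hy
    rwa [hab, Subgroup.mem_bot] at hz
  · obtain ⟨S, hS⟩ := exists_sylow_ree hK
    refine ⟨S, S.not_dvd_index, fun z hz hzk => ?_⟩
    have h4 : Fintype.card K ≠ 4 := by
      rw [hK]; intro e
      have := congrArg (· % 2) e
      simp [Nat.pow_mod] at this
    have h9 : Fintype.card K ≠ 9 := by
      rw [hK]
      have : 3 ^ 3 ≤ 3 ^ (2 * m + 1) := Nat.pow_le_pow_right (by norm_num) (by omega)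
      omega
    refine ReePart.eq_one_of_mem (data hK hm) h4 h9 hσ.1 hc S (fun y => ?_) hz hzk
    constructor
    · intro hy
      exact exists_ru hK ((hS y).1 hy)
    · rintro ⟨t, E, F, rfl⟩
      exact (hS _).2 (coe_ru_mem hK t E F)

end CfsgLib.SchurMult.Ree
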