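import Cfsg.Agent.Lib.SchurMult.TwoCollectOne

/-!
A collector certificate without a multiplication table, for Sylow `2`-subgroups too large for a table of
all normal forms times generators.  A word is collected by recursion with fuel, using the relations of a
polycyclic presentation listed in the order `v = j * (j + 1) / 2 + i` (`i ≤ j`); the size of the subgroup
is bounded along the chain of the subgroups generated by the last generators.
-/

set_option autoImplicit false

namespace CfsgLib.SchurMult

namespace FreeCollect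

open scoped commutatorElement

universe v

variable (c : Collector)

/-- The number of the relation with left side `[j, i]`. -/
def vIdx (j i : ℕ) : ℕ := j * (j + 1) / 2 + i

/-- Collect a word onto a normal form. -/
def collect : ℕ → List ℕ → ℕ → Option (ℕ × ℕ)
  | 0, _, _ => none
  | _ + 1, [], x => some (x, 0)
  | f + 1, i :: w, x =>
    bif Nat.blt x (2 ^ i) then collect f w (x ||| 2 ^ i)
    else
      let j := Collector.topBit c.n x
      let y := x ^^^ 2 ^ j
      let v := vIdx j i
      bif Nat.blt j c.n && x.testBit j && Nat.blt y (2 ^ j) then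
        match collect f (c.rels.getD v ([], [])).2 y with
        | none => none
        | some (z, m) =>
          match collect f w z with
          | none => none
          | some (r, m') => some (r, 2 ^ v ^^^ m ^^^ m')
      else none

/-- The fuel. -/
def fuel : ℕ := 1000

/-- The product of two normal forms; out of range when the fuel runs out. -/
def mulF (x y : ℕ) : ℕ × ℕ := (collect c fuel (Collector.digits c.n y) x).getD (2 ^ c.n, 0)

/-- A word as a normal form. -/
def runF (w : List ℕ) : ℕ × ℕ := (collect c fuel w 0).getD (2 ^ c.n, 0)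

/-- The mask of one product pair of a conjugation, and its set of correction terms. -/
def pairMaskF (m : List (ℕ × ℕ)) (p : ℕ × ℕ) : ℕ × ℕ :=
  ((mulF c p.1 p.2).2 ^^^ (mulF c ((Collector.img m p.1).getD 0) ((Collector.img m p.2).getD 0)).2,
    2 ^ p.1 ^^^ 2 ^ p.2 ^^^ 2 ^ (mulF c p.1 p.2).1)

/-- Both sums over the pairs. -/
def pairsMaskF (m : List (ℕ × ℕ)) : List (ℕ × ℕ) → ℕ × ℕ
  | [] => (0, 0)
  | p :: ps => ((pairMaskF c m p).1 ^^^ (pairsMaskF m ps).1, (pairMaskF c m p).2 ^^^ (pairsMaskF m ps).2)

/-- An equation is well formed and has the stated mask. -/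
def eqOKF : TailEq → ℕ → Bool
  | .assoc pre v, mask =>
    let a := runF c (pre ++ (c.rels.getD v ([], [])).1)
    let b := runF c (pre ++ (c.rels.getD v ([], [])).2)
    decide (v < c.rels.length) && pre.all (fun i => decide (i < c.n)) && decide (a.1 < 2 ^ c.n) &&
      a.1 == b.1 && (a.2 ^^^ b.2 ^^^ 2 ^ v) == mask
  | .conj _ m pairs, mask =>
    m.all (fun q => decide (q.1 < 2 ^ c.n) && decide (q.2 < 2 ^ c.n)) &&
    pairs.all (fun p => (Collector.img m p.1).isSome && (Collector.img m p.2).isSome &&
      Collector.img m (mulF c p.1 p.2).1 ==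
        some (mulF c ((Collector.img m p.1).getD 0) ((Collector.img m p.2).getD 0)).1) &&
    decide ((pairsMaskF c m pairs).2 ≤ 1) && Collector.img m 0 == some 0 &&
      (pairsMaskF c m pairs).1 == mask

/-- All equations have their stated masks. -/
def eqsOKF : List TailEq → List ℕ → Bool
  | [], [] => true
  | e :: es, m :: ms => eqOKF c e m && eqsOKF es ms
  | _, _ => false

/-- Sum of selected masks. -/
def selM : List ℕ → ℕ → ℕ → ℕ
  | [], _, _ => 0
  | e :: es, s, k => bif s.testBit k then e ^^^ selM es s (k + 1) else selM es s (k + 1)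

/-- The relations have the shape of a polycyclic presentation along the generators. -/
def shapeOK : Bool :=
  (List.range c.n).all fun j => (List.range (j + 1)).all fun i =>
    decide (vIdx j i < c.rels.length) && (c.rels.getD (vIdx j i) ([], [])).1 == [j, i] &&
      (bif i == j then (c.rels.getD (vIdx j i) ([], [])).2.all fun k => decide (i < k) && decide (k < c.n)
      else match (c.rels.getD (vIdx j i) ([], [])).2 with
        | [] => false
        | h :: w => h == i && w.all fun k => decide (i < k) && decide (k < c.n))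

/-- Sum of the masks of the two products of a commuting pair. -/
def pairCommF (x y : ℕ) : ℕ := (mulF c x y).2 ^^^ (mulF c y x).2

/-- The pair commutes and its first member is an involution. -/
def pairOKF (x y : ℕ) : Bool :=
  decide (x < 2 ^ c.n) && decide (y < 2 ^ c.n) && decide ((mulF c x y).1 < 2 ^ c.n) &&
    (mulF c x y).1 == (mulF c y x).1 && (mulF c x x).1 == 0

/-- Every tail is a gauge change plus a multiple of `m0`, modulo the equations. -/
def solvedF (masks : List ℕ) (m0 : ℕ) (extra : List Bool) : Bool :=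
  shapeOK c && c.rels.all (fun r => r.1.all (fun i => decide (i < c.n)) && r.2.all fun i => decide (i < c.n)) &&
  eqsOKF c c.eqs masks &&
    (List.range c.rels.length).all fun v =>
      2 ^ v ^^^ c.gaugeMask ((c.rels.getD v ([], [])).1 ++ (c.rels.getD v ([], [])).2) ^^^
          (bif extra.getD v false then m0 else 0) ==
        selM masks (c.comb.getD v 0) 0

section Sound

variable {M : Type*} [Group M] {c} {l t : ℕ → M}

/-- What the shape check says about a relation. -/
theorem shape_spec (hS : shapeOK c = true) {j i : ℕ} (hj : j < c.n) (hi : i ≤ j) :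
    vIdx j i < c.rels.length ∧ (c.rels.getD (vIdx j i) ([], [])).1 = [j, i] ∧
      (∀ k ∈ (c.rels.getD (vIdx j i) ([], [])).2, i ≤ k ∧ k < c.n) ∧
      (i = j → ∀ k ∈ (c.rels.getD (vIdx j i) ([], [])).2, i < k) ∧
      (i < j → ∃ w, (c.rels.getD (vIdx j i) ([], [])).2 = i :: w ∧ ∀ k ∈ w, i < k ∧ k < c.n) := by
  simp only [shapeOK, List.all_eq_true, List.mem_range, Bool.and_eq_true, decide_eq_true_eq,
    beq_iff_eq] at hS
  obtain ⟨⟨hv, hl⟩, hR⟩ := hS j hj i (by omega)
  refine ⟨hv, hl, ?_⟩
  generalize (c.rels.getD (vIdx j i) ([], [])).2 = R at hR ⊢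
  rcases Nat.lt_or_eq_of_le hi with hij | rfl
  · rw [show (i == j) = false by simp; omega, cond_false] at hR
    cases R with
    | nil => simp at hR
    | cons a w =>
      simp only [Bool.and_eq_true, beq_iff_eq, List.all_eq_true, decide_eq_true_eq] at hR
      obtain ⟨rfl, hw⟩ := hR
      refine ⟨fun k hk => ?_, fun e => absurd e (by omega), fun _ => ⟨w, rfl, hw⟩⟩
      rcases List.mem_cons.1 hk with rfl | hk
      · omega
      · exact ⟨(hw k hk).1.le, (hw k hk).2⟩
  · simp only [beq_self_eq_true, cond_true, List.all_eq_true, Bool.and_eq_true, decide_eq_true_eq] at hR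
    exact ⟨fun k hk => ⟨(hR k hk).1.le, (hR k hk).2⟩, fun _ k hk => (hR k hk).1, fun e => absurd e (by omega)⟩

/-- Collection is sound. -/
theorem collect_spec (h : Tails c l t) (hS : shapeOK c = true) :
    ∀ (f : ℕ) (w : List ℕ) (x : ℕ), x < 2 ^ c.n → (∀ i ∈ w, i < c.n) → ∀ r m : ℕ,
      collect c f w x = some (r, m) →
        r < 2 ^ c.n ∧ nf l c.n x * lprod l w = nf l c.n r * tval c t m := by
  intro f
  induction f with
  | zero => intro w x _ _ r m hr; simp [collect] at hr
  | succ f ih =>
    intro w x hx hw r m hr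
    cases w with
    | nil =>
      simp only [collect, Option.some.injEq, Prod.mk.injEq] at hr
      obtain ⟨rfl, rfl⟩ := hr
      exact ⟨hx, by simp [lprod, tval, bprod_zero]⟩
    | cons i w =>
      have hi : i < c.n := hw i (List.mem_cons_self ..)
      have hw' : ∀ k ∈ w, k < c.n := fun k hk => hw k (List.mem_cons_of_mem _ hk)
      simp only [collect] at hr
      by_cases hxi : x < 2 ^ i
      · rw [show Nat.blt x (2 ^ i) = true by simpa [Nat.blt_eq] using hxi, cond_true] at hr
        obtain ⟨h1, h2⟩ := ih w _ (Nat.or_lt_two_pow hx (Nat.pow_lt_pow_right (by norm_num) hi)) hw' r m hr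
        refine ⟨h1, ?_⟩
        rw [lprod, ← mul_assoc, ← h2]
        congr 1
        exact (bprod_or_top l hi fun j hj _ =>
          Nat.testBit_lt_two_pow (lt_of_lt_of_le hxi (Nat.pow_le_pow_right (by norm_num) hj))).symm
      · rw [show Nat.blt x (2 ^ i) = false by
          rw [← Bool.not_eq_true, Nat.blt_eq]; exact hxi, cond_false] at hr
        set j := Collector.topBit c.n x
        cases hb : (Nat.blt j c.n && x.testBit j && Nat.blt (x ^^^ 2 ^ j) (2 ^ j)) with
        | false => rw [hb, cond_false] at hr; simp at hr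
        | true =>
          rw [hb, cond_true] at hr
          simp only [Bool.and_eq_true, Nat.blt_eq] at hb
          obtain ⟨⟨hjn, hxj⟩, hy⟩ := hb
          have hlt : x < 2 ^ (j + 1) := by
            have e : x = (x ^^^ 2 ^ j) ^^^ 2 ^ j := by rw [Nat.xor_assoc, Nat.xor_self, Nat.xor_zero]
            rw [e]
            exact Nat.xor_lt_two_pow (hy.trans (Nat.pow_lt_pow_right (by norm_num) (by omega)))
              (Nat.pow_lt_pow_right (by norm_num) (by omega))
          have hij : i ≤ j := by
            by_contra hji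
            exact hxi (lt_of_lt_of_le hlt (Nat.pow_le_pow_right (by norm_num) (by omega)))
          obtain ⟨hv, hlhs, hR, -, -⟩ := shape_spec hS hjn hij
          split at hr
          · simp at hr
          · next z mz hz =>
            split at hr
            · simp at hr
            · next r' m' hr' =>
              simp only [Option.some.injEq, Prod.mk.injEq] at hr
              obtain ⟨rfl, rfl⟩ := hr
              obtain ⟨hz1, hz2⟩ := ih _ _ (hy.trans (Nat.pow_lt_pow_right (by norm_num) hjn))
                (fun k hk => (hR k hk).2) z mz hz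
              obtain ⟨hr1, hr2⟩ := ih w z hz1 hw' r' m' hr'
              refine ⟨hr1, ?_⟩
              have hrel := h.rel _ hv
              rw [hlhs, lprod, lprod, lprod, mul_one] at hrel
              have hxtop : nf l c.n x = nf l c.n (x ^^^ 2 ^ j) * l j :=
                bprod_top l hjn hxj fun k hk hk' =>
                  Nat.testBit_lt_two_pow (lt_of_lt_of_le hlt (Nat.pow_le_pow_right (by norm_num) hk))
              rw [hxtop, lprod, mul_assoc, ← mul_assoc (l j), hrel]
              set R := lprod l (c.rels.getD (vIdx j i) ([], [])).2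
              calc nf l c.n (x ^^^ 2 ^ j) * (R * t (vIdx j i) * lprod l w)
                  = nf l c.n (x ^^^ 2 ^ j) * R * (t (vIdx j i) * lprod l w) := by group
                _ = nf l c.n z * tval c t mz * (lprod l w * t (vIdx j i)) := by
                    rw [hz2, h.central (vIdx j i) (lprod l w)]
                _ = nf l c.n z * (tval c t mz * lprod l w) * t (vIdx j i) := by group
                _ = nf l c.n z * lprod l w * (tval c t mz * t (vIdx j i)) := by
                    rw [← h.tval_central]; group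
                _ = nf l c.n r' * tval c t (2 ^ vIdx j i ^^^ mz ^^^ m') := by
                    rw [hr2, mul_assoc, h.tval_xor, h.tval_xor,
                      show tval c t (2 ^ vIdx j i) = t (vIdx j i) from bprod_two_pow hv,
                      ← h.tval_central m', h.central (vIdx j i)]

theorem getD_spec (h : Tails c l t) (hS : shapeOK c = true) {w : List ℕ} {x : ℕ} (hx : x < 2 ^ c.n)
    (hw : ∀ i ∈ w, i < c.n) (hr : ((collect c fuel w x).getD (2 ^ c.n, 0)).1 < 2 ^ c.n) :
    nf l c.n x * lprod l w = nf l c.n ((collect c fuel w x).getD (2 ^ c.n, 0)).1 *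
      tval c t ((collect c fuel w x).getD (2 ^ c.n, 0)).2 := by
  revert hr
  rcases e : collect c fuel w x with _ | ⟨r, m⟩
  · simp
  · intro _; exact (collect_spec h hS fuel w x hx hw r m e).2

theorem digits_lt : ∀ (k y : ℕ), ∀ i ∈ Collector.digits k y, i < k
  | 0, _, i, hi => by simp [Collector.digits] at hi
  | k + 1, y, i, hi => by
    rw [Collector.digits] at hi
    cases hb : y.testBit k <;> simp [hb] at hi
    · exact (digits_lt k y i hi).trans (Nat.lt_succ_self k)
    · rcases hi with hi | rfl
      · exact (digits_lt k y i hi).trans (Nat.lt_succ_self k)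
      · exact Nat.lt_succ_self i

theorem mulF_spec (h : Tails c l t) (hS : shapeOK c = true) {x y : ℕ} (hx : x < 2 ^ c.n)
    (hr : (mulF c x y).1 < 2 ^ c.n) :
    nf l c.n x * nf l c.n y = nf l c.n (mulF c x y).1 * tval c t (mulF c x y).2 := by
  have := getD_spec h hS hx (digits_lt c.n y) hr
  rwa [lprod_digits] at this

theorem runF_spec (h : Tails c l t) (hS : shapeOK c = true) {w : List ℕ} (hw : ∀ i ∈ w, i < c.n)
    (hr : (runF c w).1 < 2 ^ c.n) :
    lprod l w = nf l c.n (runF c w).1 * tval c t (runF c w).2 := by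
  have := getD_spec h hS (x := 0) (by positivity) hw hr
  rwa [show nf l c.n 0 = 1 from bprod_zero l _, one_mul] at this

theorem assoc_eqF (h : Tails c l t) (hS : shapeOK c = true)
    (hwords : ∀ v < c.rels.length, (∀ i ∈ (c.rels.getD v ([], [])).1, i < c.n) ∧
      ∀ i ∈ (c.rels.getD v ([], [])).2, i < c.n)
    {pre : List ℕ} {v mask : ℕ} (hok : eqOKF c (.assoc pre v) mask = true) : tval c t mask = 1 := by
  simp only [eqOKF, Bool.and_eq_true, decide_eq_true_eq, List.all_eq_true, beq_iff_eq] at hok
  obtain ⟨⟨⟨⟨hv, hpre⟩, hlt⟩, hab⟩, hmask⟩ := hok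
  have h1 := runF_spec h hS (w := pre ++ (c.rels.getD v ([], [])).1)
    (fun i hi => (List.mem_append.1 hi).elim (hpre i) ((hwords v hv).1 i)) hlt
  have h2 := runF_spec h hS (w := pre ++ (c.rels.getD v ([], [])).2)
    (fun i hi => (List.mem_append.1 hi).elim (hpre i) ((hwords v hv).2 i)) (hab ▸ hlt :)
  rw [lprod_append, h.rel v hv, ← mul_assoc, ← lprod_append] at h1
  rw [h2, ← hab, mul_assoc] at h1
  have h3 := mul_left_cancel h1
  rw [← hmask, h.tval_xor, h.tval_xor, show tval c t (2 ^ v) = t v from bprod_two_pow hv, ← h3]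
  set B := tval c t (runF c (pre ++ (c.rels.getD v ([], [])).2)).2
  calc B * t v * B * t v = B * (t v * B) * t v := by group
    _ = B * B * (t v * t v) := by rw [← h.central v B]; group
    _ = 1 := by rw [h.tval_sq, h.sq, one_mul]

theorem conj_eqF (h : Tails c l t) (hS : shapeOK c = true) {S : Subgroup M}
    (hSc : ∀ s ∈ S, s * s = 1 ∧ ∀ g, g * s = s * g) {k mask : ℕ} {m pairs : List (ℕ × ℕ)} {g : M}
    (hg : ∀ q ∈ m, (g * nf l c.n q.1 * g⁻¹) * (nf l c.n q.2)⁻¹ ∈ S)
    (hok : eqOKF c (.conj k m pairs) mask = true) : tval c t mask = 1 := by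
  simp only [eqOKF, Bool.and_eq_true, decide_eq_true_eq, List.all_eq_true, beq_iff_eq] at hok
  obtain ⟨⟨⟨⟨hm, hpairs⟩, hsum⟩, h0⟩, hmask⟩ := hok
  subst hmask
  have himg : ∀ {m' : List (ℕ × ℕ)} {x y : ℕ}, Collector.img m' x = some y → (x, y) ∈ m' := by
    intro m'
    induction m' with
    | nil => intro x y h; simp [Collector.img] at h
    | cons q m' ih =>
      intro x y h
      rw [Collector.img] at h
      cases hq : q.1 == x
      · rw [hq, cond_false] at h; exact List.mem_cons_of_mem _ (ih h)
      · rw [hq, cond_true, Option.some.injEq] at h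
        rw [beq_iff_eq] at hq
        subst hq h; exact List.mem_cons_self ..
  set E : ℕ → M := fun x => (Collector.img m x).elim 1
    fun y => (g * nf l c.n x * g⁻¹) * (nf l c.n y)⁻¹ with hE
  have hES : ∀ x, E x ∈ S := by
    intro x
    rw [hE]
    rcases hx : Collector.img m x with _ | y
    · simp [hx]
    · simpa [hx] using hg _ (himg hx)
  have hEq : ∀ {x y : ℕ}, Collector.img m x = some y → g * nf l c.n x * g⁻¹ = E x * nf l c.n y := by
    intro x y hx
    simp [hE, hx]
  have hEx : ∀ a b, bprod E (2 ^ c.n) (a ^^^ b) = bprod E (2 ^ c.n) a * bprod E (2 ^ c.n) b :=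
    bprod_xor (fun x => (hSc _ (hES x)).1) (fun x => (hSc _ (hES x)).2) _
  have hEc : ∀ a y, y * bprod E (2 ^ c.n) a = bprod E (2 ^ c.n) a * y := fun a y =>
    Subgroup.mem_center_iff.1 (bprod_mem (S := Subgroup.center M)
      (fun i => Subgroup.mem_center_iff.2 (hSc _ (hES i)).2) _ _) y
  have hone : ∀ p ∈ pairs, tval c t (pairMaskF c m p).1 * bprod E (2 ^ c.n) (pairMaskF c m p).2 = 1 := by
    intro p hp
    obtain ⟨⟨h1, h2⟩, h3⟩ := hpairs p hp
    obtain ⟨a, ha⟩ := Option.isSome_iff_exists.1 h1
    obtain ⟨b, hb⟩ := Option.isSome_iff_exists.1 h2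
    obtain ⟨x, y⟩ := p
    simp only [pairMaskF, ha, hb, Option.getD_some] at h3 ⊢
    obtain ⟨hx24, ha24⟩ := hm _ (himg ha)
    have hy24 := (hm _ (himg hb)).1
    obtain ⟨hr24, hr'24⟩ := hm _ (himg h3)
    have e1 := mulF_spec h hS (y := y) hx24 hr24
    have e2 := mulF_spec h hS (y := b) ha24 hr'24
    set r := (mulF c x y).1
    set L := (mulF c x y).2
    set L' := (mulF c a b).2
    set r' := (mulF c a b).1
    have key : E x * E y * tval c t L' = E r * tval c t L := by
      have lhs : g * (nf l c.n x * nf l c.n y) * g⁻¹ = E x * E y * tval c t L' * nf l c.n r' := by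
        calc g * (nf l c.n x * nf l c.n y) * g⁻¹
            = (g * nf l c.n x * g⁻¹) * (g * nf l c.n y * g⁻¹) := by group
          _ = E x * (nf l c.n a * E y) * nf l c.n b := by rw [hEq ha, hEq hb]; group
          _ = E x * E y * (nf l c.n a * nf l c.n b) := by rw [(hSc _ (hES y)).2]; group
          _ = E x * E y * tval c t L' * nf l c.n r' := by rw [e2, h.tval_central]; group
      have rhs : g * (nf l c.n x * nf l c.n y) * g⁻¹ = E r * tval c t L * nf l c.n r' := by
        calc g * (nf l c.n x * nf l c.n y) * g⁻¹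
            = g * nf l c.n r * (tval c t L * g⁻¹) := by rw [e1]; group
          _ = (g * nf l c.n r * g⁻¹) * tval c t L := by rw [← h.tval_central]; group
          _ = _ := by rw [hEq h3, mul_assoc, h.tval_central, ← mul_assoc]
      exact mul_right_cancel (lhs.symm.trans rhs)
    rw [h.tval_xor, hEx, hEx, bprod_two_pow hx24, bprod_two_pow hy24, bprod_two_pow hr24]
    calc tval c t L * tval c t L' * (E x * E y * E r)
        = tval c t L * (tval c t L' * (E x * E y)) * E r := by group
      _ = tval c t L * (E x * E y * tval c t L') * E r := by rw [h.tval_central L' (E x * E y)]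
      _ = tval c t L * (E r * tval c t L) * E r := by rw [key]
      _ = tval c t L * tval c t L * (E r * E r) := by
        rw [h.tval_central L (E r), ← mul_assoc, mul_assoc]
      _ = 1 := by rw [h.tval_sq, (hSc _ (hES r)).1, one_mul]
  have hall : ∀ ps : List (ℕ × ℕ), (∀ p ∈ ps, p ∈ pairs) →
      tval c t (pairsMaskF c m ps).1 * bprod E (2 ^ c.n) (pairsMaskF c m ps).2 = 1 := by
    intro ps
    induction ps with
    | nil => intro _; simp [pairsMaskF, tval, bprod_zero]
    | cons p ps ih =>
      intro hps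
      have h1 := hone p (hps p (List.mem_cons_self ..))
      have h2 := ih fun q hq => hps q (List.mem_cons_of_mem _ hq)
      rw [pairsMaskF, h.tval_xor, hEx]
      calc _ = tval c t (pairMaskF c m p).1 *
            (tval c t (pairsMaskF c m ps).1 * bprod E (2 ^ c.n) (pairMaskF c m p).2) *
              bprod E (2 ^ c.n) (pairsMaskF c m ps).2 := by group
        _ = tval c t (pairMaskF c m p).1 *
            (bprod E (2 ^ c.n) (pairMaskF c m p).2 * tval c t (pairsMaskF c m ps).1) *
              bprod E (2 ^ c.n) (pairsMaskF c m ps).2 := by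
          rw [hEc (pairMaskF c m p).2 (tval c t (pairsMaskF c m ps).1)]
        _ = (tval c t (pairMaskF c m p).1 * bprod E (2 ^ c.n) (pairMaskF c m p).2) *
            (tval c t (pairsMaskF c m ps).1 * bprod E (2 ^ c.n) (pairsMaskF c m ps).2) := by group
        _ = 1 := by rw [h1, h2, one_mul]
  have := hall pairs fun p hp => hp
  have hE0 : E 0 = 1 := by simp [hE, h0, nf, bprod_zero]
  rw [show bprod E (2 ^ c.n) (pairsMaskF c m pairs).2 = 1 by
    rcases Nat.le_one_iff_eq_zero_or_eq_one.1 hsum with e | e <;> rw [e]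
    · exact bprod_zero E _
    · exact (bprod_two_pow (i := 0) (by positivity)).trans hE0, mul_one] at this
  exact this

/-- The subgroup generated by the lifts and a central subgroup containing all tails is small. -/
theorem card_chain_le [Finite M] (h : Tails c l t) (hS : shapeOK c = true) (W : Subgroup M)
    (hW : W ≤ Subgroup.center M) (ht : ∀ v, t v ∈ W) :
    Nat.card ↥(Subgroup.closure (l '' Set.Iio c.n) ⊔ W) ≤ 2 ^ c.n * Nat.card W := by
  suffices H : ∀ d i, i + d = c.n →
      Nat.card ↥(Subgroup.closure (l '' Set.Ico i c.n) ⊔ W) ≤ 2 ^ d * Nat.card W by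
    have h0 := H c.n 0 (by omega)
    rwa [show Set.Ico 0 c.n = Set.Iio c.n by ext; simp] at h0
  intro d
  induction d with
  | zero =>
    intro i hi
    rw [show Set.Ico i c.n = ∅ from Set.Ico_eq_empty (by omega), Set.image_empty, Subgroup.closure_empty,
      bot_sup_eq, pow_zero, one_mul]
  | succ d ih =>
    intro i hi
    have hin : i < c.n := by omega
    set K := Subgroup.closure (l '' Set.Ico (i + 1) c.n) ⊔ W with hK
    have hmem : ∀ k, i < k → k < c.n → l k ∈ K := fun k h1 h2 =>
      Subgroup.mem_sup_left (Subgroup.subset_closure ⟨k, ⟨h1, h2⟩, rfl⟩)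
    have hlp : ∀ w : List ℕ, (∀ k ∈ w, i < k ∧ k < c.n) → lprod l w ∈ K := by
      intro w
      induction w with
      | nil => intro _; exact one_mem K
      | cons a w ihw =>
        intro hw
        exact mul_mem (hmem a (hw a (List.mem_cons_self ..)).1 (hw a (List.mem_cons_self ..)).2)
          (ihw fun k hk => hw k (List.mem_cons_of_mem _ hk))
    have hsq : l i * l i ∈ K := by
      obtain ⟨hv, hlhs, hR, hRi, -⟩ := shape_spec hS hin le_rfl
      have e := h.rel _ hv
      rw [hlhs, lprod, lprod, lprod, mul_one] at e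
      rw [e]
      exact mul_mem (hlp _ fun k hk => ⟨hRi rfl k hk, (hR k hk).2⟩) (Subgroup.mem_sup_right (ht _))
    have hconj : ∀ g ∈ K, (l i)⁻¹ * g * l i ∈ K := by
      intro g hg
      have : K ≤ K.comap (MulAut.conj (l i)⁻¹).toMonoidHom := by
        rw [hK]
        refine sup_le ((Subgroup.closure_le _).2 ?_) fun z hz => ?_
        · rintro _ ⟨k, ⟨hk1, hk2⟩, rfl⟩
          show MulAut.conj (l i)⁻¹ (l k) ∈ K
          obtain ⟨hv, hlhs, -, -, hRc⟩ := shape_spec hS hk2 (show i ≤ k by omega)
          obtain ⟨w, hw, hwk⟩ := hRc (by omega)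
          have e := h.rel _ hv
          rw [hlhs, hw, lprod, lprod, lprod, mul_one, lprod] at e
          rw [MulAut.conj_apply, inv_inv, mul_assoc, e, mul_assoc, inv_mul_cancel_left]
          exact mul_mem (hlp w hwk) (Subgroup.mem_sup_right (ht _))
        · show MulAut.conj (l i)⁻¹ z ∈ K
          rw [MulAut.conj_apply, Subgroup.mem_center_iff.1 (hW hz), mul_inv_cancel_right]
          exact Subgroup.mem_sup_right hz
      simpa [MulAut.conj_apply] using this hg
    have hconj' : ∀ g ∈ K, l i * g * (l i)⁻¹ ∈ K := by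
      intro g hg
      have e : l i * g * (l i)⁻¹ = (l i * l i) * ((l i)⁻¹ * g * l i) * (l i * l i)⁻¹ := by group
      rw [e]
      exact mul_mem (mul_mem hsq (hconj g hg)) (inv_mem hsq)
    -- the union of the two cosets
    let T : Subgroup M :=
      { carrier := {g | g ∈ K ∨ (l i)⁻¹ * g ∈ K}
        one_mem' := Or.inl (one_mem K)
        mul_mem' := by
          rintro a b (ha | ha) (hb | hb)
          · exact Or.inl (mul_mem ha hb)
          · right
            rw [show (l i)⁻¹ * (a * b) = ((l i)⁻¹ * a * l i) * ((l i)⁻¹ * b) by group]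
            exact mul_mem (hconj a ha) hb
          · right
            rw [← mul_assoc]
            exact mul_mem ha hb
          · left
            rw [show a * b = (l i * ((l i)⁻¹ * a) * (l i)⁻¹) * (l i * l i) * ((l i)⁻¹ * b) by group]
            exact mul_mem (mul_mem (hconj' _ ha) hsq) hb
        inv_mem' := by
          rintro a (ha | ha)
          · exact Or.inl (inv_mem ha)
          · right
            rw [show (l i)⁻¹ * a⁻¹ = ((l i)⁻¹ * ((l i)⁻¹ * a)⁻¹ * l i) * (l i * l i)⁻¹ by group]
            exact mul_mem (hconj _ (inv_mem ha)) (inv_mem hsq) }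
    have hle : Subgroup.closure (l '' Set.Ico i c.n) ⊔ W ≤ T := by
      refine sup_le ((Subgroup.closure_le _).2 ?_) fun z hz => Or.inl (Subgroup.mem_sup_right hz)
      rintro _ ⟨k, ⟨hk1, hk2⟩, rfl⟩
      rcases Nat.lt_or_eq_of_le hk1 with hk | rfl
      · exact Or.inl (hmem k hk hk2)
      · exact Or.inr (by rw [inv_mul_cancel]; exact one_mem K)
    let f : Bool × K → M := fun p => bif p.1 then l i * p.2 else p.2
    have hsub : (T : Set M) ⊆ Set.range f := by
      rintro g (hg | hg)
      · exact ⟨(false, ⟨g, hg⟩), rfl⟩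
      · exact ⟨(true, ⟨_, hg⟩), by simp [f]⟩
    calc Nat.card ↥(Subgroup.closure (l '' Set.Ico i c.n) ⊔ W) ≤ Nat.card T := Subgroup.card_le_of_le hle
      _ ≤ Nat.card (Set.range f) := Nat.card_mono (Set.toFinite _) hsub
      _ ≤ Nat.card (Bool × K) := Finite.card_range_le f
      _ = 2 * Nat.card K := by rw [Nat.card_prod, Nat.card_eq_fintype_card, Fintype.card_bool]
      _ ≤ 2 * (2 ^ d * Nat.card W) := Nat.mul_le_mul_left 2 (ih (i + 1) (by omega))
      _ = 2 ^ (d + 1) * Nat.card W := by ring

end Sound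

section Main

variable {G : Type v} [Group G]

/-- In a stem extension with kernel of exponent `2` the kernel is generated by the commutator of lifts
of the chosen pair. -/
theorem ker_le_zpowers [Finite G] (c : Collector) (el conjEl : ℕ → G) {x y : ℕ}
    (hpair : pairOKF c x y = true) {masks : List ℕ} {extra : List Bool}
    (hsolved : solvedF c masks (pairCommF c x y) extra = true)
    (hrel : ∀ v < c.rels.length,
      lprod el (c.rels.getD v ([], [])).1 = lprod el (c.rels.getD v ([], [])).2)
    (hconj : ∀ e ∈ c.eqs, ConjHolds c el conjEl e)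
    (hcard : 2 ^ c.n ≤ Nat.card (Subgroup.closure (el '' Set.Iio c.n)))
    (hG : ∃ m, ¬ 2 ∣ m ∧ Nat.card G = 2 ^ c.n * m)
    {Δ : Type v} [Group Δ] [Finite Δ] {τ : Δ →* G} (hτ : Cfsg.IsStemExtension τ)
    (hsq : ∀ k ∈ τ.ker, k * k = 1) {X Y : Δ} (hX : τ X = nf el c.n x) (hY : τ Y = nf el c.n y)
    {z : Δ} (hzk : z ∈ τ.ker) : z ∈ Subgroup.zpowers ⁅X, Y⁆ := by
  simp only [solvedF, Bool.and_eq_true, List.all_eq_true, List.mem_range, beq_iff_eq,
    decide_eq_true_eq] at hsolved
  obtain ⟨⟨⟨hS, hw⟩, heqs⟩, hcomb⟩ := hsolved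
  simp only [pairOKF, Bool.and_eq_true, decide_eq_true_eq, beq_iff_eq] at hpair
  obtain ⟨⟨⟨⟨hx, hy⟩, hxylt⟩, hxy⟩, -⟩ := hpair
  set H : Subgroup G := Subgroup.closure (el '' Set.Iio c.n)
  have hel : Tails c el fun _ => (1 : G) :=
    ⟨fun _ => mul_one 1, fun _ g => by simp, fun v hv => by rw [hrel v hv, mul_one]⟩
  have hle : Nat.card H ≤ 2 ^ c.n := by
    have h1 := card_chain_le hel hS ⊥ bot_le fun _ => Subgroup.mem_bot.2 rfl
    rwa [sup_bot_eq, Subgroup.card_bot, mul_one] at h1
  have hindex : ¬ 2 ∣ H.index := by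
    obtain ⟨m, hm, hGm⟩ := hG
    have := H.card_mul_index
    rw [show Nat.card H = 2 ^ c.n from le_antisymm hle hcard, hGm] at this
    rwa [Nat.eq_of_mul_eq_mul_left (by positivity) this]
  have hcen : ∀ k ∈ τ.ker, ∀ g : Δ, g * k = k * g := fun k hk g =>
    Subgroup.mem_center_iff.1 (hτ.2.1 hk) g
  choose s hs using hτ.1
  set l : ℕ → Δ := fun i => s (el i) with hl
  have hτl : (fun i => τ (l i)) = el := funext fun i => hs (el i)
  set t : ℕ → Δ := fun v => if v < c.rels.length then
    (lprod l (c.rels.getD v ([], [])).2)⁻¹ * lprod l (c.rels.getD v ([], [])).1 else 1 with ht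
  have htker : ∀ v, t v ∈ τ.ker := by
    intro v
    rw [ht, MonoidHom.mem_ker]
    by_cases hv : v < c.rels.length
    · simp only
      rw [if_pos hv, map_mul, map_inv, map_lprod, map_lprod, hτl, hrel v hv, inv_mul_cancel]
    · simp [hv]
  have hl_t : Tails c l t :=
    ⟨fun v => hsq _ (htker v), fun v => hcen _ (htker v), fun v hv => by simp [ht, hv]⟩
  have htvker : ∀ m, tval c t m ∈ τ.ker := fun m => bprod_mem htker _ _
  have hwords : ∀ v < c.rels.length, (∀ i ∈ (c.rels.getD v ([], [])).1, i < c.n) ∧
      ∀ i ∈ (c.rels.getD v ([], [])).2, i < c.n := fun v hv => by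
    rw [List.getD_eq_getElem _ _ hv]; exact hw _ (List.getElem_mem hv)
  have hmasks : ∀ es : List TailEq, ∀ ms : List ℕ, (∀ e ∈ es, e ∈ c.eqs) →
      eqsOKF c es ms = true → ∀ m ∈ ms, tval c t m = 1 := by
    intro es
    induction es with
    | nil =>
      intro ms _ hok m hm
      cases ms with
      | nil => simp at hm
      | cons a ms => simp [eqsOKF] at hok
    | cons e es ih =>
      intro ms hes hok m hm
      cases ms with
      | nil => simp at hm
      | cons a ms =>
        rw [eqsOKF, Bool.and_eq_true] at hok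
        rcases List.mem_cons.1 hm with rfl | hm
        · cases e with
          | assoc pre v => exact assoc_eqF hl_t hS hwords hok.1
          | conj k mp pairs =>
            refine conj_eqF hl_t hS (S := τ.ker) (fun a ha => ⟨hsq a ha, hcen a ha⟩) (g := s (conjEl k))
              (fun q hq => ?_) hok.1
            have := hconj _ (hes _ (List.mem_cons_self ..)) q hq
            simp [MonoidHom.mem_ker, map_bprod, hτl, hs, nf, this]
        · exact ih ms (fun f hf => hes f (List.mem_cons_of_mem _ hf)) hok.2 m hm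
  have hm1 := hmasks c.eqs masks (fun _ h => h) heqs
  have hsel : ∀ (ms : List ℕ) (b k : ℕ), (∀ m ∈ ms, tval c t m = 1) → tval c t (selM ms b k) = 1 := by
    intro ms b
    induction ms with
    | nil => intro k _; exact bprod_zero t _
    | cons e es ih =>
      intro k hes
      rw [selM]
      have := ih (k + 1) fun f hf => hes f (List.mem_cons_of_mem _ hf)
      cases b.testBit k
      · exact this
      · rw [cond_true, hl_t.tval_xor, hes e (List.mem_cons_self ..), this, one_mul]
  -- the value of the pair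
  have hw0 : tval c t (pairCommF c x y) = ⁅X, Y⁆ := by
    have e1 := mulF_spec hl_t hS (y := y) hx hxylt
    have e2 := mulF_spec hl_t hS (y := x) hy (hxy ▸ hxylt :)
    have hm : ∀ u, τ (nf l c.n u) = nf el c.n u := fun u => by rw [nf, map_bprod, hτl]
    rw [comm_eq_of_map_eq hτ.2.1 (a' := nf l c.n x) (b' := nf l c.n y) (by rw [hX, hm]) (by rw [hY, hm]),
      commutatorElement_def, show nf l c.n x * nf l c.n y * (nf l c.n x)⁻¹ * (nf l c.n y)⁻¹ =
        nf l c.n x * nf l c.n y * (nf l c.n y * nf l c.n x)⁻¹ by group, e1, e2, hxy, pairCommF,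
      hl_t.tval_xor, mul_inv_rev, show (tval c t (mulF c y x).2)⁻¹ = tval c t (mulF c y x).2 from
        inv_eq_of_mul_eq_one_left (hl_t.tval_sq _)]
    set A := tval c t (mulF c x y).2
    set B := tval c t (mulF c y x).2
    set r := nf l c.n (mulF c y x).1
    calc A * B = A * B * r * r⁻¹ := by group
      _ = r * (A * B) * r⁻¹ := by rw [hcen (A * B) (mul_mem (htvker _) (htvker _)) r]
      _ = r * A * (B * r⁻¹) := by group
  set W : Subgroup Δ := Subgroup.zpowers ⁅X, Y⁆
  have hWker : W ≤ τ.ker := Subgroup.zpowers_le.2 (hw0 ▸ htvker _)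
  have hW1 : ∀ b : Bool, tval c t (bif b then pairCommF c x y else 0) ∈ W := by
    intro b
    cases b
    · rw [cond_false, show tval c t 0 = 1 from bprod_zero t _]; exact one_mem W
    · rw [cond_true, hw0]; exact Subgroup.mem_zpowers _
  -- the changed lifts satisfy the relations up to `W`
  set e : ℕ → Δ := fun i => tval c t (c.gauge.getD i 0) with he
  have heker : ∀ i, e i ∈ τ.ker := fun i => htvker _
  have hegauge : ∀ w, tval c t (c.gaugeMask w) = lprod e w := by
    intro w
    induction w with
    | nil => exact bprod_zero t _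
    | cons i w ih => rw [Collector.gaugeMask, hl_t.tval_xor, ih]; rfl
  set l' : ℕ → Δ := fun i => l i * e i with hl'
  have hτl' : (fun i => τ (l' i)) = el := funext fun i => by
    simp [hl', MonoidHom.mem_ker.1 (heker i), hl, hs]
  have hlmul : ∀ w, lprod l' w = lprod l w * lprod e w :=
    lprod_mul_central fun i => hcen _ (heker i)
  set t' : ℕ → Δ := fun v => if v < c.rels.length then
    tval c t (bif extra.getD v false then pairCommF c x y else 0) else 1 with ht'
  have ht'W : ∀ v, t' v ∈ W := fun v => by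
    rw [ht']; by_cases hv : v < c.rels.length
    · simp only [if_pos hv]; exact hW1 _
    · simp [hv]
  have ht'ker : ∀ v, t' v ∈ τ.ker := fun v => hWker (ht'W v)
  have hl'1 : Tails c l' t' := by
    refine ⟨fun v => hsq _ (ht'ker v), fun v => hcen _ (ht'ker v), fun v hv => ?_⟩
    have h1 := hsel masks (c.comb.getD v 0) 0 hm1
    rw [← hcomb v hv, hl_t.tval_xor, hl_t.tval_xor,
      show tval c t (2 ^ v) = t v from bprod_two_pow hv, hegauge, lprod_append] at h1
    have hER : lprod e (c.rels.getD v ([], [])).2 * lprod e (c.rels.getD v ([], [])).2 = 1 := by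
      rw [← hegauge]; exact hl_t.tval_sq _
    have hM : t' v = tval c t (bif extra.getD v false then pairCommF c x y else 0) := by
      simp [ht', hv]
    rw [← hM] at h1
    rw [hlmul, hlmul, hl_t.rel v hv, mul_assoc, mul_assoc]
    congr 1
    set EL := lprod e (c.rels.getD v ([], [])).1
    set ER := lprod e (c.rels.getD v ([], [])).2
    have hcER : ∀ g, g * ER = ER * g := fun g => by
      rw [show ER = tval c t (c.gaugeMask (c.rels.getD v ([], [])).2) from (hegauge _).symm]
      exact hl_t.tval_central _ g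
    calc t v * EL = t v * (EL * ER) * ER⁻¹ := by group
      _ = t' v * ER⁻¹ := by
        rw [eq_inv_of_mul_eq_one_left h1, inv_eq_of_mul_eq_one_left (hsq _ (ht'ker v))]
      _ = ER * t' v := by rw [inv_eq_of_mul_eq_one_left hER, hcER]
  -- the preimage of `H`
  have hzc : z ∈ ⁅H.comap τ, H.comap τ⁆ := mem_commutator_of_pow_eq_one hτ Nat.prime_two H hindex
    hzk (k := 1) (by rw [pow_one, pow_two, hsq z hzk])
  set K : Subgroup Δ := Subgroup.closure (l' '' Set.Iio c.n)
  have himg : H = Subgroup.closure (τ '' (l' '' Set.Iio c.n)) := by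
    show Subgroup.closure (el '' _) = _
    rw [Set.image_image, hτl']
  have hKmap : K.map τ = H := by rw [MonoidHom.map_closure, himg]
  rw [himg] at hzc
  have hzK : z ∈ K := commutator_comap_closure_le hτ.2.1 (l' '' Set.Iio c.n) K
    (fun a ha => Subgroup.le_normalizer (Subgroup.subset_closure ha))
    (fun a ha b hb => by
      have ha' : a ∈ K := Subgroup.subset_closure ha
      have hb' : b ∈ K := Subgroup.subset_closure hb
      rw [commutatorElement_def]
      exact mul_mem (mul_mem (mul_mem ha' hb') (inv_mem ha')) (inv_mem hb')) hzc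
  set L := K ⊔ W
  have hLcard : Nat.card L ≤ 2 ^ c.n * Nat.card W :=
    card_chain_le hl'1 hS W (hWker.trans hτ.2.1) ht'W
  have hLmap : L.map τ = H := by
    rw [Subgroup.map_sup, hKmap, (Subgroup.map_eq_bot_iff W).2 hWker, sup_bot_eq]
  set φ : L →* G := τ.comp L.subtype
  have hr : φ.range = H := by rw [MonoidHom.range_comp, Subgroup.range_subtype, hLmap]
  have hWk : W.subgroupOf L ≤ φ.ker := fun w hw =>
    MonoidHom.mem_ker.2 (MonoidHom.mem_ker.1 (hWker hw))
  have h1 : Nat.card φ.ker * 2 ^ c.n = Nat.card L := by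
    have := φ.ker.card_mul_index
    rwa [Subgroup.index_ker, hr, le_antisymm hle hcard] at this
  have h2 : Nat.card (W.subgroupOf L) = Nat.card W :=
    Nat.card_congr (Subgroup.subgroupOfEquivOfLe le_sup_right).toEquiv
  have h3 : Nat.card φ.ker ≤ Nat.card (W.subgroupOf L) := by
    rw [h2]
    refine Nat.le_of_mul_le_mul_right ?_ (show 0 < 2 ^ c.n by positivity)
    rw [h1, mul_comm (Nat.card W)]; exact hLcard
  have h4 := Subgroup.eq_of_le_of_card_ge hWk h3
  have hzL : (⟨z, Subgroup.mem_sup_left hzK⟩ : L) ∈ φ.ker := MonoidHom.mem_ker.2 (MonoidHom.mem_ker.1 hzk)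
  rw [← h4] at hzL
  exact hzL

/-- The `2`-elements of the kernel of a stem extension lie in the group generated by the commutator
of lifts of a pair with one member an involution. -/
theorem two_elements_le_zpowers [Finite G] (c : Collector) (el conjEl : ℕ → G) {x y : ℕ}
    (hpair : pairOKF c x y = true) {masks : List ℕ} {extra : List Bool}
    (hsolved : solvedF c masks (pairCommF c x y) extra = true)
    (hrel : ∀ v < c.rels.length,
      lprod el (c.rels.getD v ([], [])).1 = lprod el (c.rels.getD v ([], [])).2)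
    (hconj : ∀ e ∈ c.eqs, ConjHolds c el conjEl e)
    (hcard : 2 ^ c.n ≤ Nat.card (Subgroup.closure (el '' Set.Iio c.n)))
    (hG : ∃ m, ¬ 2 ∣ m ∧ Nat.card G = 2 ^ c.n * m)
    {Γ : Type v} [Group Γ] [Finite Γ] {σ : Γ →* G} (hσ : Cfsg.IsStemExtension σ) :
    ∃ w : Γ, w ^ 2 = 1 ∧ ∀ z ∈ σ.ker, ∀ k : ℕ, z ^ 2 ^ k = 1 → z ∈ Subgroup.zpowers w := by
  have hel : Tails c el fun _ => (1 : G) :=
    ⟨fun _ => mul_one 1, fun _ g => by simp, fun v hv => by rw [hrel v hv, mul_one]⟩
  have hS : shapeOK c = true := by
    simp only [solvedF, Bool.and_eq_true] at hsolved; exact hsolved.1.1.1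
  have hp := hpair
  simp only [pairOKF, Bool.and_eq_true, decide_eq_true_eq, beq_iff_eq] at hp
  obtain ⟨⟨⟨⟨hx, hy⟩, hxylt⟩, hxy⟩, hxx⟩ := hp
  obtain ⟨X, hX⟩ := hσ.1 (nf el c.n x)
  obtain ⟨Y, hY⟩ := hσ.1 (nf el c.n y)
  have hcomm : Commute (σ X) (σ Y) := by
    rw [hX, hY]
    show _ * _ = _ * _
    rw [mulF_spec hel hS (y := y) hx hxylt, mulF_spec hel hS (y := x) hy (hxy ▸ hxylt :), hxy, tval, tval,
      bprod_one, bprod_one]
  have hX2 : σ X ^ 2 = 1 := by
    rw [hX, pow_two, mulF_spec hel hS (y := x) hx (by rw [hxx]; positivity), hxx, tval, bprod_one, mul_one]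
    exact bprod_zero el _
  set w := ⁅X, Y⁆ with hw
  have hw2 : w ^ 2 = 1 := by
    rw [hw, ← comm_pow_left hσ.2.1 hcomm, commutatorElement_eq_one_iff_mul_comm]
    exact (ker_comm hσ.2.1 (show X ^ 2 ∈ σ.ker by rw [MonoidHom.mem_ker, map_pow, hX2]) Y).symm
  refine ⟨w, hw2, ?_⟩
  have hkc : ∀ a ∈ σ.ker, ∀ g : Γ, g * a = a * g := fun a ha g =>
    Subgroup.mem_center_iff.1 (hσ.2.1 ha) g
  let S : Subgroup Γ :=
    { carrier := {p | ∃ a ∈ σ.ker, p = a ^ 2}
      one_mem' := ⟨1, one_mem _, (one_pow 2).symm⟩
      mul_mem' := by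
        rintro _ _ ⟨a, ha, rfl⟩ ⟨b, hb, rfl⟩
        exact ⟨a * b, mul_mem ha hb, ((show Commute a b from hkc b hb a).mul_pow 2).symm⟩
      inv_mem' := by
        rintro _ ⟨a, ha, rfl⟩
        exact ⟨a⁻¹, inv_mem ha, (inv_pow a 2).symm⟩ }
  have hSle : S ≤ σ.ker := by rintro _ ⟨a, ha, rfl⟩; exact pow_mem ha 2
  haveI : S.Normal := ⟨fun n hn g => by
    rw [hkc n (hSle hn) g, mul_inv_cancel_right]; exact hn⟩
  set τ := QuotientGroup.lift S σ hSle
  have hτker : τ.ker = σ.ker.map (QuotientGroup.mk' S) := QuotientGroup.ker_lift S σ hSle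
  have hτ : Cfsg.IsStemExtension τ := by
    refine ⟨fun g => ?_, ?_, ?_⟩
    · obtain ⟨p, rfl⟩ := hσ.1 g; exact ⟨QuotientGroup.mk p, rfl⟩
    · rw [hτker]
      rintro _ ⟨a, ha, rfl⟩
      rw [Subgroup.mem_center_iff]
      intro q
      obtain ⟨p, rfl⟩ := QuotientGroup.mk'_surjective S q
      rw [← map_mul, ← map_mul, hkc a ha p]
    · rw [hτker]
      refine le_trans (Subgroup.map_mono hσ.2.2) ?_
      rw [commutator_def, Subgroup.map_commutator, commutator_def]
      exact Subgroup.commutator_mono le_top le_top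
  have hsq : ∀ k ∈ τ.ker, k * k = 1 := by
    rw [hτker]
    rintro _ ⟨a, ha, rfl⟩
    rw [← map_mul, ← pow_two, QuotientGroup.mk'_apply, QuotientGroup.eq_one_iff]
    exact ⟨a, ha, rfl⟩
  have step : ∀ a ∈ σ.ker, ∃ p ∈ Subgroup.zpowers w, ∃ b ∈ σ.ker, a = p * b ^ 2 := by
    intro a ha
    have hmem := ker_le_zpowers c el conjEl hpair hsolved hrel hconj hcard hG hτ
      hsq (X := QuotientGroup.mk' S X) (Y := QuotientGroup.mk' S Y) hX hY
      (z := QuotientGroup.mk' S a) (by rw [hτker]; exact Subgroup.mem_map_of_mem _ ha)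
    rw [← map_commutatorElement, ← hw, ← MonoidHom.map_zpowers] at hmem
    obtain ⟨p, hp, hpa⟩ := hmem
    rw [QuotientGroup.mk'_apply, QuotientGroup.mk'_apply, QuotientGroup.eq] at hpa
    obtain ⟨b, hb, hb2⟩ := hpa
    exact ⟨p, hp, b, hb, by rw [← hb2, mul_inv_cancel_left]⟩
  have iter : ∀ k : ℕ, ∀ a ∈ σ.ker, ∃ p ∈ Subgroup.zpowers w, ∃ b ∈ σ.ker, a = p * b ^ 2 ^ k := by
    intro k
    induction k with
    | zero => intro a ha; exact ⟨1, one_mem _, a, ha, by simp⟩
    | succ k ih =>
      intro a ha
      obtain ⟨p, hp, b, hb, rfl⟩ := ih a ha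
      obtain ⟨q, hq, b', hb', rfl⟩ := step b hb
      refine ⟨p * q ^ 2 ^ k, mul_mem hp (pow_mem hq _), b', hb', ?_⟩
      rw [(show Commute q (b' ^ 2) from hkc _ (pow_mem hb' 2) q).mul_pow, ← pow_mul, ← pow_succ',
        mul_assoc]
  intro z hz k hk
  obtain ⟨a, m, hm, hKm⟩ := Nat.exists_eq_two_pow_mul_odd (n := Nat.card σ.ker) Nat.card_pos.ne'
  obtain ⟨p, hp, b, hb, rfl⟩ := iter a z hz
  have hbK : (b ^ 2 ^ a) ^ m = 1 := by
    rw [← pow_mul, ← hKm]
    have := pow_card_eq_one' (x := (⟨b, hb⟩ : σ.ker))
    exact congrArg Subtype.val this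
  have hzm : (p * b ^ 2 ^ a) ^ m ∈ Subgroup.zpowers w := by
    rw [(show Commute p (b ^ 2 ^ a) from hkc _ (pow_mem hb _) p).mul_pow, hbK, mul_one]
    exact pow_mem hp _
  have hcop : m.Coprime (orderOf (p * b ^ 2 ^ a)) := by
    refine Nat.Coprime.of_dvd_right (orderOf_dvd_of_pow_eq_one hk) (Nat.Coprime.pow_right k ?_)
    exact (Nat.prime_two.coprime_iff_not_dvd.2 hm.not_two_dvd_nat).symm
  obtain ⟨j, hj⟩ := exists_pow_eq_self_of_coprime hcop
  rw [← hj]
  exact pow_mem hzm _

end Main

end FreeCollect

end CfsgLib.SchurMult
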