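import Cfsg.Prelude.Def_KGroupFacts
import Cfsg.Agent.Lib.SchurMult.CentralComm

/-!
The derived group of the fibre product of two perfect central extensions of a perfect group is a perfect stem
extension mapping onto both.
-/

set_option autoImplicit false
set_option linter.unusedSectionVars false

namespace CfsgLib.SchurMult

open scoped commutatorElement

universe u v

variable {A B : Type u} {G : Type v} [Group A] [Group B] [Group G]

/-- A surjection between perfect groups restricted to derived groups stays surjective. -/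
theorem map_commutator_eq_top {P Q : Type*} [Group P] [Group Q] (f : P →* Q) (hf : Function.Surjective f)
    (hQ : commutator Q = ⊤) : (commutator P).map f = ⊤ := by
  rw [commutator_def, Subgroup.map_commutator, ← MonoidHom.range_eq_map, MonoidHom.range_eq_top.2 hf,
    ← commutator_def, hQ]

/-- The fibre product cover. -/
theorem exists_fibre_cover [Finite A] [Finite B] (f : A →* G) (g : B →* G) (hf : Function.Surjective f)
    (hg : Function.Surjective g) (hfc : f.ker ≤ Subgroup.center A) (hgc : g.ker ≤ Subgroup.center B)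
    (hA : commutator A = ⊤) (hB : commutator B = ⊤) :
    ∃ (D : Type u) (_ : Group D) (_ : Finite D) (σ : D →* G) (π₁ : D →* A) (π₂ : D →* B),
      Cfsg.IsStemExtension σ ∧ commutator D = ⊤ ∧ Function.Surjective π₁ ∧ Function.Surjective π₂ ∧
      f.comp π₁ = σ ∧ g.comp π₂ = σ ∧ ∀ x y, π₁ x = π₁ y → π₂ x = π₂ y → x = y := by
  let P : Subgroup (A × B) := (f.comp (MonoidHom.fst A B)).eqLocus (g.comp (MonoidHom.snd A B))
  let p₁ : P →* A := (MonoidHom.fst A B).comp P.subtype
  let p₂ : P →* B := (MonoidHom.snd A B).comp P.subtype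
  have hp₁ : Function.Surjective p₁ := fun a => by
    obtain ⟨b, hb⟩ := hg (f a)
    exact ⟨⟨(a, b), hb.symm⟩, rfl⟩
  have hp₂ : Function.Surjective p₂ := fun b => by
    obtain ⟨a, ha⟩ := hf (g b)
    exact ⟨⟨(a, b), ha⟩, rfl⟩
  let ρ : P →* G := f.comp p₁
  have hρc : ρ.ker ≤ Subgroup.center P := by
    intro x hx
    have h1 : f (x : A × B).1 = 1 := hx
    have h2 : g (x : A × B).2 = 1 := (x.2 : f (x : A × B).1 = g (x : A × B).2).symm.trans h1
    exact Subgroup.mem_center_iff.2 fun y => Subtype.ext (Prod.ext
      (Subgroup.mem_center_iff.1 (hfc h1) (y : A × B).1) (Subgroup.mem_center_iff.1 (hgc h2) (y : A × B).2))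
  let D : Subgroup P := commutator P
  have hπ₁ : Function.Surjective (p₁.comp D.subtype) := by
    rw [← MonoidHom.range_eq_top, MonoidHom.range_comp, Subgroup.range_subtype]
    exact map_commutator_eq_top p₁ hp₁ hA
  have hπ₂ : Function.Surjective (p₂.comp D.subtype) := by
    rw [← MonoidHom.range_eq_top, MonoidHom.range_comp, Subgroup.range_subtype]
    exact map_commutator_eq_top p₂ hp₂ hB
  have hσ : Function.Surjective (ρ.comp D.subtype) := hf.comp hπ₁
  have hperf : commutator D = ⊤ := by
    rw [eq_top_iff]
    intro x _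
    have hle : commutator P ≤ (commutator D).map D.subtype := by
      refine le_of_eq_of_le (commutator_def P) (Subgroup.commutator_le.2 ?_)
      intro a _ b _
      obtain ⟨a', ha⟩ := hσ (ρ a)
      obtain ⟨b', hb⟩ := hσ (ρ b)
      refine ⟨⁅a', b'⁆, ?_, ?_⟩
      · rw [commutator_def]
        exact Subgroup.commutator_mem_commutator trivial trivial
      · rw [map_commutatorElement]
        exact comm_eq_of_map_eq hρc ha hb
    obtain ⟨y, hy, he⟩ := hle x.2
    exact (Subtype.ext he : y = x) ▸ hy
  refine ⟨D, inferInstance, inferInstance, ρ.comp D.subtype, p₁.comp D.subtype, p₂.comp D.subtype,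
    ⟨hσ, fun z hz => ?_, ?_⟩, hperf, hπ₁, hπ₂, rfl, ?_, ?_⟩
  · exact Subgroup.mem_center_iff.2 fun y =>
      Subtype.ext (Subgroup.mem_center_iff.1 (hρc (show (z : P) ∈ ρ.ker from hz)) (y : P))
  · rw [hperf]; exact le_top
  · ext x
    exact ((x : P).2 : f ((x : P) : A × B).1 = g ((x : P) : A × B).2).symm
  · intro x y h1 h2
    exact Subtype.ext (Subtype.ext (Prod.ext h1 h2))

/-- A map between extensions restricts to a surjection of kernels. -/
theorem card_ker_dvd_of_comp {D : Type u} [Group D] [Finite D] {σ : D →* G} (f : A →* G) (π : D →* A)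
    (hπ : Function.Surjective π) (h : f.comp π = σ) : Nat.card f.ker ∣ Nat.card σ.ker := by
  let r : σ.ker →* f.ker := (π.comp σ.ker.subtype).codRestrict f.ker fun x => by
    show f (π x) = 1
    rw [← MonoidHom.comp_apply, h]
    exact x.2
  have hr : Function.Surjective r := by
    rintro ⟨a, ha⟩
    obtain ⟨x, rfl⟩ := hπ a
    refine ⟨⟨x, ?_⟩, Subtype.ext rfl⟩
    rw [MonoidHom.mem_ker, ← h]
    exact ha
  exact Subgroup.card_dvd_of_surjective r hr

end CfsgLib.SchurMult
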