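import Cfsg.Agent.Lib.SchurMult.J3Three
import Cfsg.Agent.Lib.SporadicB.J3.Basic
import Cfsg.Prelude.Def_Spor_J3

/-!
The monomial elements of the triple cover of J₃: the relations for the local argument at `3`,
perfectness of the cover, and the vanishing of the `3`-part of its multiplier.
-/

set_option autoImplicit false
set_option maxRecDepth 4000

namespace CfsgLib.SchurMult.J3Three

open Cfsg.Spor
open scoped commutatorElement

/-- A monomial matrix with entries cube roots of unity: `e_z ↦ ω^(e z) e_(p z)`. -/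
structure Mono where
  p : F9 → F9
  e : F9 → ZMod 3

namespace Mono

@[ext] theorem ext' {m n : Mono} (h : ∀ z, m.p z = n.p z ∧ m.e z = n.e z) : m = n := by
  cases m; cases n
  simp only [Mono.mk.injEq]
  exact ⟨funext fun z => (h z).1, funext fun z => (h z).2⟩

instance : Monoid Mono where
  mul m n := ⟨m.p ∘ n.p, fun z => n.e z + m.e (n.p z)⟩
  one := ⟨id, fun _ => 0⟩
  mul_assoc a b c := Mono.ext' fun z => ⟨rfl, by
    show c.e z + (b.e (c.p z) + a.e (b.p (c.p z))) = c.e z + b.e (c.p z) + a.e (b.p (c.p z))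
    rw [add_assoc]⟩
  one_mul a := Mono.ext' fun z => ⟨rfl, add_zero _⟩
  mul_one a := Mono.ext' fun z => ⟨rfl, zero_add _⟩

instance : DecidableEq Mono := fun m n =>
  decidable_of_iff (∀ z, m.p z = n.p z ∧ m.e z = n.e z)
    ⟨Mono.ext', fun h z => h ▸ ⟨rfl, rfl⟩⟩

instance : Finite Mono :=
  Finite.of_injective (fun m : Mono => (m.p, m.e)) fun m n h => by
    cases m; cases n; simpa [Mono.mk.injEq] using h

/-- Translation by `t` with exponents `e`. -/
def tr (t : F9) (e : F9 → ZMod 3) : Monoˣ where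
  val := ⟨fun z => z + t, e⟩
  inv := ⟨fun z => z - t, fun z => -e (z - t)⟩
  val_inv := Mono.ext' fun z => ⟨by show z - t + t = z; abel, by
    show -e (z - t) + e (z - t) = 0; abel⟩
  inv_val := Mono.ext' fun z => ⟨by show z + t - t = z; abel, by
    show e z + -e (z + t - t) = 0; rw [add_sub_cancel_right]; abel⟩

/-- An exponent table, in the order `3 x + y`. -/
def tbl (v : Fin 9 → ZMod 3) (z : F9) : ZMod 3 :=
  v ⟨3 * z.1.val + z.2.val, by have := z.1.val_lt; have := z.2.val_lt; omega⟩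

def aU : Monoˣ := tr (1, 0) (tbl ![0, 0, 0, 0, 1, 2, 0, 0, 0])
def bU : Monoˣ := tr (0, 1) (tbl ![0, 0, 0, 0, 2, 0, 0, 1, 0])
def cU : Monoˣ := tr 0 (tbl ![0, 0, 1, 0, 0, 1, 1, 1, 2])
def xU : Monoˣ := tr 0 (tbl ![1, 1, 1, 0, 0, 0, 2, 2, 2])
def yU : Monoˣ := tr 0 (tbl ![1, 0, 2, 1, 0, 2, 1, 0, 2])
def wU : Monoˣ := tr 0 fun _ => 1

def gU : Monoˣ where
  val := ⟨F9.mul F9.I, fun _ => 0⟩
  inv := ⟨F9.mul (-F9.I), fun _ => 0⟩
  val_inv := by decide
  inv_val := by decide

theorem units_comm : aU * bU = cU * (bU * aU) ∧ aU * cU = xU * (cU * aU) ∧ bU * cU = yU * (cU * bU) ∧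
    aU * xU = wU * (xU * aU) ∧ bU * yU = wU * (yU * bU) := by
  simp only [Units.ext_iff, Units.val_mul]
  decide +kernel

theorem units_rel : bU * xU = xU * bU ∧ aU * yU = yU * aU ∧ cU * xU = xU * cU ∧ cU * yU = yU * cU ∧
    xU * yU = yU * xU ∧ gU * aU = bU * gU ∧ aU * (gU * bU) = gU ∧ aU * aU * aU = yU * yU * wU ∧
    cU * cU * cU = 1 := by
  simp only [Units.ext_iff, Units.val_mul]
  decide +kernel

theorem units_indep : ∀ i j k l : Fin 3,
    ((cU ^ (i : ℕ) * xU ^ (j : ℕ) * yU ^ (k : ℕ) * wU ^ (l : ℕ) : Monoˣ) : Mono) = 1 →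
      i = 0 ∧ j = 0 ∧ k = 0 ∧ l = 0 := by
  simp only [Units.val_mul, Units.val_pow_eq_pow_val]
  decide +kernel

theorem comm_eq {M : Type*} [Group M] {p q r : M} (h : p * q = r * (q * p)) : ⁅p, q⁆ = r := by
  rw [commutatorElement_def, mul_assoc (p * q), ← mul_inv_rev, mul_inv_eq_iff_eq_mul, h]

section matrices

variable {F : Type*} [Field F] [CharP F 2] {ω : F} (hω : ω ^ 2 + ω + 1 = 0)

/-- The matrix of a monomial. -/
def mat (F : Type*) [Field F] (ω : F) (m : Mono) : Matrix F9 F9 F :=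
  Matrix.of fun w z => if w = m.p z then omegaPow F ω (m.e z) else 0

include hω in
omit [CharP F 2] in
theorem omega_cube : ω ^ 3 = 1 := by linear_combination (ω - 1) * hω

include hω in
omit [CharP F 2] in
theorem omegaPow_add (i j : ZMod 3) : omegaPow F ω (i + j) = omegaPow F ω i * omegaPow F ω j := by
  rw [omegaPow, omegaPow, omegaPow, ← pow_add, ZMod.val_add, ← pow_eq_pow_mod _ (omega_cube hω)]

include hω in
theorem omegaPow_eq_one {i : ZMod 3} (h : omegaPow F ω i = 1) : i = 0 := by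
  obtain ⟨h0, -, h1⟩ := CfsgLib.SporadicB.J3.omega_facts hω
  have hi : i.val < 3 := i.val_lt
  unfold omegaPow at h
  interval_cases hv : i.val
  · exact (ZMod.val_eq_zero i).1 hv
  · exact absurd (by simpa using h) h1
  · exfalso
    apply h1
    have := omega_cube hω
    rw [pow_succ, h, one_mul] at this
    exact this

include hω in
/-- Monomials to matrices. -/
def matHom : Mono →* Matrix F9 F9 F where
  toFun := mat F ω
  map_one' := by
    ext w z
    show (if w = z then omegaPow F ω 0 else 0) = (1 : Matrix F9 F9 F) w z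
    rw [Matrix.one_apply]
    simp [omegaPow]
  map_mul' m n := by
    ext w z
    rw [Matrix.mul_apply]
    simp only [mat, Matrix.of_apply, mul_ite, mul_zero]
    rw [Finset.sum_ite_eq' Finset.univ (n.p z) fun u => (if w = m.p u then omegaPow F ω (m.e u) else 0) *
      omegaPow F ω (n.e z)]
    simp only [Finset.mem_univ, if_true]
    show (if w = m.p (n.p z) then omegaPow F ω (n.e z + m.e (n.p z)) else 0) = _
    rw [omegaPow_add hω]
    split <;> simp [mul_comm]

include hω in
theorem matHom_inj : Function.Injective (Units.map (matHom (F := F) hω)) := by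
  rw [← MonoidHom.ker_eq_bot_iff, eq_bot_iff]
  intro u hu
  rw [Subgroup.mem_bot]
  apply Units.ext
  have h : mat F ω (u : Mono) = 1 := congrArg Units.val hu
  refine Mono.ext' fun z => ?_
  have h0 : omegaPow F ω ((u : Mono).e z) ≠ 0 := pow_ne_zero _ (CfsgLib.SporadicB.J3.omega_facts hω).1
  have hd := congrFun (congrFun h ((u : Mono).p z)) z
  simp only [mat, Matrix.of_apply, if_true, Matrix.one_apply] at hd
  by_cases hp : (u : Mono).p z = z
  · rw [if_pos hp] at hd
    exact ⟨hp, omegaPow_eq_one hω hd⟩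
  · rw [if_neg hp] at hd
    exact absurd hd h0

theorem mat_D (Z : F9) (u : Monoˣ) (hp : ∀ z, (u : Mono).p z = z + Z)
    (he : ∀ z, (u : Mono).e z = if z = 0 then 0 else if F9.div Z z = F9.I - F9.one then 1
      else if F9.div Z z = -F9.I - F9.one then 2 else 0) :
    mat F ω (u : Mono) = j3D F ω Z := by
  ext w z
  simp only [mat, j3D, Matrix.of_apply, hp, he]
  split
  · unfold j3Lam omegaPow
    split_ifs <;> first | exact pow_zero ω | exact pow_one ω | rfl
  · rfl

theorem mat_B : mat F ω (gU : Mono) = j3B F F9.I := by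
  ext w z
  simp only [mat, j3B, Matrix.of_apply]
  show (if w = F9.mul F9.I z then omegaPow F ω 0 else 0) = _
  simp [omegaPow]

include hω in
theorem gens_mem :
    Units.map (matHom (F := F) hω) aU ∈ threeJ3 F ω ∧ Units.map (matHom (F := F) hω) bU ∈ threeJ3 F ω ∧
      Units.map (matHom (F := F) hω) gU ∈ threeJ3 F ω := by
  have hA : ∀ z, (aU : Mono).e z = if z = 0 then 0 else if F9.div (1, 0) z = F9.I - F9.one then 1
      else if F9.div (1, 0) z = -F9.I - F9.one then 2 else 0 := by decide +kernel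
  have hB : ∀ z, (bU : Mono).e z = if z = 0 then 0 else if F9.div (0, 1) z = F9.I - F9.one then 1
      else if F9.div (0, 1) z = -F9.I - F9.one then 2 else 0 := by decide +kernel
  refine ⟨Subgroup.subset_closure ?_, Subgroup.subset_closure ?_, Subgroup.subset_closure ?_⟩
  · show mat F ω (aU : Mono) ∈ j3Gens F ω
    exact Or.inl (Or.inl (Or.inr ⟨_, (mat_D _ aU (fun _ => rfl) hA).symm⟩))
  · show mat F ω (bU : Mono) ∈ j3Gens F ω
    exact Or.inl (Or.inl (Or.inr ⟨_, (mat_D _ bU (fun _ => rfl) hB).symm⟩))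
  · show mat F ω (gU : Mono) ∈ j3Gens F ω
    exact Or.inl (Or.inr ⟨F9.I, by decide, mat_B⟩)

end matrices

/-- The monomials over translations. -/
def translations : Subgroup Monoˣ where
  carrier := {u | ∃ t : F9, ∀ z, (u : Mono).p z = z + t}
  one_mem' := ⟨0, fun z => (add_zero z).symm⟩
  mul_mem' := by
    rintro u v ⟨s, hs⟩ ⟨t, ht⟩
    refine ⟨t + s, fun z => ?_⟩
    show (u : Mono).p ((v : Mono).p z) = _
    rw [ht, hs, add_assoc]
  inv_mem' := by
    rintro u ⟨t, ht⟩
    refine ⟨-t, fun z => ?_⟩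
    have h : (u : Mono).p ((↑u⁻¹ : Mono).p z) = z := congrFun (congrArg Mono.p u.mul_inv) z
    rw [ht] at h
    rw [← sub_eq_add_neg, eq_sub_iff_add_eq]
    exact h

theorem isPGroup_translations : IsPGroup 3 translations := by
  intro u
  obtain ⟨t, ht⟩ := u.2
  refine ⟨2, Subtype.ext ?_⟩
  have h3 : ∀ v : Monoˣ, v * v * v = v ^ 3 := fun v => by rw [pow_succ, pow_two]
  have three : ∀ i : ZMod 3, i + i + i = 0 := by decide
  have key : ∀ v : Monoˣ, (∀ z, (v : Mono).p z = z) → v ^ 3 = 1 := by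
    intro v hv
    rw [← h3]
    apply Units.ext
    refine Mono.ext' fun z => ⟨?_, ?_⟩
    · show (v : Mono).p ((v : Mono).p ((v : Mono).p z)) = z
      rw [hv, hv, hv]
    · show (v : Mono).e z + ((v : Mono).e ((v : Mono).p z) + (v : Mono).e ((v : Mono).p ((v : Mono).p z))) = 0
      rw [hv, hv, ← add_assoc]
      exact three _
  rw [Subgroup.coe_pow, pow_succ, pow_one, pow_mul, Subgroup.coe_one]
  refine key _ fun z => ?_
  rw [← h3]
  show (u.1 : Mono).p ((u.1 : Mono).p ((u.1 : Mono).p z)) = z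
  rw [ht, ht, ht, add_assoc, add_assoc]
  have : t + (t + t) = 0 := by
    have h : ∀ t : F9, t + (t + t) = 0 := by decide
    exact h t
  rw [this, add_zero]

theorem card_closure_units : 3 ^ 6 ∣ Nat.card (Subgroup.closure ({aU, bU} : Set Monoˣ)) := by
  set P := Subgroup.closure ({aU, bU} : Set Monoˣ)
  have ha : aU ∈ P := Subgroup.subset_closure (by simp)
  have hb : bU ∈ P := Subgroup.subset_closure (by simp)
  obtain ⟨e1, e2, e3, e4, -⟩ := units_comm
  have hc : cU ∈ P := by
    rw [← comm_eq e1, commutatorElement_def]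
    exact mul_mem (mul_mem (mul_mem ha hb) (inv_mem ha)) (inv_mem hb)
  have hx : xU ∈ P := by
    rw [← comm_eq e2, commutatorElement_def]
    exact mul_mem (mul_mem (mul_mem ha hc) (inv_mem ha)) (inv_mem hc)
  have hy : yU ∈ P := by
    rw [← comm_eq e3, commutatorElement_def]
    exact mul_mem (mul_mem (mul_mem hb hc) (inv_mem hb)) (inv_mem hc)
  have hw : wU ∈ P := by
    rw [← comm_eq e4, commutatorElement_def]
    exact mul_mem (mul_mem (mul_mem ha hx) (inv_mem ha)) (inv_mem hx)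
  have hP : P ≤ translations := by
    rw [Subgroup.closure_le]
    rintro _ (rfl | rfl)
    exacts [⟨_, fun _ => rfl⟩, ⟨_, fun _ => rfl⟩]
  let n : Fin 3 × Fin 3 × Fin 3 × Fin 3 → Monoˣ := fun q =>
    cU ^ (q.1 : ℕ) * xU ^ (q.2.1 : ℕ) * yU ^ (q.2.2.1 : ℕ) * wU ^ (q.2.2.2 : ℕ)
  have hdiag : ∀ q z, ((n q : Monoˣ) : Mono).p z = z := by decide +kernel
  let r : Fin 3 × Fin 3 → Monoˣ := fun q => aU ^ (q.1 : ℕ) * bU ^ (q.2 : ℕ)
  have hr : ∀ q q', ((r q : Monoˣ) : Mono).p 0 = ((r q' : Monoˣ) : Mono).p 0 → q = q' := by decide +kernel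
  have hn : Function.Injective n := by
    have h : ∀ q q', ((n q : Monoˣ) : Mono) = (n q' : Mono) → q = q' := by decide +kernel
    exact fun q q' e => h q q' (congrArg Units.val e)
  let f : (Fin 3 × Fin 3) × (Fin 3 × Fin 3 × Fin 3 × Fin 3) → P := fun q =>
    ⟨r q.1 * n q.2, mul_mem (mul_mem (pow_mem ha _) (pow_mem hb _))
      (mul_mem (mul_mem (mul_mem (pow_mem hc _) (pow_mem hx _)) (pow_mem hy _)) (pow_mem hw _))⟩
  have hf : Function.Injective f := by
    rintro ⟨q, s⟩ ⟨q', s'⟩ e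
    have e' : r q * n s = r q' * n s' := congrArg Subtype.val e
    have hq : q = q' := hr _ _ (by
      have h0 := congrArg (fun u : Monoˣ => (u : Mono).p 0) e'
      have hl : ∀ q s, ((r q * n s : Monoˣ) : Mono).p 0 = ((r q : Monoˣ) : Mono).p 0 := fun q s => by
        show ((r q : Monoˣ) : Mono).p (((n s : Monoˣ) : Mono).p 0) = _
        rw [hdiag]
      simpa only [hl] using h0)
    subst hq
    rw [hn (mul_left_cancel e')]
  have hge : 3 ^ 6 ≤ Nat.card P := by
    refine le_of_eq_of_le ?_ (Nat.card_le_card_of_injective f hf)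
    simp only [Nat.card_prod, Nat.card_fin]
    norm_num
  obtain ⟨k, hk⟩ := IsPGroup.iff_card.1 (isPGroup_translations.to_le hP)
  rw [hk] at hge ⊢
  exact Nat.pow_dvd_pow 3 ((Nat.pow_le_pow_iff_right (by norm_num)).1 hge)

end Mono

section cover

universe v

variable {F : Type v} [Field F] [Fintype F] [CharP F 2] {ω : F} (hω : ω ^ 2 + ω + 1 = 0)

include hω in
/-- The data of the local argument in the cover, with the scalar `w`, and the index. -/
theorem exists_data : ∃ a b g c x y w : threeJ3 F ω, Data a b g c x y w ∧ w ≠ 1 ∧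
    ¬ 3 ∣ (Subgroup.closure {a, b}).index := by
  obtain ⟨ma, mb, mg⟩ := Mono.gens_mem (F := F) hω
  set φ := Units.map (Mono.matHom (F := F) hω) with hφ
  set a : threeJ3 F ω := ⟨φ Mono.aU, ma⟩
  set b : threeJ3 F ω := ⟨φ Mono.bU, mb⟩
  set g : threeJ3 F ω := ⟨φ Mono.gU, mg⟩
  set S := (threeJ3 F ω).comap φ
  let ψ : S →* threeJ3 F ω := φ.subgroupComap _
  have hψ : Function.Injective ψ := fun p q e => Subtype.ext (Mono.matHom_inj hω (congrArg Subtype.val e))
  have sa : Mono.aU ∈ S := ma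
  have sb : Mono.bU ∈ S := mb
  have sg : Mono.gU ∈ S := mg
  obtain ⟨e1, e2, e3, e4, e5⟩ := Mono.units_comm
  have sc : Mono.cU ∈ S := Mono.comm_eq e1 ▸ Subgroup.commutator_le_self S
    (Subgroup.commutator_mem_commutator sa sb)
  have sx : Mono.xU ∈ S := Mono.comm_eq e2 ▸ Subgroup.commutator_le_self S
    (Subgroup.commutator_mem_commutator sa sc)
  have sy : Mono.yU ∈ S := Mono.comm_eq e3 ▸ Subgroup.commutator_le_self S
    (Subgroup.commutator_mem_commutator sb sc)
  have sw : Mono.wU ∈ S := Mono.comm_eq e4 ▸ Subgroup.commutator_le_self S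
    (Subgroup.commutator_mem_commutator sa sx)
  obtain ⟨r1, r2, r3, r4, r5, r6, r7, r8, r9⟩ := Mono.units_rel
  have hwU : Mono.wU ≠ 1 := fun h => by
    exact absurd (congrArg (fun u : Monoˣ => (u : Mono).e 0) h) (by decide)
  refine ⟨ψ ⟨_, sa⟩, ψ ⟨_, sb⟩, ψ ⟨_, sg⟩, ψ ⟨_, sc⟩, ψ ⟨_, sx⟩, ψ ⟨_, sy⟩, ψ ⟨_, sw⟩,
    ⟨?_, ?_, ?_, ?_, ?_, ?_, ?_, ?_, ?_, ?_, ?_, ?_, ?_, ?_, ?_, ?_⟩, ?_, ?_⟩
  · rw [← map_commutatorElement]; exact congrArg ψ (Subtype.ext (Mono.comm_eq e1))
  · rw [← map_commutatorElement]; exact congrArg ψ (Subtype.ext (Mono.comm_eq e2))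
  · rw [← map_commutatorElement]; exact congrArg ψ (Subtype.ext (Mono.comm_eq e3))
  · rw [← map_commutatorElement]; exact congrArg ψ (Subtype.ext (Mono.comm_eq e4))
  · rw [← map_commutatorElement]; exact congrArg ψ (Subtype.ext (Mono.comm_eq e5))
  · exact Commute.map (show Commute (⟨_, sb⟩ : S) ⟨_, sx⟩ from Subtype.ext r1) ψ
  · exact Commute.map (show Commute (⟨_, sa⟩ : S) ⟨_, sy⟩ from Subtype.ext r2) ψ
  · exact Commute.map (show Commute (⟨_, sc⟩ : S) ⟨_, sx⟩ from Subtype.ext r3) ψ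
  · exact Commute.map (show Commute (⟨_, sc⟩ : S) ⟨_, sy⟩ from Subtype.ext r4) ψ
  · exact Commute.map (show Commute (⟨_, sx⟩ : S) ⟨_, sy⟩ from Subtype.ext r5) ψ
  · rw [Subgroup.mem_center_iff]
    intro h
    apply Subtype.ext
    apply Units.ext
    show ((h : GL F9 F) : Matrix F9 F9 F) * Mono.mat F ω (Mono.wU : Mono) =
      Mono.mat F ω (Mono.wU : Mono) * ((h : GL F9 F) : Matrix F9 F9 F)
    have hs : Mono.mat F ω (Mono.wU : Mono) = omegaPow F ω 1 • (1 : Matrix F9 F9 F) := by
      ext u z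
      show (if u = z + 0 then omegaPow F ω 1 else 0) = _
      rw [add_zero, Matrix.smul_apply, Matrix.one_apply, smul_eq_mul]
      split <;> simp
    rw [hs, Matrix.mul_smul, Matrix.smul_mul, mul_one, one_mul]
  · rw [← map_mul, ← map_mul]; exact congrArg ψ (Subtype.ext r6)
  · rw [← map_mul, ← map_mul]; exact congrArg ψ (Subtype.ext r7)
  · rw [← map_pow, ← map_pow, ← map_mul]
    refine congrArg ψ (Subtype.ext ?_)
    simp only [Subgroup.coe_pow, Subgroup.coe_mul, pow_succ, pow_zero, one_mul]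
    exact r8
  · rw [← map_pow, ← map_one ψ]
    refine congrArg ψ (Subtype.ext ?_)
    simp only [Subgroup.coe_pow, Subgroup.coe_one, pow_succ, pow_zero, one_mul]
    exact r9
  · intro i j k l h
    rw [← map_pow, ← map_pow, ← map_pow, ← map_pow, ← map_mul, ← map_mul, ← map_mul, ← map_one ψ] at h
    have := congrArg (fun u : S => ((u : Monoˣ) : Mono)) (hψ h)
    exact Mono.units_indep i j k l this
  · intro h
    rw [← map_one ψ] at h
    exact hwU (congrArg Subtype.val (hψ h))
  · intro hdvd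
    have h1 : 3 ^ 6 ∣ Nat.card (Subgroup.closure ({ψ ⟨_, sa⟩, ψ ⟨_, sb⟩} : Set (threeJ3 F ω))) := by
      refine Mono.card_closure_units.trans (dvd_of_eq ?_)
      rw [show ({ψ ⟨_, sa⟩, ψ ⟨_, sb⟩} : Set (threeJ3 F ω)) = ψ '' {⟨_, sa⟩, ⟨_, sb⟩} from
          (Set.image_pair ψ _ _).symm, ← MonoidHom.map_closure, Subgroup.card_map_of_injective hψ,
        ← Subgroup.card_map_of_injective S.subtype_injective, MonoidHom.map_closure, Set.image_pair]
      rfl
    have h2 := Nat.mul_dvd_mul h1 hdvd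
    rw [Subgroup.card_mul_index, (CfsgLib.SporadicB.J3.card_threeJ3_and_stabK (F := F) hω).1] at h2
    norm_num at h2

include hω in
theorem commutator_threeJ3 : commutator (threeJ3 F ω) = ⊤ := by
  obtain ⟨φ, -, -, -, -, hc⟩ := CfsgLib.SporadicB.J3.j3_main (F := F) hω
  obtain ⟨hs, hn⟩ := CfsgLib.SporadicB.J3.isJ3_quotient (F := F) hω
  obtain ⟨a, b, g, c, x, y, w, d, hw1, -⟩ := exists_data (F := F) hω
  have hwD : w ∈ commutator (threeJ3 F ω) := by
    rw [← d.hw, commutator_def]
    exact Subgroup.commutator_mem_commutator (Subgroup.mem_top _) (Subgroup.mem_top _)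
  have hZ : Subgroup.center (threeJ3 F ω) ≤ commutator (threeJ3 F ω) := by
    have : Fact (Nat.Prime 3) := ⟨Nat.prime_three⟩
    have hz : Subgroup.zpowers (⟨w, d.central⟩ : Subgroup.center (threeJ3 F ω)) = ⊤ :=
      zpowers_eq_top_of_prime_card hc fun h => hw1 (congrArg Subtype.val h)
    intro z hz'
    obtain ⟨k, hk⟩ := Subgroup.mem_zpowers_iff.1 (hz ▸ Subgroup.mem_top (⟨z, hz'⟩ : Subgroup.center (threeJ3 F ω)))
    have := congrArg Subtype.val hk
    simp only [Subgroup.coe_zpow] at this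
    exact this ▸ zpow_mem hwD k
  haveI := hs
  have hJ : commutator (J3 F ω) = ⊤ := by
    rcases (commutator (J3 F ω)).normal_of_characteristic.eq_bot_or_eq_top with h | h
    · exfalso
      haveI : Finite (J3 F ω) := inferInstance
      have hcomm : ∀ p q : J3 F ω, p * q = q * p := fun p q => by
        rw [← commutatorElement_eq_one_iff_mul_comm, ← Subgroup.mem_bot, ← h, commutator_def]
        exact Subgroup.commutator_mem_commutator (Subgroup.mem_top _) (Subgroup.mem_top _)
      letI : CommGroup (J3 F ω) := { (inferInstance : Group (J3 F ω)) with mul_comm := hcomm }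
      have hp := (IsSimpleGroup.prime_card (α := J3 F ω))
      rw [hn] at hp
      norm_num at hp
    · exact h
  have h := Subgroup.comap_map_eq (QuotientGroup.mk' (Subgroup.center (threeJ3 F ω))) (commutator (threeJ3 F ω))
  rw [QuotientGroup.ker_mk', sup_eq_left.2 hZ, commutator_def, Subgroup.map_commutator,
    Subgroup.map_top_of_surjective _ (QuotientGroup.mk'_surjective _), ← commutator_def, ← commutator_def, hJ,
    Subgroup.comap_top] at h
  exact h.symm

include hω in
/-- The cover has no multiplier at `3`. -/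
theorem not_three_dvd {Γ : Type v} [Group Γ] [Finite Γ] {σ : Γ →* threeJ3 F ω}
    (hσ : Cfsg.IsStemExtension σ) : ¬ 3 ∣ Nat.card σ.ker := by
  obtain ⟨a, b, g, c, x, y, w, d, -, hidx⟩ := exists_data (F := F) hω
  exact not_three_dvd_card_ker hσ (commutator_threeJ3 hω) d hidx

end cover

end CfsgLib.SchurMult.J3Three
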