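import Cfsg.Agent.Lib.SchurMult.Reduce
import Cfsg.Agent.Lib.SchurMult.CentralComm

/-!
The local argument at the prime `3` for the triple cover of the Janko group J₃.

In the cover the monomial subgroup `⟨a, b⟩` of order `729` is a Sylow `3`-subgroup up to the listed
relations; together with one element `g` acting on it as an element of order `4` these relations force the
commutator subgroup of the preimage in any stem extension to inject.
-/

set_option autoImplicit false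

namespace CfsgLib.SchurMult.J3Three

open Subgroup
open scoped commutatorElement

universe v

/-- The relations used by the local argument. -/
structure Data {D : Type v} [Group D] (a b g c x y w : D) : Prop where
  hc : ⁅a, b⁆ = c
  hx : ⁅a, c⁆ = x
  hy : ⁅b, c⁆ = y
  hw : ⁅a, x⁆ = w
  hu : ⁅b, y⁆ = w
  bx : Commute b x
  ay : Commute a y
  cx : Commute c x
  cy : Commute c y
  xy : Commute x y
  central : w ∈ Subgroup.center D
  ga : g * a = b * g
  gb : a * (g * b) = g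
  a3 : a ^ 3 = y ^ 2 * w
  c3 : c ^ 3 = 1
  indep : ∀ i j k l : Fin 3,
    c ^ (i : ℕ) * x ^ (j : ℕ) * y ^ (k : ℕ) * w ^ (l : ℕ) = 1 → i = 0 ∧ j = 0 ∧ k = 0 ∧ l = 0

variable {D : Type v} [Group D] {Γ : Type v} [Group Γ] [Finite Γ] {σ : Γ →* D}

omit [Finite Γ] in
theorem isPerfect_of_stem (hσ : Cfsg.IsStemExtension σ) (hperf : commutator D = ⊤) : commutator Γ = ⊤ := by
  have h := Subgroup.comap_map_eq σ (commutator Γ)
  rw [sup_eq_left.2 hσ.2.2, commutator_def, Subgroup.map_commutator,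
    Subgroup.map_top_of_surjective σ hσ.1, ← commutator_def, ← commutator_def, hperf, Subgroup.comap_top] at h
  exact h.symm

omit [Finite Γ] in
theorem mem_center_of_map_mem_center (hσ : Cfsg.IsStemExtension σ) (hperf : commutator D = ⊤) {z : Γ}
    (hz : σ z ∈ Subgroup.center D) : z ∈ Subgroup.center Γ := by
  have hker : ∀ h : Γ, ⁅z, h⁆ ∈ σ.ker := fun h =>
    comm_mem_ker (Subgroup.mem_center_iff.1 hz (σ h)).symm
  let f : Γ →* σ.ker := MonoidHom.mk' (fun h => ⟨⁅z, h⁆, hker h⟩) fun p q => Subtype.ext (by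
    show ⁅z, p * q⁆ = ⁅z, p⁆ * ⁅z, q⁆
    exact comm_mul_right hσ.2.1 (Subgroup.mem_center_iff.1 hz (σ q)).symm)
  haveI : IsMulCommutative σ.ker :=
    ⟨⟨fun p q => Subtype.ext (Subgroup.mem_center_iff.1 (hσ.2.1 q.2) (p : Γ))⟩⟩
  have hle : commutator Γ ≤ f.ker := by
    rw [commutator_def, Subgroup.commutator_le]
    intro p _ q _
    rw [MonoidHom.mem_ker, map_commutatorElement, commutatorElement_eq_one_iff_mul_comm]
    exact mul_comm' _ _
  rw [isPerfect_of_stem hσ hperf] at hle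
  rw [Subgroup.mem_center_iff]
  intro h
  have := congrArg Subtype.val (MonoidHom.mem_ker.1 (hle (Subgroup.mem_top h)))
  exact (commutatorElement_eq_one_iff_mul_comm.1 this).symm

theorem not_three_dvd_card_ker [Finite D] (hσ : Cfsg.IsStemExtension σ) (hperf : commutator D = ⊤)
    {a b g c x y w : D} (d : Data a b g c x y w) (hindex : ¬ 3 ∣ (Subgroup.closure {a, b}).index) :
    ¬ 3 ∣ Nat.card σ.ker := by
  obtain ⟨A, hA⟩ := hσ.1 a
  obtain ⟨B, hB⟩ := hσ.1 b
  obtain ⟨G, hG⟩ := hσ.1 g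
  set C := ⁅A, B⁆ with hCdef
  set X := ⁅A, C⁆ with hXdef
  set Y := ⁅B, C⁆ with hYdef
  set W := ⁅A, X⁆ with hWdef
  set V := ⁅B, X⁆ with hVdef
  set V' := ⁅A, Y⁆ with hV'def
  set U := ⁅B, Y⁆ with hUdef
  have hC : σ C = c := by rw [hCdef, map_commutatorElement, hA, hB, d.hc]
  have hX : σ X = x := by rw [hXdef, map_commutatorElement, hA, hC, d.hx]
  have hY : σ Y = y := by rw [hYdef, map_commutatorElement, hB, hC, d.hy]
  have hW : σ W = w := by rw [hWdef, map_commutatorElement, hA, hX, d.hw]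
  have hU : σ U = w := by rw [hUdef, map_commutatorElement, hB, hY, d.hu]
  have cen : ∀ {z : Γ}, z ∈ σ.ker → ∀ h : Γ, h * z = z * h := fun hz h => ker_comm hσ.2.1 hz h
  have kV : V ∈ σ.ker := comm_mem_ker (by rw [hB, hX]; exact d.bx)
  have kV' : V' ∈ σ.ker := comm_mem_ker (by rw [hA, hY]; exact d.ay)
  have zW : ∀ h : Γ, h * W = W * h :=
    Subgroup.mem_center_iff.1 (mem_center_of_map_mem_center hσ hperf (by rw [hW]; exact d.central))
  have zU : ∀ h : Γ, h * U = U * h :=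
    Subgroup.mem_center_iff.1 (mem_center_of_map_mem_center hσ hperf (by rw [hU]; exact d.central))
  have zV := cen kV
  have zV' := cen kV'
  -- the two conjugations
  let cA := MulAut.conj A
  let cB := MulAut.conj B
  have cAap : ∀ h, cA h = A * h * A⁻¹ := fun h => rfl
  have cBap : ∀ h, cB h = B * h * B⁻¹ := fun h => rfl
  have hcomm : ∀ p q : Γ, p * q * p⁻¹ = ⁅p, q⁆ * q := fun p q => by
    rw [commutatorElement_def]; group
  have AC : cA C = X * C := hcomm A C
  have BC : cB C = Y * C := hcomm B C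
  have AX : cA X = W * X := hcomm A X
  have BX : cB X = V * X := hcomm B X
  have AY : cA Y = V' * Y := hcomm A Y
  have BY : cB Y = U * Y := hcomm B Y
  have fixK : ∀ (φ : Γ ≃* Γ) (h : Γ), φ = MulAut.conj h → ∀ z, (∀ u : Γ, u * z = z * u) → φ z = z := by
    rintro _ h rfl z hz
    show h * z * h⁻¹ = z
    rw [hz h, mul_inv_cancel_right]
  -- commutators of central twists
  have twist : ∀ (z p q : Γ), (∀ u : Γ, u * z = z * u) → ⁅z * p, q⁆ = ⁅p, q⁆ := by
    intro z p q hz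
    simp only [commutatorElement_def, _root_.mul_inv_rev]
    calc z * p * q * (p⁻¹ * z⁻¹) * q⁻¹ = (z * (p * q * p⁻¹)) * z⁻¹ * q⁻¹ := by group
      _ = _ := by rw [← hz (p * q * p⁻¹), mul_inv_cancel_right]
  have twist' : ∀ (z p q : Γ), (∀ u : Γ, u * z = z * u) → ⁅q, z * p⁆ = ⁅q, p⁆ := by
    intro z p q hz
    rw [← commutatorElement_inv, twist z p q hz, commutatorElement_inv]
  -- the three commutators among C, X, Y
  have kf1 : ⁅C, X⁆ ∈ σ.ker := comm_mem_ker (by rw [hC, hX]; exact d.cx)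
  have kf2 : ⁅C, Y⁆ ∈ σ.ker := comm_mem_ker (by rw [hC, hY]; exact d.cy)
  have kf3 : ⁅X, Y⁆ ∈ σ.ker := comm_mem_ker (by rw [hX, hY]; exact d.xy)
  have cXY : Commute X Y := by
    have h := fixK cA A rfl _ (cen kf2)
    rw [map_commutatorElement, AC, AY, twist' _ _ _ zV',
      comm_mul_left hσ.2.1 (show Commute (σ C) (σ Y) by rw [hC, hY]; exact d.cy)] at h
    exact commutatorElement_eq_one_iff_mul_comm.1 (mul_eq_right.1 h)
  -- the action of `g`
  let cG := MulAut.conj G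
  have GAB : cG C = W * (X⁻¹ * C) := by
    have h1 : σ (cG A) = σ B := by
      show σ (G * A * G⁻¹) = σ B
      rw [map_mul, map_mul, map_inv, hG, hA, hB, d.ga, mul_inv_cancel_right]
    have h2 : σ (cG B) = σ A⁻¹ := by
      show σ (G * B * G⁻¹) = σ A⁻¹
      rw [map_mul, map_mul, map_inv, map_inv, hG, hA, hB]
      calc g * b * g⁻¹ = a⁻¹ * (a * (g * b)) * g⁻¹ := by group
        _ = a⁻¹ := by rw [d.gb, mul_inv_cancel_right]
    rw [hCdef, map_commutatorElement, comm_eq_of_map_eq hσ.2.1 h1 h2, ← hCdef]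
    have hX' : A⁻¹ * X * A = W⁻¹ * X := by
      have : A⁻¹ * (cA X) * A = X := by rw [cAap]; group
      rw [AX, ← mul_assoc, zW A⁻¹] at this
      calc A⁻¹ * X * A = W⁻¹ * (W * A⁻¹ * X * A) := by group
        _ = W⁻¹ * X := by rw [this]
    have hC' : (A⁻¹ * X * A) * (A⁻¹ * C * A) = C := by
      calc (A⁻¹ * X * A) * (A⁻¹ * C * A) = A⁻¹ * (X * C) * A := by group
        _ = A⁻¹ * cA C * A := by rw [AC]
        _ = C := by rw [cAap]; group
    calc ⁅B, A⁻¹⁆ = A⁻¹ * C * A := by rw [hCdef, commutatorElement_def, commutatorElement_def]; group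
      _ = (A⁻¹ * X * A)⁻¹ * ((A⁻¹ * X * A) * (A⁻¹ * C * A)) := by group
      _ = X⁻¹ * W * C := by rw [hC', hX']; group
      _ = W * (X⁻¹ * C) := by rw [zW X⁻¹, mul_assoc]
  have hX' : A⁻¹ * X * A = W⁻¹ * X := by
    have : A⁻¹ * (cA X) * A = X := by rw [cAap]; group
    rw [AX, ← mul_assoc, zW A⁻¹] at this
    calc A⁻¹ * X * A = W⁻¹ * (W * A⁻¹ * X * A) := by group
      _ = W⁻¹ * X := by rw [this]
  have hC' : A⁻¹ * C * A = W * (X⁻¹ * C) := by
    calc A⁻¹ * C * A = (A⁻¹ * X * A)⁻¹ * (A⁻¹ * (X * C) * A) := by group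
      _ = (W⁻¹ * X)⁻¹ * (A⁻¹ * cA C * A) := by rw [hX', AC]
      _ = X⁻¹ * W * C := by rw [cAap]; group
      _ = W * (X⁻¹ * C) := by rw [zW X⁻¹, mul_assoc]
  have GA : σ (cG A) = σ B := by
    show σ (G * A * G⁻¹) = σ B
    rw [map_mul, map_mul, map_inv, hG, hA, hB, d.ga, mul_inv_cancel_right]
  have GB : σ (cG B) = σ A⁻¹ := by
    show σ (G * B * G⁻¹) = σ A⁻¹
    rw [map_mul, map_mul, map_inv, map_inv, hG, hA, hB]
    calc g * b * g⁻¹ = a⁻¹ * (a * (g * b)) * g⁻¹ := by group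
      _ = a⁻¹ := by rw [d.gb, mul_inv_cancel_right]
  have GX : cG X = V⁻¹ * Y := by
    rw [hXdef, map_commutatorElement, GAB, comm_eq_of_map_eq hσ.2.1 GA rfl, twist' _ _ _ zW]
    calc ⁅B, X⁻¹ * C⁆ = (cB X)⁻¹ * cB C * C⁻¹ * X := by
          rw [commutatorElement_def, cBap, cBap]; group
      _ = X⁻¹ * (V⁻¹ * Y) * X := by rw [BX, BC]; group
      _ = V⁻¹ * (X⁻¹ * Y * X) := by
          rw [← mul_assoc X⁻¹, show X⁻¹ * V⁻¹ = V⁻¹ * X⁻¹ from
            (Commute.inv_right (zV X⁻¹)).eq]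
          group
      _ = V⁻¹ * Y := by rw [mul_assoc X⁻¹ Y X, ← cXY.eq]; group
  have GY : cG Y = W * W * X⁻¹ := by
    rw [hYdef, map_commutatorElement, GAB, comm_eq_of_map_eq hσ.2.1 GB rfl, twist' _ _ _ zW]
    calc ⁅A⁻¹, X⁻¹ * C⁆ = (A⁻¹ * X * A)⁻¹ * (A⁻¹ * C * A) * C⁻¹ * X := by
          rw [commutatorElement_def]; group
      _ = X⁻¹ * W * W := by rw [hX', hC']; group
      _ = W * W * X⁻¹ := by rw [zW X⁻¹, mul_assoc, zW X⁻¹, ← mul_assoc]
  have cCX : Commute C X ∧ Commute C Y := by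
    have e1 := fixK cG G rfl _ (cen kf1)
    rw [map_commutatorElement, GAB, GX, twist _ _ _ zW,
      twist' _ _ _ (fun u => (Commute.inv_right (zV u)).eq),
      comm_mul_left hσ.2.1 (show Commute (σ C) (σ Y) by rw [hC, hY]; exact d.cy),
      commutatorElement_eq_one_iff_mul_comm.2 (cXY.inv_left).eq, one_mul] at e1
    have e2 := fixK cG G rfl _ (cen kf2)
    rw [map_commutatorElement, GAB, GY, twist _ _ _ zW,
      twist' (W * W) _ _ (fun u => (Commute.mul_right (zW u) (zW u)).eq),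
      comm_mul_left hσ.2.1 (show Commute (σ C) (σ X⁻¹) by rw [hC, map_inv, hX]; exact d.cx.inv_right),
      commutatorElement_eq_one_iff_mul_comm.2 (Commute.refl X⁻¹).eq, one_mul] at e2
    -- `e1 : ⁅C, Y⁆ = ⁅C, X⁆` and `e2 : ⁅C, X⁻¹⁆ = ⁅C, Y⁆`
    have hsq : ⁅C, X⁆ * ⁅C, X⁆ = 1 := by
      have h : ⁅C, X * X⁻¹⁆ = ⁅C, X⁆ * ⁅C, X⁻¹⁆ :=
        comm_mul_right hσ.2.1 (show Commute (σ C) (σ X⁻¹) by rw [hC, map_inv, hX]; exact d.cx.inv_right)
      rw [mul_inv_cancel, commutatorElement_eq_one_iff_mul_comm.2 (Commute.one_right C).eq, e2, e1] at h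
      exact h.symm
    have hcu : ⁅C, X⁆ ^ 3 = 1 := by
      rw [← comm_pow_left hσ.2.1 (show Commute (σ C) (σ X) by rw [hC, hX]; exact d.cx),
        commutatorElement_eq_one_iff_mul_comm]
      exact (cen (show C ^ 3 ∈ σ.ker by rw [MonoidHom.mem_ker, map_pow, hC, d.c3]) X).symm
    have h1 : ⁅C, X⁆ = 1 := by
      rw [show (3 : ℕ) = 2 + 1 from rfl, pow_succ, pow_two, hsq, one_mul] at hcu
      exact hcu
    exact ⟨commutatorElement_eq_one_iff_mul_comm.1 h1,
      commutatorElement_eq_one_iff_mul_comm.1 (e1.trans h1)⟩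
  obtain ⟨cCX, cCY⟩ := cCX
  have eqU : U = W := by
    have e := fixK cG G rfl _ zW
    rw [hWdef, map_commutatorElement, GX, comm_eq_of_map_eq hσ.2.1 GA rfl,
      twist' _ _ _ (fun u => (Commute.inv_right (zV u)).eq)] at e
    exact e
  have eqV : V = V' := by
    have h1 : A * B * C * B⁻¹ * A⁻¹ = V' * (Y * X * C) := by
      calc A * B * C * B⁻¹ * A⁻¹ = cA (cB C) := by rw [cAap, cBap]; group
        _ = cA Y * cA C := by rw [BC, map_mul]
        _ = _ := by rw [AY, AC]; group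
    have h2 : A * B * C * B⁻¹ * A⁻¹ = V * (Y * X * C) := by
      calc A * B * C * B⁻¹ * A⁻¹ = C * cB (cA C) * C⁻¹ := by
            rw [cAap, cBap, hCdef, commutatorElement_def]; group
        _ = C * (cB X * cB C) * C⁻¹ := by rw [AC, map_mul]
        _ = (C * V) * (X * Y) := by rw [BX, BC]; group
        _ = V * (C * (X * Y)) := by rw [zV C, mul_assoc]
        _ = _ := by rw [(cCX.mul_right cCY).eq, cXY.eq]
    exact mul_right_cancel (h2.symm.trans h1)
  -- cubes
  have cube : ∀ {p q : Γ}, Commute p q → (p * q) ^ 3 = q ^ 3 → p ^ 3 = 1 := fun hpq h => by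
    rw [hpq.mul_pow] at h; exact mul_eq_right.1 h
  have X3 : X ^ 3 = 1 := cube cCX.symm (by
    rw [← AC, ← map_pow]
    exact fixK cA A rfl _ (cen (show C ^ 3 ∈ σ.ker by rw [MonoidHom.mem_ker, map_pow, hC, d.c3])))
  have Y3 : Y ^ 3 = 1 := cube cCY.symm (by
    rw [← BC, ← map_pow]
    exact fixK cB B rfl _ (cen (show C ^ 3 ∈ σ.ker by rw [MonoidHom.mem_ker, map_pow, hC, d.c3])))
  have W3 : W ^ 3 = 1 := cube (zW X).symm (by rw [← AX, ← map_pow, X3, map_one])
  have V3 : V ^ 3 = 1 := cube (zV X).symm (by rw [← BX, ← map_pow, X3, map_one])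
  have V1 : V = 1 := by
    have e := fixK cG G rfl _ zV
    rw [hVdef, map_commutatorElement, GX, comm_eq_of_map_eq hσ.2.1 GB rfl,
      twist' _ _ _ (fun u => (Commute.inv_right (zV u)).eq)] at e
    have hAY : A⁻¹ * Y * A = V'⁻¹ * Y := by
      calc A⁻¹ * Y * A = V'⁻¹ * (V' * A⁻¹) * Y * A := by group
        _ = V'⁻¹ * (A⁻¹ * V') * Y * A := by rw [zV' A⁻¹]
        _ = V'⁻¹ * (A⁻¹ * cA Y * A) := by rw [AY]; group
        _ = _ := by rw [cAap]; group
    have h : ⁅A⁻¹, Y⁆ = V⁻¹ := by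
      rw [commutatorElement_def, inv_inv, hAY, eqV]; group
    rw [h] at e
    rw [show (3 : ℕ) = 2 + 1 from rfl, pow_succ, pow_two] at V3
    calc V = (V⁻¹ * V) * V := by group
      _ = (V * V) * V := by rw [← hVdef] at e; rw [e]
      _ = 1 := V3
  have C3 : C ^ 3 = 1 := by
    have hk : C ^ 3 ∈ σ.ker := by rw [MonoidHom.mem_ker, map_pow, hC, d.c3]
    have h1 : cA (cA (cA B)) = W * C ^ 3 * B := by
      have hAB : cA B = C * B := hcomm A B
      simp only [hAB, map_mul, AC, AX]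
      calc W * X * (X * C) * (X * C * (C * B)) = W * (X * X * (C * X)) * C * C * B := by group
        _ = W * (X * X * (X * C)) * C * C * B := by rw [cCX.eq]
        _ = W * (X ^ 3) * C ^ 3 * B := by simp only [pow_succ, pow_zero, one_mul, mul_assoc]
        _ = _ := by rw [X3, mul_one]
    have h2 : cA (cA (cA B)) = ⁅A ^ 3, B⁆ * B := by
      rw [cAap, cAap, cAap, commutatorElement_def, pow_succ, pow_two]; group
    have h3 : ⁅A ^ 3, B⁆ = ⁅Y ^ 2, B⁆ := by
      rw [comm_eq_of_map_eq hσ.2.1 (a' := W * Y ^ 2) (b' := B) (by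
        rw [map_pow, map_mul, map_pow, hA, hW, hY, d.a3,
          (Subgroup.mem_center_iff.1 d.central (y ^ 2))]) rfl, twist _ _ _ zW]
    have h4 : ⁅Y ^ 2, B⁆ = W⁻¹ * W⁻¹ := by
      calc ⁅Y ^ 2, B⁆ = Y * Y * (cB Y)⁻¹ * (cB Y)⁻¹ := by
            rw [commutatorElement_def, cBap, pow_two]; group
        _ = Y * ((W⁻¹) * Y⁻¹) * W⁻¹ := by rw [BY, eqU]; group
        _ = W⁻¹ * W⁻¹ := by
            rw [← mul_assoc, show Y * W⁻¹ = W⁻¹ * Y from (Commute.inv_right (zW Y)).eq]; group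
    have h5 : W * C ^ 3 = W⁻¹ * W⁻¹ := mul_right_cancel (by rw [← h1, h2, h3, h4])
    calc C ^ 3 = W⁻¹ * (W * C ^ 3) := by group
      _ = (W ^ 3)⁻¹ := by rw [h5]; group
      _ = 1 := by rw [W3, inv_one]
  -- the group generated by C, X, Y, W
  have hP : ∀ i j k l i' j' k' l' : ℕ,
      (C ^ i * X ^ j * Y ^ k * W ^ l) * (C ^ i' * X ^ j' * Y ^ k' * W ^ l') =
        C ^ (i + i') * X ^ (j + j') * Y ^ (k + k') * W ^ (l + l') := by
    intro i j k l i' j' k' l'
    have cWC : Commute W C := (zW C).symm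
    have cWX : Commute W X := (zW X).symm
    have cWY : Commute W Y := (zW Y).symm
    rw [((((cWC.pow_pow l i').mul_right (cWX.pow_pow l j')).mul_right (cWY.pow_pow l k'))).left_comm _ |> fun h =>
      show C ^ i * X ^ j * Y ^ k * W ^ l * (C ^ i' * X ^ j' * Y ^ k' * W ^ l') =
        C ^ i * X ^ j * Y ^ k * (C ^ i' * X ^ j' * Y ^ k') * (W ^ l * W ^ l') from by
          rw [mul_assoc (C ^ i * X ^ j * Y ^ k), h]; simp only [mul_assoc]]
    rw [((cCY.symm.pow_pow k i').mul_right (cXY.symm.pow_pow k j')).left_comm _ |> fun h =>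
      show C ^ i * X ^ j * Y ^ k * (C ^ i' * X ^ j' * Y ^ k') =
        C ^ i * X ^ j * (C ^ i' * X ^ j') * (Y ^ k * Y ^ k') from by
          rw [mul_assoc (C ^ i * X ^ j), h]; simp only [mul_assoc]]
    rw [(cCX.symm.pow_pow j i').left_comm _ |> fun h =>
      show C ^ i * X ^ j * (C ^ i' * X ^ j') = C ^ i * C ^ i' * (X ^ j * X ^ j') from by
          rw [mul_assoc (C ^ i), h]; simp only [mul_assoc]]
    simp only [pow_add]
  have hform : ∀ z ∈ Subgroup.closure ({C, X, Y, W} : Set Γ),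
      ∃ i j k l : ℕ, z = C ^ i * X ^ j * Y ^ k * W ^ l := by
    intro z hz
    induction hz using Subgroup.closure_induction with
    | mem u hu =>
      rcases hu with rfl | rfl | rfl | rfl
      · exact ⟨1, 0, 0, 0, by simp⟩
      · exact ⟨0, 1, 0, 0, by simp⟩
      · exact ⟨0, 0, 1, 0, by simp⟩
      · exact ⟨0, 0, 0, 1, by simp⟩
    | one => exact ⟨0, 0, 0, 0, by simp⟩
    | mul p q _ _ hp hq =>
      obtain ⟨i, j, k, l, rfl⟩ := hp
      obtain ⟨i', j', k', l', rfl⟩ := hq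
      exact ⟨_, _, _, _, hP i j k l i' j' k' l'⟩
    | inv p _ hp =>
      obtain ⟨i, j, k, l, rfl⟩ := hp
      refine ⟨i * 2, j * 2, k * 2, l * 2, inv_eq_of_mul_eq_one_right ?_⟩
      rw [hP, show i + i * 2 = 3 * i by ring, show j + j * 2 = 3 * j by ring, show k + k * 2 = 3 * k by ring,
        show l + l * 2 = 3 * l by ring, pow_mul, pow_mul, pow_mul, pow_mul, C3, X3, Y3, W3]
      simp
  have himg : ({a, b} : Set D) = σ '' {A, B} := by rw [Set.image_pair, hA, hB]
  refine not_dvd_card_ker_of_local hσ Nat.prime_three _ hindex fun z hz hzk => ?_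
  rw [himg] at hz
  have hle := commutator_comap_closure_le hσ.2.1 {A, B} (Subgroup.closure ({C, X, Y, W} : Set Γ)) ?_ ?_ hz
  · obtain ⟨i, j, k, l, rfl⟩ := hform z hle
    rw [MonoidHom.mem_ker, map_mul, map_mul, map_mul, map_pow, map_pow, map_pow, map_pow, hC, hX, hY, hW] at hzk
    have m : ∀ {u : D}, u ^ 3 = 1 → ∀ n : ℕ, u ^ n = u ^ (n % 3) := fun h n => pow_eq_pow_mod n h
    rw [m d.c3 i, m (by rw [← hX, ← map_pow, X3, map_one]) j, m (by rw [← hY, ← map_pow, Y3, map_one]) k,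
      m (by rw [← hW, ← map_pow, W3, map_one]) l] at hzk
    obtain ⟨e1, e2, e3, e4⟩ := d.indep ⟨i % 3, Nat.mod_lt _ (by norm_num)⟩ ⟨j % 3, Nat.mod_lt _ (by norm_num)⟩
      ⟨k % 3, Nat.mod_lt _ (by norm_num)⟩ ⟨l % 3, Nat.mod_lt _ (by norm_num)⟩ hzk
    rw [pow_eq_pow_mod i C3, pow_eq_pow_mod j X3, pow_eq_pow_mod k Y3, pow_eq_pow_mod l W3,
      show i % 3 = 0 from congrArg Fin.val e1, show j % 3 = 0 from congrArg Fin.val e2,
      show k % 3 = 0 from congrArg Fin.val e3, show l % 3 = 0 from congrArg Fin.val e4]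
    simp
  · intro s hs
    set N := Subgroup.closure ({C, X, Y, W} : Set Γ) with hN
    have mC : C ∈ N := Subgroup.subset_closure (by simp)
    have mX : X ∈ N := Subgroup.subset_closure (by simp)
    have mY : Y ∈ N := Subgroup.subset_closure (by simp)
    have mW : W ∈ N := Subgroup.subset_closure (by simp)
    have hmap : N.map (MulAut.conj s).toMonoidHom ≤ N := by
      rw [hN, MonoidHom.map_closure, Subgroup.closure_le, ← hN]
      rintro _ ⟨u, hu, rfl⟩
      show MulAut.conj s u ∈ N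
      have hs' : s = A ∨ s = B := hs
      have hu' : u = C ∨ u = X ∨ u = Y ∨ u = W := hu
      rcases hs' with e | e <;> rw [e] <;> rcases hu' with e' | e' | e' | e' <;> rw [e']
      · show cA C ∈ N; rw [AC]; exact mul_mem mX mC
      · show cA X ∈ N; rw [AX]; exact mul_mem mW mX
      · show cA Y ∈ N; rw [AY, ← eqV, V1, one_mul]; exact mY
      · show cA W ∈ N; rw [fixK cA A rfl _ zW]; exact mW
      · show cB C ∈ N; rw [BC]; exact mul_mem mY mC
      · show cB X ∈ N; rw [BX, V1, one_mul]; exact mX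
      · show cB Y ∈ N; rw [BY, eqU]; exact mul_mem mW mY
      · show cB W ∈ N; rw [fixK cB B rfl _ zW]; exact mW
    have heq : N.map (MulAut.conj s).toMonoidHom = N :=
      Subgroup.eq_of_le_of_card_ge hmap
        (Subgroup.card_map_of_injective (MulAut.conj s).injective).ge
    rw [Subgroup.mem_normalizer_iff]
    intro h
    constructor
    · intro hh
      exact hmap ⟨h, hh, rfl⟩
    · intro hh
      have hh' : MulAut.conj s h ∈ N := hh
      rw [← heq] at hh'
      obtain ⟨u, hu, e⟩ := hh'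
      exact (MulAut.conj s).injective e ▸ hu
  · rintro s (rfl | rfl) t (rfl | rfl)
    · simp
    · exact Subgroup.subset_closure (by simp [hCdef])
    · rw [← commutatorElement_inv]
      exact inv_mem (Subgroup.subset_closure (by simp [hCdef]))
    · simp

end CfsgLib.SchurMult.J3Three
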