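import Cfsg.Agent.Lib.SchurMult.CentralComm
import Cfsg.Agent.Lib.SchurMult.Criterion
import Cfsg.Agent.Lib.SchurMult.SmallSylow

/-!
A subgroup of order the square of a prime: the derived group of its preimage in a central extension is cyclic
of order dividing the prime.
-/

set_option autoImplicit false

namespace CfsgLib.SchurMult

open scoped commutatorElement

universe u v

variable {G : Type v} [Group G] [Finite G] {Γ : Type u} [Group Γ] [Finite Γ] {σ : Γ →* G}

/-- The derived group of the preimage of a group of prime square order, inside the kernel. -/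
theorem exists_comm_gen_of_square (hc : σ.ker ≤ Subgroup.center Γ) (hs : Function.Surjective σ) {p : ℕ} [hp : Fact p.Prime]
    (Q : Subgroup (G)) (hQ : Nat.card Q = p ^ 2) :
    ∃ c ∈ σ.ker, c ^ p = 1 ∧ ⁅Q.comap σ, Q.comap σ⁆ ≤ Subgroup.zpowers c := by
  classical
  have hcomm : ∀ a ∈ Q, ∀ b ∈ Q, Commute a b := fun a ha b hb =>
    congrArg Subtype.val ((IsPGroup.isMulCommutative_of_card_eq_prime_sq hQ).is_comm.comm
      (⟨a, ha⟩ : Q) ⟨b, hb⟩)
  obtain ⟨x, hxQ, y, hyQ, hxy, hgen⟩ : ∃ x ∈ Q, ∃ y ∈ Q, (x ^ p = 1 ∨ y = 1) ∧ Q = Subgroup.closure {x, y} := by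
    by_cases hcyc : ∃ g ∈ Q, Subgroup.zpowers g = Q
    · obtain ⟨g, hg, he⟩ := hcyc
      refine ⟨g, hg, 1, one_mem _, Or.inr rfl, le_antisymm ?_ ?_⟩
      · rw [← he, Subgroup.zpowers_le]; exact Subgroup.subset_closure (by simp)
      · rw [Subgroup.closure_le]; rintro _ (rfl | rfl); exacts [hg, one_mem _]
    · push Not at hcyc
      obtain ⟨x, hx, hx1⟩ : ∃ x ∈ Q, x ≠ 1 := by
        by_contra! h
        exact hcyc 1 (one_mem _) (le_antisymm ((Subgroup.zpowers_le).2 (one_mem _))
          (fun z hz => by rw [h z hz]; exact one_mem _))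
      have hox : orderOf x = p := by
        have hd : orderOf x ∣ p ^ 2 := hQ ▸ Subgroup.orderOf_dvd_natCard Q hx
        obtain ⟨k, hk, he⟩ := (Nat.dvd_prime_pow hp.out).1 hd
        interval_cases k
        · exact absurd (orderOf_eq_one_iff.1 (by simpa using he)) hx1
        · simpa using he
        · refine absurd (Subgroup.eq_of_le_of_card_ge ((Subgroup.zpowers_le).2 hx) ?_) (hcyc x hx)
          rw [hQ, Nat.card_zpowers, he]
      obtain ⟨y, hy, hyx⟩ : ∃ y ∈ Q, y ∉ Subgroup.zpowers x := by
        by_contra! h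
        exact hcyc x hx (le_antisymm ((Subgroup.zpowers_le).2 hx) h)
      have hle : Subgroup.closure {x, y} ≤ Q := by
        rw [Subgroup.closure_le]; rintro _ (rfl | rfl); exacts [hx, hy]
      refine ⟨x, hx, y, hy, Or.inl (hox ▸ pow_orderOf_eq_one x), (Subgroup.eq_of_le_of_card_ge hle ?_).symm⟩
      have hlt : Subgroup.zpowers x < Subgroup.closure {x, y} :=
        lt_of_le_of_ne ((Subgroup.zpowers_le).2 (Subgroup.subset_closure (by simp))) fun e =>
          hyx (e ▸ Subgroup.subset_closure (by simp))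
      obtain ⟨k, hk, he⟩ := (Nat.dvd_prime_pow hp.out).1 (hQ ▸ Subgroup.card_dvd_of_le hle)
      have h1 : p < p ^ k := by
        rw [← he, ← hox, ← Nat.card_zpowers]
        exact lt_of_le_of_ne (Subgroup.card_le_of_le hlt.le) fun e =>
          hlt.ne (Subgroup.eq_of_le_of_card_ge hlt.le e.ge)
      interval_cases k
      · simp at h1; have := hp.out.two_le; omega
      · simp at h1
      · rw [hQ, he]
  obtain ⟨X, hX⟩ := hs x
  obtain ⟨Y, hY⟩ := hs y
  have hXY : Commute (σ X) (σ Y) := by rw [hX, hY]; exact hcomm x hxQ y hyQ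
  refine ⟨⁅X, Y⁆, comm_mem_ker hXY, ?_, ?_⟩
  · rcases hxy with h | h
    · rw [← comm_pow_left hc hXY, comm_eq_of_map_eq hc (a' := 1) (b' := Y) (by rw [map_pow, hX, h, map_one]) rfl,
        commutatorElement_one_left]
    · rw [comm_eq_of_map_eq hc (a' := X) (b' := 1) rfl (by rw [hY, h, map_one]), commutatorElement_one_right,
        one_pow]
  · have e : Q = Subgroup.closure (σ '' {X, Y}) := by rw [hgen, Set.image_pair, hX, hY]
    rw [e]
    refine commutator_comap_closure_le hc _ _ (fun s _ => ?_) ?_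
    · rw [Subgroup.mem_normalizer_iff]
      intro z
      constructor
      · intro hz
        have hzk : z ∈ σ.ker := (Subgroup.zpowers_le).2 (comm_mem_ker hXY) hz
        rwa [ker_comm hc hzk s, mul_inv_cancel_right]
      · intro hz
        have hzk : s * z * s⁻¹ ∈ σ.ker := (Subgroup.zpowers_le).2 (comm_mem_ker hXY) hz
        have e : z = s⁻¹ * (s * z * s⁻¹) * s := by group
        rw [e, mul_assoc, ← ker_comm hc hzk s, inv_mul_cancel_left]
        exact hz
    · rintro a (rfl | rfl) b (rfl | rfl)
      · rw [commutatorElement_self]; exact one_mem _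
      · exact Subgroup.mem_zpowers _
      · rw [← commutatorElement_inv b a]; exact inv_mem (Subgroup.mem_zpowers _)
      · rw [commutatorElement_self]; exact one_mem _

end CfsgLib.SchurMult
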