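import Cfsg.Agent.Lib.SchurMult.TwoCollect

/-!
A certified collector for central extensions of a `2`-group whose kernel has exponent dividing `128`:
tails are vectors over `ℤ/128`, packed in fields of eight bits. A certificate shows that the kernel
elements of the derived group of the preimage are powers of one element of bounded order.
-/

set_option autoImplicit false

namespace CfsgLib.SchurMult.ModCollect

open scoped commutatorElement

/-- The mask keeping seven bits in each of `n` fields. -/
def fieldMask : ℕ → ℕ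
  | 0 => 0
  | n + 1 => 127 + 256 * fieldMask n

/-- The sum of vectors of `n` fields. -/
def vadd (n a b : ℕ) : ℕ := (a + b) &&& fieldMask n

/-- Multiplication by the low `k` bits of a number. -/
def vsmul (n : ℕ) : ℕ → ℕ → ℕ → ℕ
  | 0, _, _ => 0
  | k + 1, c, a => bif c % 2 == 1 then vadd n a (vsmul n k (c / 2) (vadd n a a)) else vsmul n k (c / 2) (vadd n a a)

/-- The negative of a vector. -/
def vneg (n a : ℕ) : ℕ := vsmul n 7 127 a

/-- A vector with one coordinate equal to one. -/
def vunit (i : ℕ) : ℕ := 256 ^ i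

/-- The selected coordinates vanish outside the good ones. -/
def suppOK : ℕ → List Bool → ℕ → Bool
  | 0, _, _ => true
  | n + 1, g, a => (g.headD false || a % 256 == 0) && suppOK n g.tail (a / 256)

/-- An equation between tails. -/
inductive ModEq' where
  /-- associativity: a relation after a prefix -/
  | assoc (pre : List ℕ) (v : ℕ)
  /-- the product of two listed conjugations is a third -/
  | conj (p q r : ℕ)

/-- Certificate data. -/
structure Cert where
  /-- number of generators -/
  n : ℕ
  /-- the generators from this one on generate the derived group -/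
  lead : ℕ
  /-- relations `lhs = rhs` as words -/
  rels : List (List ℕ × List ℕ)
  /-- `table[i].get x = r + 2 ^ n * vector` for `x · g i = r · tails` -/
  table : List Trie
  /-- conjugations: element number, argument, value -/
  conjs : List (ℕ × ℕ × ℕ)
  /-- the equations -/
  eqs : List ModEq'
  /-- the change of each lift -/
  gauge : List ℕ
  /-- the generating kernel element -/
  gen : ℕ
  /-- its order bound -/
  bound : ℕ
  /-- the exponent of the generator for each relation -/
  expo : List ℕ
  /-- the equations combining to each changed relation -/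
  comb : List (List (ℕ × ℕ))
  /-- the equations combining to the multiple of the generator -/
  genComb : List (ℕ × ℕ)

namespace Cert

variable (c : Cert)

/-- The number of unknowns. -/
def nv : ℕ := c.rels.length + c.conjs.length

/-- Table lookup. -/
def step (x i : ℕ) : ℕ × ℕ :=
  let v := (c.table.getD i (.leaf 0)).get x
  (v % 2 ^ c.n, v / 2 ^ c.n)

/-- Collect a word onto a normal form. -/
def run : ℕ → List ℕ → ℕ × ℕ
  | x, [] => (x, 0)
  | x, i :: w => ((run (c.step x i).1 w).1, vadd c.nv (c.step x i).2 (run (c.step x i).1 w).2)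

/-- The number of a relation with given left side. -/
def relIdx (w : List ℕ) : ℕ := c.rels.findIdx fun r => r.1 == w

/-- The table entry for `(x, i)` follows from earlier ones. -/
def entryOK (i x : ℕ) : Bool :=
  decide ((c.step x i).1 < 2 ^ c.n) &&
  bif x < 2 ^ i then (c.step x i).1 == x ||| 2 ^ i && (c.step x i).2 == 0
  else
    let j := Collector.topBit c.n x
    let y := x ^^^ 2 ^ j
    let v := c.relIdx [j, i]
    x.testBit j && (List.range c.n).all (fun k => decide (k ≤ j) || !x.testBit k) &&
      decide (y < x) && decide (j < c.n) &&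
      decide (v < c.rels.length) && (c.rels.getD v ([], [])).1 == [j, i] &&
      (match (c.rels.getD v ([], [])).2 with
        | [] => true
        | h :: w => decide (i ≤ h) && decide (h < c.n) && w.all fun k => decide (i < k) && decide (k < c.n)) &&
      c.step x i == ((c.run y (c.rels.getD v ([], [])).2).1,
        vadd c.nv (c.run y (c.rels.getD v ([], [])).2).2 (vunit v))

/-- The whole table is correct. -/
def tableOK : Bool := (List.range c.n).all fun i => (List.range (2 ^ c.n)).all (c.entryOK i)

/-- The product of two normal forms. -/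
def mulNF (x y : ℕ) : ℕ × ℕ := c.run x (Collector.digits c.n y)

/-- An equation is well formed. -/
def eqOK : ModEq' → Bool
  | .assoc pre v =>
    decide (v < c.rels.length) && pre.all (fun i => decide (i < c.n)) &&
      (c.run 0 (pre ++ (c.rels.getD v ([], [])).1)).1 == (c.run 0 (pre ++ (c.rels.getD v ([], [])).2)).1
  | .conj p q r =>
    let P := c.conjs.getD p (0, 0, 0)
    let Q := c.conjs.getD q (0, 0, 0)
    let R := c.conjs.getD r (0, 0, 0)
    decide (p < c.conjs.length) && decide (q < c.conjs.length) && decide (r < c.conjs.length) &&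
      P.1 == Q.1 && P.1 == R.1 && (c.mulNF P.2.1 Q.2.1).1 == R.2.1 && (c.mulNF P.2.2 Q.2.2).1 == R.2.2 &&
      decide (P.2.1 < 2 ^ c.n) && decide (P.2.2 < 2 ^ c.n)

/-- The vector that vanishes by an equation. -/
def eqVec : ModEq' → ℕ
  | .assoc pre v =>
    vadd c.nv (c.run 0 (pre ++ (c.rels.getD v ([], [])).1)).2
      (vneg c.nv (vadd c.nv (c.run 0 (pre ++ (c.rels.getD v ([], [])).2)).2 (vunit v)))
  | .conj p q r =>
    let P := c.conjs.getD p (0, 0, 0)
    let Q := c.conjs.getD q (0, 0, 0)
    vadd c.nv (vadd c.nv (vunit (c.rels.length + p)) (vunit (c.rels.length + q)))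
      (vadd c.nv (c.mulNF P.2.2 Q.2.2).2
        (vneg c.nv (vadd c.nv (c.mulNF P.2.1 Q.2.1).2 (vunit (c.rels.length + r)))))

/-- A combination of equations. -/
def combVec : List (ℕ × ℕ) → ℕ
  | [] => 0
  | e :: es => vadd c.nv (vsmul c.nv 7 e.2 (c.eqVec (c.eqs.getD e.1 (.assoc [] 0)))) (combVec es)

/-- The change of a word. -/
def gaugeVec : List ℕ → ℕ
  | [] => 0
  | i :: w => vadd c.nv (c.gauge.getD i 0) (gaugeVec w)

/-- The relation only involves squares of the leading generators. -/
def free (v : ℕ) : Bool :=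
  match (c.rels.getD v ([], [])).1 with
  | [j, i] => j == i && decide (i < c.lead)
  | _ => false

/-- The changed tail of a relation. -/
def changed (v : ℕ) : ℕ :=
  vadd c.nv (vunit v) (vadd c.nv (c.gaugeVec (c.rels.getD v ([], [])).1)
    (vneg c.nv (c.gaugeVec (c.rels.getD v ([], [])).2)))

/-- The changed tails are multiples of the generator. -/
def solvedOK : Bool :=
  c.rels.all (fun r => r.1.all (fun i => decide (i < c.n)) && r.2.all fun i => decide (i < c.n)) &&
    c.eqs.all c.eqOK &&
    ((List.range c.n).all fun i => c.gauge.getD i 0 &&& fieldMask c.nv == c.gauge.getD i 0) &&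
    (c.comb.all fun l => l.all fun e => decide (e.1 < c.eqs.length) && decide (e.2 < 128)) &&
    (c.genComb.all fun e => decide (e.1 < c.eqs.length) && decide (e.2 < 128)) &&
    c.gen &&& fieldMask c.nv == c.gen &&
    vsmul c.nv 7 c.bound c.gen == c.combVec c.genComb && decide (c.bound < 128) &&
    (List.range c.rels.length).all fun v => c.free v ||
      decide (c.expo.getD v 0 < 128) &&
        vadd c.nv (c.changed v) (vneg c.nv (vsmul c.nv 7 (c.expo.getD v 0) c.gen)) ==
          c.combVec (c.comb.getD v [])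

/-- The coordinates of the relations that are not free. -/
def goodList : List Bool := (List.range c.rels.length).map fun v => !c.free v

/-- The last generators generate the derived group. -/
def derivedOK : Bool :=
  decide (c.lead ≤ c.n) &&
  ((List.range c.n).all fun i => decide (i < c.lead) ||
    (List.range (2 ^ c.n)).all fun x => !(x % 2 ^ c.lead == 0) ||
      ((c.step x i).1 % 2 ^ c.lead == 0 && suppOK c.nv c.goodList (c.step x i).2)) &&
  ((List.range c.n).all fun j => (List.range j).all fun i =>
    let v := c.relIdx [j, i]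
    decide (v < c.rels.length) && (c.rels.getD v ([], [])).1 == [j, i] && !c.free v &&
      match (c.rels.getD v ([], [])).2 with
      | [] => false
      | h :: w => h == i && bif decide (j < c.lead) then
          w.head? == some j && w.tail.all fun k => decide (c.lead ≤ k)
        else w.all fun k => decide (c.lead ≤ k))

end Cert

section Values

variable {M : Type*} [Group M]

/-- The value of a vector. -/
def val (f : ℕ → M) : ℕ → ℕ → M
  | 0, _ => 1
  | n + 1, a => f 0 ^ (a % 256) * val (fun i => f (i + 1)) n (a / 256)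

theorem val_zero (f : ℕ → M) : ∀ n, val f n 0 = 1
  | 0 => rfl
  | n + 1 => by rw [val, Nat.zero_mod, pow_zero, Nat.zero_div, val_zero _ n, one_mul]

theorem and_split (x m : ℕ) :
    (x &&& (127 + 256 * m)) % 256 = x % 256 % 128 ∧ (x &&& (127 + 256 * m)) / 256 = (x / 256) &&& m := by
  constructor
  · rw [show (256 : ℕ) = 2 ^ 8 from rfl, Nat.and_mod_two_pow]
    rw [show (127 + 2 ^ 8 * m) % 2 ^ 8 = 2 ^ 7 - 1 by norm_num, Nat.and_two_pow_sub_one_eq_mod]
  · rw [show (256 : ℕ) = 2 ^ 8 from rfl, Nat.and_div_two_pow]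
    congr 1
    norm_num; omega

theorem valid_iff (n a : ℕ) : a &&& fieldMask (n + 1) = a ↔
    a % 256 < 128 ∧ (a / 256) &&& fieldMask n = a / 256 := by
  rw [fieldMask]
  obtain ⟨h1, h2⟩ := and_split a (fieldMask n)
  constructor
  · intro h; rw [h] at h1 h2; exact ⟨by omega, h2.symm⟩
  · rintro ⟨ha, hb⟩; rw [hb] at h2; omega

theorem valid_vadd (n a b : ℕ) : vadd n a b &&& fieldMask n = vadd n a b := by
  rw [vadd, Nat.and_assoc, Nat.and_self]

theorem val_mem {f : ℕ → M} {S : Subgroup M} (hf : ∀ i, f i ∈ S) : ∀ n a, val f n a ∈ S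
  | 0, _ => one_mem S
  | n + 1, a => mul_mem (pow_mem (hf 0) _) (val_mem (fun i => hf (i + 1)) n _)

theorem val_mem_of_supp {S : Subgroup M} : ∀ (n : ℕ) {f : ℕ → M} {g : List Bool} {a : ℕ},
    (∀ i < n, g.getD i false = true → f i ∈ S) → suppOK n g a = true → val f n a ∈ S
  | 0, _, _, _, _, _ => one_mem S
  | n + 1, f, g, a, hf, h => by
    rw [suppOK, Bool.and_eq_true, Bool.or_eq_true, beq_iff_eq] at h
    refine mul_mem ?_ (val_mem_of_supp n (g := g.tail) (fun i hi hg => hf (i + 1) (by omega) ?_) h.2)
    · rcases h.1 with hg | ha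
      · exact pow_mem (hf 0 (by omega) (by cases g <;> simpa using hg)) _
      · rw [ha, pow_zero]; exact one_mem S
    · cases g <;> simpa using hg

theorem val_congr : ∀ (n : ℕ) {f g : ℕ → M} (a : ℕ), (∀ i < n, f i = g i) → val f n a = val g n a
  | 0, _, _, _, _ => rfl
  | n + 1, f, g, a, h => by
    rw [val, val, h 0 (by omega), val_congr n _ fun i hi => h (i + 1) (by omega)]

theorem valid_unit : ∀ {n i : ℕ}, i < n → vunit i &&& fieldMask n = vunit i
  | n + 1, 0, _ => (valid_iff n 1).2 ⟨by norm_num, by norm_num⟩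
  | n + 1, i + 1, h => (valid_iff n _).2 ⟨by rw [vunit, pow_succ', Nat.mul_mod_right]; norm_num, by
      rw [vunit, pow_succ', Nat.mul_div_cancel_left _ (by norm_num)]; exact valid_unit (by omega)⟩

theorem val_unit : ∀ {n i : ℕ} {f : ℕ → M}, i < n → val f n (vunit i) = f i
  | n + 1, 0, f, _ => by simp [val, vunit, val_zero]
  | n + 1, i + 1, f, h => by
    rw [val, vunit, pow_succ', Nat.mul_mod_right, pow_zero, one_mul, Nat.mul_div_cancel_left _ (by norm_num)]
    exact val_unit (f := fun i => f (i + 1)) (by omega)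

theorem val_vadd : ∀ (n : ℕ) {f : ℕ → M} {a b : ℕ}, (∀ i, f i ^ 128 = 1) → (∀ i g, g * f i = f i * g) →
    a &&& fieldMask n = a → b &&& fieldMask n = b → val f n (vadd n a b) = val f n a * val f n b
  | 0, _, _, _, _, _, _, _ => (one_mul (1 : M)).symm
  | n + 1, f, a, b, h128, hcen, ha, hb => by
    obtain ⟨ha1, ha2⟩ := (valid_iff n a).1 ha
    obtain ⟨hb1, hb2⟩ := (valid_iff n b).1 hb
    obtain ⟨h1, h2⟩ := and_split (a + b) (fieldMask n)
    have e : (a + b) / 256 = a / 256 + b / 256 := by omega
    have e' : (a + b) % 256 = a % 256 + b % 256 := by omega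
    have hS : val (fun i => f (i + 1)) n (a / 256) ∈ Subgroup.center M :=
      val_mem (fun i => Subgroup.mem_center_iff.2 (hcen (i + 1))) _ _
    rw [val, val, val, show vadd (n + 1) a b = (a + b) &&& (127 + 256 * fieldMask n) from rfl, h1, h2, e, e',
      show (a / 256 + b / 256) &&& fieldMask n = vadd n (a / 256) (b / 256) from rfl,
      val_vadd n (fun i => h128 (i + 1)) (fun i => hcen (i + 1)) ha2 hb2,
      ← pow_eq_pow_mod _ (h128 0), pow_add]
    calc f 0 ^ (a % 256) * f 0 ^ (b % 256) *
          (val (fun i => f (i + 1)) n (a / 256) * val (fun i => f (i + 1)) n (b / 256))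
        = f 0 ^ (a % 256) * (f 0 ^ (b % 256) * val (fun i => f (i + 1)) n (a / 256)) *
          val (fun i => f (i + 1)) n (b / 256) := by group
      _ = f 0 ^ (a % 256) * (val (fun i => f (i + 1)) n (a / 256) * f 0 ^ (b % 256)) *
          val (fun i => f (i + 1)) n (b / 256) := by rw [Subgroup.mem_center_iff.1 hS]
      _ = _ := by group

theorem val_vsmul (n : ℕ) {f : ℕ → M} (h128 : ∀ i, f i ^ 128 = 1) (hcen : ∀ i g, g * f i = f i * g) :
    ∀ (k : ℕ) {c a : ℕ}, a &&& fieldMask n = a → c < 2 ^ k →
      vsmul n k c a &&& fieldMask n = vsmul n k c a ∧ val f n (vsmul n k c a) = val f n a ^ c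
  | 0, c, a, _, hc => by
    obtain rfl : c = 0 := by simpa using hc
    exact ⟨Nat.zero_and _, (val_zero f n).trans (pow_zero _).symm⟩
  | k + 1, c, a, ha, hc => by
    obtain ⟨hv, he⟩ := val_vsmul n h128 hcen k (c := c / 2) (valid_vadd n a a) (by rw [pow_succ] at hc; omega)
    rw [val_vadd n h128 hcen ha ha, ← pow_two, ← pow_mul] at he
    rw [vsmul]
    cases hc2 : c % 2 == 1
    · rw [beq_eq_false_iff_ne] at hc2
      exact ⟨hv, he.trans (congrArg _ (by omega))⟩
    · rw [beq_iff_eq] at hc2
      refine ⟨valid_vadd n _ _, ?_⟩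
      rw [cond_true, val_vadd n h128 hcen ha hv, he, ← pow_succ']
      exact congrArg _ (by omega)

end Values

section Main

universe v

variable {M : Type*} [Group M] {c : Cert}

/-- The relations with tails. -/
structure Tails (c : Cert) (l f : ℕ → M) : Prop where
  exp : ∀ i, f i ^ 128 = 1
  central : ∀ i g, g * f i = f i * g
  rel : ∀ v < c.rels.length,
    lprod l (c.rels.getD v ([], [])).1 = lprod l (c.rels.getD v ([], [])).2 * f v

namespace Tails

variable {l f : ℕ → M} (h : Tails c l f)
include h

theorem tval_central (a : ℕ) (g : M) : g * val f c.nv a = val f c.nv a * g :=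
  Subgroup.mem_center_iff.1 (val_mem (fun i => Subgroup.mem_center_iff.2 (h.central i)) _ _) g

theorem run_valid : ∀ (w : List ℕ) (x : ℕ), (c.run x w).2 &&& fieldMask c.nv = (c.run x w).2
  | [], _ => Nat.zero_and _
  | _ :: _, _ => valid_vadd _ _ _

theorem run_spec_of (P : ℕ → ℕ → Prop)
    (hP : ∀ x i, P x i → (c.step x i).1 < 2 ^ c.n ∧ (c.step x i).2 &&& fieldMask c.nv = (c.step x i).2 ∧
      nf l c.n x * l i = nf l c.n (c.step x i).1 * val f c.nv (c.step x i).2) :
    ∀ (w : List ℕ) (x : ℕ), x < 2 ^ c.n → (∀ i ∈ w.head?, P x i) →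
      (∀ i ∈ w.tail, ∀ y < 2 ^ c.n, P y i) →
      (c.run x w).1 < 2 ^ c.n ∧
        nf l c.n x * lprod l w = nf l c.n (c.run x w).1 * val f c.nv (c.run x w).2
  | [], x, hx, _, _ => by simp [Cert.run, lprod, val_zero, hx]
  | i :: w, x, _, h1, h2 => by
    obtain ⟨hr, hv, he⟩ := hP x i (h1 i rfl)
    obtain ⟨hr', he'⟩ := run_spec_of P hP w (c.step x i).1 hr
      (fun k hk => h2 k (List.mem_of_mem_head? hk) _ hr)
      (fun k hk y hy => h2 k (List.mem_of_mem_tail hk) y hy)
    refine ⟨hr', ?_⟩
    rw [lprod, Cert.run, ← mul_assoc, he, mul_assoc, ← h.tval_central, ← mul_assoc, he',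
      val_vadd _ h.exp h.central hv (h.run_valid w _), h.tval_central (c.step x i).2
        (val f c.nv (c.run (c.step x i).1 w).2) |>.symm, mul_assoc]

/-- The table is sound. -/
theorem step_spec (hT : c.tableOK = true) : ∀ (d i : ℕ), c.n = i + d → i < c.n → ∀ x < 2 ^ c.n,
    (c.step x i).1 < 2 ^ c.n ∧ (c.step x i).2 &&& fieldMask c.nv = (c.step x i).2 ∧
      nf l c.n x * l i = nf l c.n (c.step x i).1 * val f c.nv (c.step x i).2 := by
  intro d
  induction d using Nat.strong_induction_on with
  | _ d ihd =>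
    intro i hid hi x
    induction x using Nat.strong_induction_on with
    | _ x ihx =>
      intro hx
      simp only [Cert.tableOK, List.all_eq_true, List.mem_range] at hT
      have he := hT i hi x hx
      rw [Cert.entryOK, Bool.and_eq_true, decide_eq_true_eq] at he
      obtain ⟨hlt, he⟩ := he
      refine ⟨hlt, ?_⟩
      by_cases hxi : x < 2 ^ i
      · rw [show decide (x < 2 ^ i) = true by simpa using hxi, cond_true, Bool.and_eq_true,
          beq_iff_eq, beq_iff_eq] at he
        rw [he.1, he.2, val_zero, mul_one]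
        exact ⟨Nat.zero_and _, (bprod_or_top l hi fun j hj _ =>
          Nat.testBit_lt_two_pow (lt_of_lt_of_le hxi (Nat.pow_le_pow_right (by norm_num) hj))).symm⟩
      · rw [show decide (x < 2 ^ i) = false by simpa using hxi, cond_false] at he
        set j := Collector.topBit c.n x
        set v := c.relIdx [j, i]
        simp only [Bool.and_eq_true, List.all_eq_true, List.mem_range, Bool.or_eq_true,
          decide_eq_true_eq, Bool.not_eq_true', beq_iff_eq] at he
        obtain ⟨⟨⟨⟨⟨⟨⟨hxj, hhi⟩, hy⟩, hj⟩, hv⟩, hlhs⟩, hrhs⟩, hstep⟩ := he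
        set R := (c.rels.getD v ([], [])).2 with hR
        clear_value R
        have hnf : nf l c.n x = nf l c.n (x ^^^ 2 ^ j) * l j :=
          bprod_top l hj hxj fun k hk hk' => (hhi k hk').resolve_left (by omega)
        have hrel := h.rel v hv
        rw [hlhs, lprod, lprod, lprod, mul_one, ← hR] at hrel
        obtain ⟨-, hrun⟩ := h.run_spec_of (fun y k => y < 2 ^ c.n ∧ k < c.n ∧ (i < k ∨ k = i ∧ y < x))
          (fun y k hyk => by
            obtain ⟨hy', hk, hik | ⟨rfl, hyx⟩⟩ := hyk
            · exact ihd (c.n - k) (by omega) k (by omega) hk y hy'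
            · exact ihx y hyx hy') R (x ^^^ 2 ^ j) (by omega)
          (fun k hk => by
            revert hrhs
            cases R with
            | nil => simp at hk
            | cons a w =>
              simp only [List.head?_cons, Option.mem_def, Option.some.injEq] at hk
              subst hk
              simp only [Bool.and_eq_true, decide_eq_true_eq]
              rintro ⟨⟨ha, ha'⟩, -⟩
              exact ⟨by omega, ha', (Nat.eq_or_lt_of_le ha).elim (fun e => Or.inr ⟨e.symm, hy⟩) Or.inl⟩)
          (fun k hk y hy' => by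
            revert hrhs
            cases R with
            | nil => simp at hk
            | cons a w =>
              simp only [Bool.and_eq_true, decide_eq_true_eq, List.all_eq_true]
              rintro ⟨-, hw⟩
              exact ⟨hy', (hw k hk).2, Or.inl (hw k hk).1⟩)
        have hvn : v < c.nv := by rw [Cert.nv]; omega
        refine ⟨by rw [hstep]; exact valid_vadd _ _ _, ?_⟩
        rw [hnf, mul_assoc, hrel, ← mul_assoc, hrun, mul_assoc, hstep]
        congr 1
        rw [val_vadd _ h.exp h.central (h.run_valid _ _) (valid_unit hvn), val_unit hvn]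

/-- Collecting a word is sound. -/
theorem run_spec (hT : c.tableOK = true) {w : List ℕ} (hw : ∀ i ∈ w, i < c.n) {x : ℕ}
    (hx : x < 2 ^ c.n) : (c.run x w).1 < 2 ^ c.n ∧
      nf l c.n x * lprod l w = nf l c.n (c.run x w).1 * val f c.nv (c.run x w).2 :=
  h.run_spec_of (fun y i => y < 2 ^ c.n ∧ i < c.n)
    (fun y i hy => h.step_spec hT (c.n - i) i (by omega) hy.2 y hy.1) w x hx
    (fun i hi => ⟨hx, hw i (List.mem_of_mem_head? hi)⟩)
    (fun i hi y hy => ⟨hy, hw i (List.mem_of_mem_tail hi)⟩)

end Tails

theorem digits_lt : ∀ k x, ∀ i ∈ Collector.digits k x, i < k := by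
  intro k
  induction k with
  | zero => simp [Collector.digits]
  | succ k ih =>
    intro x i hi
    rw [Collector.digits] at hi
    cases hb : x.testBit k <;> simp [hb] at hi
    · exact (ih x i hi).trans (Nat.lt_succ_self k)
    · rcases hi with hi | rfl
      · exact (ih x i hi).trans (Nat.lt_succ_self k)
      · exact Nat.lt_succ_self i

/-- The product of two normal forms. -/
theorem Tails.mul_spec {l f : ℕ → M} (h : Tails c l f) (hT : c.tableOK = true) {x y : ℕ} (hx : x < 2 ^ c.n) :
    nf l c.n x * nf l c.n y = nf l c.n (c.mulNF x y).1 * val f c.nv (c.mulNF x y).2 := by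
  have := (h.run_spec hT (w := Collector.digits c.n y) (fun i hi => digits_lt _ _ i hi) hx).2
  rwa [lprod_digits] at this

theorem mulNF_valid (x y : ℕ) : (c.mulNF x y).2 &&& fieldMask c.nv = (c.mulNF x y).2 := by
  rw [Cert.mulNF]
  cases Collector.digits c.n y with
  | nil => exact Nat.zero_and _
  | cons a w => exact valid_vadd _ _ _

theorem runv_valid (x : ℕ) (w : List ℕ) : (c.run x w).2 &&& fieldMask c.nv = (c.run x w).2 := by
  cases w with
  | nil => exact Nat.zero_and _
  | cons a w => exact valid_vadd _ _ _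

/-- A certificate over a Sylow `2`-subgroup bounds the kernel in the derived group of its preimage. -/
theorem exists_gen {G : Type v} [Group G] [Finite G] (c : Cert) (el conjEl : ℕ → G)
    (hT : c.tableOK = true) (hsolved : c.solvedOK = true) (hderived : c.derivedOK = true)
    (hrel : ∀ v < c.rels.length,
      lprod el (c.rels.getD v ([], [])).1 = lprod el (c.rels.getD v ([], [])).2)
    (hconj : ∀ j < c.conjs.length, conjEl (c.conjs.getD j (0, 0, 0)).1 *
      nf el c.n (c.conjs.getD j (0, 0, 0)).2.1 * (conjEl (c.conjs.getD j (0, 0, 0)).1)⁻¹ =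
        nf el c.n (c.conjs.getD j (0, 0, 0)).2.2)
    (hinj : ∀ x < 2 ^ c.n, nf el c.n x = 1 → x = 0)
    {Δ : Type v} [Group Δ] [Finite Δ] (τ : Δ →* G) (hsurj : Function.Surjective τ)
    (hc : τ.ker ≤ Subgroup.center Δ) (hexp : ∀ k ∈ τ.ker, k ^ 128 = 1) :
    ∃ u ∈ τ.ker, u ^ c.bound = 1 ∧
      ∀ z ∈ ⁅(Subgroup.closure (el '' Set.Iio c.n)).comap τ, (Subgroup.closure (el '' Set.Iio c.n)).comap τ⁆,
        z ∈ τ.ker → z ∈ Subgroup.zpowers u := by
  have hcen : ∀ k ∈ τ.ker, ∀ g : Δ, g * k = k * g := fun k hk g =>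
    Subgroup.mem_center_iff.1 (hc hk) g
  choose s hs using hsurj
  set l : ℕ → Δ := fun i => s (el i) with hl
  have hτl : (fun i => τ (l i)) = el := funext fun i => hs (el i)
  set R := c.rels.length
  let E : ℕ → Δ := fun j => s (conjEl (c.conjs.getD j (0, 0, 0)).1) * nf l c.n (c.conjs.getD j (0, 0, 0)).2.1 *
    (s (conjEl (c.conjs.getD j (0, 0, 0)).1))⁻¹ * (nf l c.n (c.conjs.getD j (0, 0, 0)).2.2)⁻¹
  set f : ℕ → Δ := fun i => if i < R then
      (lprod l (c.rels.getD i ([], [])).2)⁻¹ * lprod l (c.rels.getD i ([], [])).1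
    else if i - R < c.conjs.length then E (i - R) else 1 with hf
  have hfker : ∀ i, f i ∈ τ.ker := by
    intro i
    rw [hf, MonoidHom.mem_ker]
    by_cases hi : i < R
    · simp only
      rw [if_pos hi, map_mul, map_inv, map_lprod, map_lprod, hτl, hrel i hi, inv_mul_cancel]
    · simp only
      rw [if_neg hi]
      split_ifs with hj
      · simp only [E, map_mul, map_inv, map_bprod, hτl, hs, nf]
        rw [hconj _ hj]; exact mul_inv_cancel _
      · exact map_one τ
  have hft : Tails c l f := ⟨fun i => hexp _ (hfker i), fun i => hcen _ (hfker i), fun v hv => by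
    simp [hf, R, hv]⟩
  have hfE : ∀ j < c.conjs.length, val f c.nv (vunit (R + j)) = E j := fun j hj => by
    rw [val_unit (by rw [Cert.nv]; omega)]; simp [hf, hj]
  have hS := hsolved
  simp only [Cert.solvedOK, Bool.and_eq_true, List.all_eq_true, List.mem_range, beq_iff_eq,
    decide_eq_true_eq, Bool.or_eq_true] at hS
  obtain ⟨⟨⟨⟨⟨⟨⟨⟨hw, heqs⟩, hgauge⟩, hcombR⟩, hgenR⟩, hgen⟩, hgenC⟩, hb⟩, hcomb⟩ := hS
  have hwords : ∀ v < R, (∀ i ∈ (c.rels.getD v ([], [])).1, i < c.n) ∧
      ∀ i ∈ (c.rels.getD v ([], [])).2, i < c.n := fun v hv => by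
    rw [List.getD_eq_getElem _ _ hv]; exact hw _ (List.getElem_mem hv)
  have vadd' : ∀ {a b : ℕ}, a &&& fieldMask c.nv = a → b &&& fieldMask c.nv = b →
      val f c.nv (vadd c.nv a b) = val f c.nv a * val f c.nv b := fun ha hb =>
    val_vadd _ hft.exp hft.central ha hb
  have vsm : ∀ {k a : ℕ}, a &&& fieldMask c.nv = a → k < 128 →
      val f c.nv (vsmul c.nv 7 k a) = val f c.nv a ^ k := fun ha hk =>
    (val_vsmul _ hft.exp hft.central 7 ha (by simpa using hk)).2
  have vsmv : ∀ {k a : ℕ}, a &&& fieldMask c.nv = a → k < 128 →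
      vsmul c.nv 7 k a &&& fieldMask c.nv = vsmul c.nv 7 k a := fun ha hk =>
    (val_vsmul _ hft.exp hft.central 7 ha (by simpa using hk)).1
  have vnegv : ∀ {a : ℕ}, a &&& fieldMask c.nv = a → vneg c.nv a &&& fieldMask c.nv = vneg c.nv a :=
    fun ha => vsmv ha (by norm_num)
  have vneg' : ∀ {a : ℕ}, a &&& fieldMask c.nv = a → val f c.nv (vneg c.nv a) = (val f c.nv a)⁻¹ := by
    intro a ha
    rw [vneg, vsm ha (by norm_num)]
    refine eq_inv_of_mul_eq_one_left ?_
    rw [← pow_succ]
    exact hexp _ (val_mem hfker _ _)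
  -- the equations hold
  have heq1 : ∀ e ∈ c.eqs, c.eqVec e &&& fieldMask c.nv = c.eqVec e ∧ val f c.nv (c.eqVec e) = 1 := by
    intro e he
    have hok := heqs e he
    cases e with
    | assoc pre v =>
      simp only [Cert.eqOK, Bool.and_eq_true, decide_eq_true_eq, List.all_eq_true, beq_iff_eq] at hok
      obtain ⟨⟨hv, hpre⟩, hr⟩ := hok
      have hvn : v < c.nv := by rw [Cert.nv]; omega
      refine ⟨valid_vadd _ _ _, ?_⟩
      have h1 := (hft.run_spec hT (w := pre ++ (c.rels.getD v ([], [])).1) (x := 0) (fun i hi =>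
        (List.mem_append.1 hi).elim (hpre i) ((hwords v hv).1 i)) (by positivity)).2
      have h2 := (hft.run_spec hT (w := pre ++ (c.rels.getD v ([], [])).2) (x := 0) (fun i hi =>
        (List.mem_append.1 hi).elim (hpre i) ((hwords v hv).2 i)) (by positivity)).2
      rw [show nf l c.n 0 = 1 from bprod_zero l _, one_mul, lprod_append, hft.rel v hv, ← mul_assoc,
        ← lprod_append] at h1
      rw [show nf l c.n 0 = 1 from bprod_zero l _, one_mul] at h2
      rw [h2, ← hr, mul_assoc] at h1
      have h3 := mul_left_cancel h1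
      rw [Cert.eqVec, vadd' (runv_valid _ _) (vnegv (valid_vadd _ _ _)), vneg' (valid_vadd _ _ _),
        vadd' (runv_valid _ _) (valid_unit hvn), val_unit hvn, ← h3, mul_inv_cancel]
    | conj p q r =>
      simp only [Cert.eqOK, Bool.and_eq_true, decide_eq_true_eq, beq_iff_eq] at hok
      obtain ⟨⟨⟨⟨⟨⟨⟨⟨hp, hq⟩, hr⟩, hpq⟩, hpr⟩, hx⟩, hy⟩, hxb⟩, hyb⟩ := hok
      have hu : ∀ {j}, j < c.conjs.length → vunit (R + j) &&& fieldMask c.nv = vunit (R + j) :=
        fun hj => valid_unit (by rw [Cert.nv]; omega)
      refine ⟨valid_vadd _ _ _, ?_⟩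
      rw [Cert.eqVec, vadd' (valid_vadd _ _ _) (valid_vadd _ _ _), vadd' (hu hp) (hu hq),
        vadd' (mulNF_valid _ _) (vnegv (valid_vadd _ _ _)), vneg' (valid_vadd _ _ _),
        vadd' (mulNF_valid _ _) (hu hr), hfE p hp, hfE q hq, hfE r hr]
      have e1 := hft.mul_spec hT (y := (c.conjs.getD q (0, 0, 0)).2.1) hxb
      have e2 := hft.mul_spec hT (y := (c.conjs.getD q (0, 0, 0)).2.2) hyb
      rw [hx] at e1
      rw [hy] at e2
      set g := s (conjEl (c.conjs.getD p (0, 0, 0)).1) with hg
      have hgq : s (conjEl (c.conjs.getD q (0, 0, 0)).1) = g := by rw [hg, hpq]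
      have hgr : s (conjEl (c.conjs.getD r (0, 0, 0)).1) = g := by rw [hg, hpr]
      have hE : ∀ j, j < c.conjs.length → E j ∈ τ.ker := fun j hj => by
        rw [← hfE j hj]; exact val_mem hfker _ _
      set L := val f c.nv (c.mulNF (c.conjs.getD p (0, 0, 0)).2.1 (c.conjs.getD q (0, 0, 0)).2.1).2
      set L' := val f c.nv (c.mulNF (c.conjs.getD p (0, 0, 0)).2.2 (c.conjs.getD q (0, 0, 0)).2.2).2
      set a := nf l c.n (c.conjs.getD p (0, 0, 0)).2.1
      set b := nf l c.n (c.conjs.getD q (0, 0, 0)).2.1
      set a' := nf l c.n (c.conjs.getD p (0, 0, 0)).2.2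
      set b' := nf l c.n (c.conjs.getD q (0, 0, 0)).2.2
      set w := nf l c.n (c.conjs.getD r (0, 0, 0)).2.1
      set w' := nf l c.n (c.conjs.getD r (0, 0, 0)).2.2
      have hP : g * a * g⁻¹ = E p * a' := by simp only [E, ← hg, a, a']; group
      have hQ : g * b * g⁻¹ = E q * b' := by simp only [E, hgq, b, b']; group
      have hR : g * w * g⁻¹ = E r * w' := by simp only [E, hgr, w, w']; group
      have hL : ∀ x : Δ, x * L = L * x := hcen _ (val_mem hfker _ _)
      have hL' : ∀ x : Δ, x * L' = L' * x := hcen _ (val_mem hfker _ _)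
      have key : E p * E q * L' = L * E r := by
        have k1 : g * (a * b) * g⁻¹ = E p * E q * L' * w' := by
          calc g * (a * b) * g⁻¹ = (g * a * g⁻¹) * (g * b * g⁻¹) := by group
            _ = E p * (a' * E q) * b' := by rw [hP, hQ]; group
            _ = E p * E q * (a' * b') := by rw [hcen _ (hE q hq)]; group
            _ = E p * E q * L' * w' := by rw [e2, hL']; group
        have k2 : g * (a * b) * g⁻¹ = L * E r * w' := by
          calc g * (a * b) * g⁻¹ = g * (w * L) * g⁻¹ := by rw [e1]
            _ = g * (L * w) * g⁻¹ := by rw [hL]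
            _ = (g * L) * w * g⁻¹ := by group
            _ = L * (g * w * g⁻¹) := by rw [hL]; group
            _ = _ := by rw [hR]; group
        exact mul_right_cancel (k1.symm.trans k2)
      rw [← mul_assoc, key, mul_inv_cancel]
  have hcombv : ∀ es : List (ℕ × ℕ), (∀ e ∈ es, e.1 < c.eqs.length ∧ e.2 < 128) →
      c.combVec es &&& fieldMask c.nv = c.combVec es ∧ val f c.nv (c.combVec es) = 1 := by
    intro es
    induction es with
    | nil => intro _; exact ⟨Nat.zero_and _, val_zero f _⟩
    | cons e es ih =>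
      intro hes
      obtain ⟨iv, ie⟩ := ih fun x hx => hes x (List.mem_cons_of_mem _ hx)
      obtain ⟨he, hk⟩ := hes e (List.mem_cons_self ..)
      obtain ⟨ev, ee⟩ := heq1 _ (List.getElem_mem he)
      refine ⟨valid_vadd _ _ _, ?_⟩
      rw [Cert.combVec, List.getD_eq_getElem _ _ he, vadd' (vsmv ev hk) iv, vsm ev hk, ee, ie, one_pow, one_mul]
  set u := val f c.nv c.gen with hu
  have huk : u ∈ τ.ker := val_mem hfker _ _
  refine ⟨u, huk, by rw [hu, ← vsm hgen hb, hgenC, (hcombv _ hgenR).2], ?_⟩
  -- the changed lifts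
  have hgv : ∀ i, i < c.n → c.gauge.getD i 0 &&& fieldMask c.nv = c.gauge.getD i 0 := hgauge
  set e : ℕ → Δ := fun i => val f c.nv (c.gauge.getD i 0) with he
  have heker : ∀ i, e i ∈ τ.ker := fun i => val_mem hfker _ _
  have hegauge : ∀ w : List ℕ, (∀ i ∈ w, i < c.n) →
      c.gaugeVec w &&& fieldMask c.nv = c.gaugeVec w ∧ val f c.nv (c.gaugeVec w) = lprod e w := by
    intro w
    induction w with
    | nil => intro _; exact ⟨Nat.zero_and _, val_zero f _⟩
    | cons i w ih =>
      intro hw'
      obtain ⟨iv, ie⟩ := ih fun k hk => hw' k (List.mem_cons_of_mem _ hk)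
      refine ⟨valid_vadd _ _ _, ?_⟩
      rw [Cert.gaugeVec, vadd' (hgv i (hw' i (List.mem_cons_self ..))) iv, ie]
      rfl
  set l' : ℕ → Δ := fun i => l i * e i with hl'
  have hτl' : (fun i => τ (l' i)) = el := funext fun i => by
    simp [hl', MonoidHom.mem_ker.1 (heker i), hl, hs]
  set f' : ℕ → Δ := fun i => if i < R then val f c.nv (c.changed i) else 1 with hf'
  have hf'ker : ∀ i, f' i ∈ τ.ker := fun i => by
    rw [hf']; simp only; split_ifs; exacts [val_mem hfker _ _, one_mem _]
  have hft' : Tails c l' f' := by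
    refine ⟨fun i => hexp _ (hf'ker i), fun i => hcen _ (hf'ker i), fun v hv => ?_⟩
    have hvn : v < c.nv := by rw [Cert.nv]; omega
    obtain ⟨v1, e1⟩ := hegauge _ (hwords v hv).1
    obtain ⟨v2, e2⟩ := hegauge _ (hwords v hv).2
    have hc2 : ∀ x, x * lprod e (c.rels.getD v ([], [])).2 = lprod e (c.rels.getD v ([], [])).2 * x :=
      hcen _ (e2 ▸ val_mem hfker _ _)
    have hc1 : ∀ x, x * lprod e (c.rels.getD v ([], [])).1 = lprod e (c.rels.getD v ([], [])).1 * x :=
      hcen _ (e1 ▸ val_mem hfker _ _)
    rw [lprod_mul_central fun i => hcen _ (heker i), lprod_mul_central fun i => hcen _ (heker i),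
      hft.rel v hv]
    simp only [hf', R, hv, if_true]
    rw [Cert.changed, vadd' (valid_unit hvn) (valid_vadd _ _ _), vadd' v1 (vnegv v2), vneg' v2,
      val_unit hvn, e1, e2]
    set A := lprod l (c.rels.getD v ([], [])).2
    set P := lprod e (c.rels.getD v ([], [])).1
    set Q := lprod e (c.rels.getD v ([], [])).2
    calc A * f v * P = A * (Q * Q⁻¹) * f v * P := by group
      _ = A * Q * (Q⁻¹ * f v) * P := by group
      _ = A * Q * (f v * Q⁻¹) * P := by rw [hft.central v Q⁻¹]
      _ = A * Q * (f v * (Q⁻¹ * P)) := by group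
      _ = A * Q * (f v * (P * Q⁻¹)) := by rw [hc1 Q⁻¹]
  set U := Subgroup.zpowers u
  have hgoodU : ∀ v < R, c.free v = false → f' v ∈ U := by
    intro v hv hfree
    obtain ⟨hk, hvec⟩ := (hcomb v hv).resolve_left (by rw [hfree]; exact Bool.false_ne_true)
    have hr : ∀ x ∈ c.comb.getD v [], x.1 < c.eqs.length ∧ x.2 < 128 := fun x hx => by
      by_cases hvc : v < c.comb.length
      · rw [List.getD_eq_getElem _ _ hvc] at hx; exact hcombR _ (List.getElem_mem hvc) x hx
      · rw [List.getD_eq_default _ _ (by omega)] at hx; simp at hx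
    have h1 := (hcombv _ hr).2
    rw [← hvec, vadd' (show c.changed v &&& fieldMask c.nv = c.changed v from valid_vadd _ _ _) (vnegv (vsmv hgen hk)), vneg' (vsmv hgen hk), vsm hgen hk,
      mul_inv_eq_one] at h1
    simp only [hf', hv, if_true]
    rw [h1]
    exact pow_mem (Subgroup.mem_zpowers u) _
  have hD := hderived
  simp only [Cert.derivedOK, Bool.and_eq_true, List.all_eq_true, List.mem_range, Bool.or_eq_true,
    decide_eq_true_eq, Bool.not_eq_true', beq_iff_eq, beq_eq_false_iff_ne] at hD
  obtain ⟨⟨-, hclosed⟩, hpairs⟩ := hD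
  set K : Subgroup Δ := Subgroup.closure (insert u (l' '' {i | c.lead ≤ i ∧ i < c.n})) with hK
  have huK : u ∈ K := Subgroup.subset_closure (Set.mem_insert _ _)
  have hlK : ∀ i, c.lead ≤ i → i < c.n → l' i ∈ K := fun i h1 h2 =>
    Subgroup.subset_closure (Set.mem_insert_of_mem _ ⟨i, ⟨h1, h2⟩, rfl⟩)
  have hUK : U ≤ K := Subgroup.zpowers_le.2 huK
  have hwK : ∀ w : List ℕ, (∀ k ∈ w, c.lead ≤ k) → (∀ k ∈ w, k < c.n) → lprod l' w ∈ K := by
    intro w
    induction w with
    | nil => intros; exact one_mem K
    | cons i w ih =>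
      intro h1 h2
      exact mul_mem (hlK i (h1 i (List.mem_cons_self ..)) (h2 i (List.mem_cons_self ..)))
        (ih (fun k hk => h1 k (List.mem_cons_of_mem _ hk)) fun k hk => h2 k (List.mem_cons_of_mem _ hk))
  -- relations of the pairs
  have hpair : ∀ j < c.n, ∀ i < j, ∃ k ∈ K,
      l' j * l' i = l' i * (if j < c.lead then l' j * k else k) := by
    intro j hj i hij
    obtain ⟨⟨⟨hv, hlhs⟩, hfree⟩, hm⟩ := hpairs j hj i hij
    set v := c.relIdx [j, i]
    have hrel' := hft'.rel v hv
    have hfK := hUK (hgoodU v hv hfree)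
    have hwn := (hwords v hv).2
    rw [hlhs, lprod, lprod, lprod, mul_one] at hrel'
    revert hrel' hm hwn
    rcases (c.rels.getD v ([], [])).2 with _ | ⟨h0, w⟩
    · simp
    · intro hm hrel' hwn
      simp only [Bool.and_eq_true, beq_iff_eq] at hm
      obtain ⟨rfl, hm⟩ := hm
      rw [hrel', lprod]
      by_cases hjl : j < c.lead
      · simp only [hjl, decide_true, cond_true, Bool.and_eq_true, beq_iff_eq, List.all_eq_true,
          decide_eq_true_eq] at hm
        simp only [hjl, if_true]
        cases w with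
        | nil => simp at hm
        | cons j' w =>
          simp only [List.head?_cons, Option.some.injEq, List.tail_cons] at hm
          obtain ⟨rfl, hm⟩ := hm
          refine ⟨lprod l' w * f' v, mul_mem (hwK w hm fun k hk => hwn k (by simp [hk])) hfK, ?_⟩
          rw [lprod]; group
      · simp only [hjl, decide_false, cond_false, List.all_eq_true, decide_eq_true_eq] at hm
        simp only [hjl, if_false]
        exact ⟨lprod l' w * f' v, mul_mem (hwK w hm fun k hk => hwn k (by simp [hk])) hfK, by group⟩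
  have hnorm : ∀ i < c.n, l' i ∈ Subgroup.normalizer (K : Set Δ) := by
    intro i hi
    by_cases hil : c.lead ≤ i
    · exact Subgroup.le_normalizer (hlK i hil hi)
    refine Subgroup.inv_mem_iff _ |>.1 ?_
    have hle : ∀ x ∈ K, (l' i)⁻¹ * x * l' i ∈ K := by
      intro x hx
      refine Subgroup.closure_induction (p := fun x _ => (l' i)⁻¹ * x * l' i ∈ K) ?_ ?_ ?_ ?_ hx
      · rintro y (rfl | ⟨k, ⟨hk1, hk2⟩, rfl⟩)
        · rw [mul_assoc, ← hcen u huk, inv_mul_cancel_left]; exact huK
        · obtain ⟨m, hm, e⟩ := hpair k hk2 i (by omega)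
          rw [mul_assoc, e, inv_mul_cancel_left, if_neg (by omega)]
          exact hm
      · simpa using one_mem K
      · intro a b _ _ ha hb
        simpa [mul_assoc] using mul_mem ha hb
      · intro a _ ha
        simpa [mul_assoc] using inv_mem ha
    rw [Subgroup.mem_normalizer_iff]
    intro x
    refine ⟨fun hx => by simpa using hle x hx, fun hx => ?_⟩
    simp only [inv_inv] at hx
    let F : K → K := fun y => ⟨(l' i)⁻¹ * y * l' i, hle y y.2⟩
    have hF : Function.Injective F := fun a b h => Subtype.ext (by simpa [F] using h)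
    obtain ⟨⟨y, hy⟩, e⟩ := (Finite.injective_iff_surjective.1 hF) ⟨_, hx⟩
    have e' : (l' i)⁻¹ * y * l' i = (l' i)⁻¹ * x * l' i := congrArg Subtype.val e
    rwa [← mul_left_cancel (mul_right_cancel e')]
  intro z hz hzk
  have himg : Subgroup.closure (el '' Set.Iio c.n) = Subgroup.closure (τ '' (l' '' Set.Iio c.n)) := by
    rw [Set.image_image, hτl']
  rw [himg] at hz
  have hzK : z ∈ K := by
    refine commutator_comap_closure_le hc (l' '' Set.Iio c.n) K
      (fun a ha => by obtain ⟨i, hi, rfl⟩ := ha; exact hnorm i hi) ?_ hz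
    have hlt : ∀ j < c.n, ∀ i < j, ⁅l' j, l' i⁆ ∈ K := by
      intro j hj i hij
      obtain ⟨k, hk, e⟩ := hpair j hj i hij
      have hni := Subgroup.mem_normalizer_iff.1 (hnorm i (by omega))
      have hnj := Subgroup.mem_normalizer_iff.1 (hnorm j hj)
      rw [commutatorElement_def, e]
      split_ifs with hjl
      · have : l' i * (l' j * k) * (l' j)⁻¹ * (l' i)⁻¹ = l' i * (l' j * k * (l' j)⁻¹) * (l' i)⁻¹ := by group
        rw [this]
        exact (hni _).1 ((hnj _).1 hk)
      · have hjK := hlK j (by omega) hj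
        have : l' i * k * (l' j)⁻¹ * (l' i)⁻¹ = l' i * (k * (l' j)⁻¹) * (l' i)⁻¹ := by group
        rw [this]
        exact (hni _).1 (mul_mem hk (inv_mem hjK))
    rintro a ⟨i, hi, rfl⟩ b ⟨j, hj, rfl⟩
    rcases lt_trichotomy i j with h | rfl | h
    · rw [← commutatorElement_inv]; exact inv_mem (hlt j hj i h)
    · rw [commutatorElement_self]; exact one_mem K
    · exact hlt i hi j h
  have hnfK : ∃ x < 2 ^ c.n, x % 2 ^ c.lead = 0 ∧ ∃ k ∈ U, z = nf l' c.n x * k := by
    rw [hK, ← Subgroup.mem_toSubmonoid, Subgroup.closure_toSubmonoid_of_finite] at hzK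
    clear hz hzk
    induction hzK using Submonoid.closure_induction_right with
    | one => exact ⟨0, by positivity, Nat.zero_mod _, 1, one_mem _, by simp [nf, bprod_zero]⟩
    | mul_right y _ g hg ih =>
      obtain ⟨x, hx, hx8, k, hk, rfl⟩ := ih
      rcases hg with rfl | ⟨i, ⟨hi1, hi2⟩, rfl⟩
      · exact ⟨x, hx, hx8, k * u, mul_mem hk (Subgroup.mem_zpowers u), mul_assoc ..⟩
      · obtain ⟨hr, hv, he⟩ := hft'.step_spec hT (c.n - i) i (by omega) hi2 x hx
        obtain ⟨h1, h2⟩ := ((hclosed i hi2).resolve_left (by omega) x hx).resolve_left (fun h => h hx8)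
        refine ⟨_, hr, h1, val f' c.nv (c.step x i).2 * k, mul_mem ?_ hk, ?_⟩
        · refine val_mem_of_supp c.nv (fun v hv' hg => ?_) h2
          by_cases hvR : v < R
          · refine hgoodU v hvR ?_
            simpa [Cert.goodList, R, hvR] using hg
          · simp only [hf', hvR, if_false]; exact one_mem U
        · rw [mul_assoc, hcen k ((Subgroup.zpowers_le.2 huk) hk) (l' i) |>.symm, ← mul_assoc, he,
            mul_assoc]
  obtain ⟨x, hx, -, k, hk, rfl⟩ := hnfK
  rw [MonoidHom.mem_ker, map_mul, MonoidHom.mem_ker.1 ((Subgroup.zpowers_le.2 huk) hk), mul_one,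
    map_bprod, hτl'] at hzk
  have hx0 := hinj x hx hzk
  subst hx0
  rw [show nf l' c.n 0 = 1 from bprod_zero l' _, one_mul]
  exact hk

end Main

end CfsgLib.SchurMult.ModCollect
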