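import Cfsg.Agent.Lib.SchurMult.CentralComm
import Cfsg.Agent.Lib.SchurMult.FieldPairing

/-!
The characteristic part of the Schur multiplier of a group with a unipotent subgroup of Ree type.
-/

set_option autoImplicit false
set_option linter.style.haveILetI false

namespace CfsgLib.SchurMult.ReePart

open scoped commutatorElement

universe u v w

/-- The data: the twist `s` of the field, the unipotent elements and the torus. -/
structure Data (K : Type u) [Field K] (G : Type v) [Group G] where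
  /-- the twist -/
  s : K → K
  /-- the unipotent elements -/
  x : K → K → K → G
  /-- the torus -/
  d : Kˣ → G
  three : (3 : K) = 0
  s_add : ∀ a b, s (a + b) = s a + s b
  s_neg : ∀ a, s (-a) = -s a
  s_one : s 1 = 1
  x_mul : ∀ t E F t' E' F', x t E F * x t' E' F' =
    x (t + t') (E + E' + t' * s t) (F + F' + t' ^ 2 * s t - E * t')
  x_zero : x 0 0 0 = 1
  x_inj : ∀ {t E F t' E' F'}, x t E F = x t' E' F' → t = t' ∧ E = E' ∧ F = F'
  d_comm : ∀ a b, Commute (d a) (d b)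
  d_x : ∀ (l : Kˣ) t E F, d l * x t E F * (d l)⁻¹ =
    x ((l : K) * t) ((l : K) * s (l : K) * E) ((l : K) ^ 2 * s (l : K) * F)
  sq_E : ∀ a : K, a ≠ 0 → IsSquare a → ∃ l : Kˣ, (l : K) * s (l : K) = a
  sq_F : ∀ a : K, a ≠ 0 → IsSquare a → ∃ l : Kˣ, (l : K) ^ 2 * s (l : K) = a
  ne_E : ∃ l : Kˣ, (l : K) * s (l : K) ≠ 1
  nonadd : ∃ a : K, a ≠ 0 ∧ 1 + a ≠ 0 ∧
    ((1 + a) ^ 2 * s (1 + a))⁻¹ - 1 - (a ^ 2 * s a)⁻¹ ≠ 0

variable {K : Type u} [Field K] [Fintype K] {G : Type v} [Group G] {Γ : Type w} [Group Γ]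

/-- An element killed by two and by three is zero. -/
theorem eq_zero_of_two_three {A : Type*} [AddCommGroup A] {a : A} (h2 : a + a = 0)
    (h3 : a + a + a = 0) : a = 0 := by
  rwa [h2, zero_add] at h3

theorem Data.s_zero (D : Data K G) : D.s 0 = 0 := by
  have h := D.s_add 0 0
  rw [add_zero] at h
  exact left_eq_add.1 h

theorem Data.x_mul_zero (D : Data K G) (E F E' F' : K) :
    D.x 0 E F * D.x 0 E' F' = D.x 0 (E + E') (F + F') := by
  rw [D.x_mul]; simp [D.s_zero]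

theorem Data.x_inv_zero (D : Data K G) (E F : K) : (D.x 0 E F)⁻¹ = D.x 0 (-E) (-F) :=
  inv_eq_of_mul_eq_one_right (by rw [D.x_mul_zero, add_neg_cancel, add_neg_cancel, D.x_zero])

set_option maxHeartbeats 1000000 in
/-- No kernel element lies in the commutator subgroup of the preimage of the unipotent subgroup. -/
theorem eq_one_of_mem (D : Data K G) (h4 : Fintype.card K ≠ 4) (h9 : Fintype.card K ≠ 9)
    {σ : Γ →* G} (hs : Function.Surjective σ) (hc : σ.ker ≤ Subgroup.center Γ)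
    (U : Subgroup G) (hU : ∀ y, y ∈ U ↔ ∃ t E F, y = D.x t E F)
    {z : Γ} (hz : z ∈ ⁅U.comap σ, U.comap σ⁆) (hzk : z ∈ σ.ker) : z = 1 := by
  classical
  letI : CommGroup σ.ker :=
    { mul_comm := fun a b => Subtype.ext (Subgroup.mem_center_iff.1 (hc b.2) (a : Γ)) }
  obtain ⟨L, hL⟩ : ∃ L : K → Γ, ∀ t, σ (L t) = D.x t 0 0 :=
    ⟨fun t => (hs _).choose, fun t => (hs (D.x t 0 0)).choose_spec⟩
  obtain ⟨w, hw⟩ : ∃ w : K → K → Γ, ∀ E F, σ (w E F) = D.x 0 E F :=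
    ⟨fun E F => (hs _).choose, fun E F => (hs (D.x 0 E F)).choose_spec⟩
  obtain ⟨g, hg⟩ : ∃ g : Kˣ → Γ, ∀ l, σ (g l) = D.d l :=
    ⟨fun l => (hs _).choose, fun l => (hs (D.d l)).choose_spec⟩
  have hgL : ∀ l t, σ (g l * L t * (g l)⁻¹) = D.x ((l : K) * t) 0 0 := fun l t => by
    rw [map_mul, map_mul, map_inv, hg, hL, D.d_x, mul_zero, mul_zero]
  have hgw : ∀ (l : Kˣ) E F, σ (g l * w E F * (g l)⁻¹) =
      D.x 0 ((l : K) * D.s (l : K) * E) ((l : K) ^ 2 * D.s (l : K) * F) := fun l E F => by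
    rw [map_mul, map_mul, map_inv, hg, hw, D.d_x, mul_zero]
  have cw : ∀ E F E' F', Commute (σ (w E F)) (σ (w E' F')) := fun E F E' F' => by
    rw [hw, hw, Commute, SemiconjBy, D.x_mul_zero, D.x_mul_zero, add_comm E, add_comm F]
  have cF : ∀ t b, Commute (σ (L t)) (σ (w 0 b)) := fun t b => by
    rw [hL, hw, Commute, SemiconjBy, D.x_mul, D.x_mul]; simp [D.s_zero]
  have w_add : ∀ E F E' F', σ (w (E + E') (F + F')) = σ (w E F * w E' F') := fun E F E' F' => by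
    rw [map_mul, hw, hw, hw, D.x_mul_zero]
  -- the element minus one of the torus
  set m1 : Kˣ := -1 with hm1
  have hm1c : ((m1 : Kˣ) : K) = -1 := by simp [m1]
  have hsm1 : D.s (-1) = -1 := by rw [D.s_neg, D.s_one]
  have h3 : ∀ a : K, a + a + a = 0 := fun a => by linear_combination a * D.three
  -- A: the abelian layer lifts to an abelian group
  have hA : ∀ E F E' F', ⁅w E F, w E' F'⁆ = 1 := by
    let e : K → K → K → K → Additive σ.ker := fun E F E' F' =>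
      Additive.ofMul ⟨⁅w E F, w E' F'⁆, comm_mem_ker (cw E F E' F')⟩
    have el : ∀ E F E₂ F₂ E' F', e (E + E₂) (F + F₂) E' F' = e E F E' F' + e E₂ F₂ E' F' :=
      fun E F E₂ F₂ E' F' => Subtype.ext (by
        show ⁅w (E + E₂) (F + F₂), w E' F'⁆ = ⁅w E F, w E' F'⁆ * ⁅w E₂ F₂, w E' F'⁆
        rw [← comm_mul_left hc (cw E₂ F₂ E' F')]; exact comm_eq_of_map_eq hc (w_add _ _ _ _) rfl)
    have er : ∀ E F E₂ F₂ E' F', e E F (E₂ + E') (F₂ + F') = e E F E₂ F₂ + e E F E' F' :=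
      fun E F E₂ F₂ E' F' => Subtype.ext (by
        show ⁅w E F, w (E₂ + E') (F₂ + F')⁆ = ⁅w E F, w E₂ F₂⁆ * ⁅w E F, w E' F'⁆
        rw [← comm_mul_right hc (cw E F E' F')]; exact comm_eq_of_map_eq hc rfl (w_add _ _ _ _))
    have einv : ∀ (l : Kˣ) E F E' F', e ((l : K) * D.s (l : K) * E) ((l : K) ^ 2 * D.s (l : K) * F)
        ((l : K) * D.s (l : K) * E') ((l : K) ^ 2 * D.s (l : K) * F') = e E F E' F' :=
      fun l E F E' F' => Subtype.ext (by
        show ⁅w _ _, w _ _⁆ = ⁅w E F, w E' F'⁆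
        rw [← comm_conj hc (cw E F E' F') (g l)]
        refine comm_eq_of_map_eq hc ?_ ?_ <;> rw [hgw, hw])
    have hFF : ∀ a b, e 0 a 0 b = 0 := pairing_eq_zero (fun a b => e 0 a 0 b)
      (fun a b c => by have := el 0 a 0 b 0 c; rwa [add_zero] at this)
      (fun a b c => by have := er 0 a 0 b 0 c; rwa [add_zero] at this)
      (fun a => Subtype.ext (commutatorElement_self _))
      (fun r hr hsq a b => by
        obtain ⟨l, hl⟩ := D.sq_F r hr hsq
        have := einv l 0 a 0 b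
        rwa [mul_zero, hl] at this) h4 h9
    have hEE : ∀ a b, e a 0 b 0 = 0 := pairing_eq_zero (fun a b => e a 0 b 0)
      (fun a b c => by have := el a 0 b 0 c 0; rwa [add_zero] at this)
      (fun a b c => by have := er a 0 b 0 c 0; rwa [add_zero] at this)
      (fun a => Subtype.ext (commutatorElement_self _))
      (fun r hr hsq a b => by
        obtain ⟨l, hl⟩ := D.sq_E r hr hsq
        have := einv l a 0 b 0
        rwa [mul_zero, hl] at this) h4 h9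
    have hEF : ∀ a b, e a 0 0 b = 0 := by
      intro a b
      have r := fun b₁ b₂ => by
        have := er a 0 0 b₁ 0 b₂
        rwa [add_zero] at this
      have h0 : e a 0 0 0 = 0 := hEE a 0
      have h1 := einv m1 a 0 0 b
      rw [hm1c, hsm1] at h1
      norm_num at h1
      have h2 : e a 0 0 b + e a 0 0 b = 0 := by
        calc e a 0 0 b + e a 0 0 b = e a 0 0 (-b) + e a 0 0 b := by rw [h1]
          _ = e a 0 0 0 := by rw [← r, neg_add_cancel]
          _ = 0 := h0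
      refine eq_zero_of_two_three h2 ?_
      rw [← r, ← r, h3, h0]
    have hFE : ∀ a b, e 0 a b 0 = 0 := fun a b => Subtype.ext (by
      show ⁅w 0 a, w b 0⁆ = 1
      rw [← commutatorElement_inv]
      exact inv_eq_one.2 (congrArg (fun v : Additive σ.ker => ((Additive.toMul v : σ.ker) : Γ)) (hEF b a)))
    intro E F E' F'
    have h1 := el E 0 0 F E' F'
    rw [add_zero, zero_add] at h1
    have h2 := er E 0 E' 0 0 F'
    have h2' := er 0 F E' 0 0 F'
    rw [add_zero, zero_add] at h2 h2'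
    rw [h2, h2', hEE, hEF, hFE, hFF, add_zero, add_zero] at h1
    exact congrArg (fun v : Additive σ.ker => ((Additive.toMul v : σ.ker) : Γ)) h1
  -- B: the lifts of the centre are central over the unipotent part
  have hB : ∀ t b, ⁅L t, w 0 b⁆ = 1 := by
    let e : K → K → Additive σ.ker := fun t b =>
      Additive.ofMul ⟨⁅L t, w 0 b⁆, comm_mem_ker (cF t b)⟩
    have er : ∀ t b b', e t (b + b') = e t b + e t b' := fun t b b' => Subtype.ext (by
      show ⁅L t, w 0 (b + b')⁆ = ⁅L t, w 0 b⁆ * ⁅L t, w 0 b'⁆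
      rw [← comm_mul_right hc (cF t b')]
      exact comm_eq_of_map_eq hc rfl (by rw [← w_add, add_zero]))
    have el : ∀ t t' b, e (t + t') b = e t b + e t' b := fun t t' b => Subtype.ext (by
      show ⁅L (t + t'), w 0 b⁆ = ⁅L t, w 0 b⁆ * ⁅L t', w 0 b⁆
      have hsplit : σ (L t * L t') = σ (w (t' * D.s t) (t' ^ 2 * D.s t + t' * D.s t * (t + t')) * L (t + t')) := by
        rw [map_mul, map_mul, hL, hL, hw, hL, D.x_mul, D.x_mul]; simp [D.s_zero]
      have hw0 : Commute (σ (L (t + t'))) (σ (w 0 b)) := cF _ _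
      rw [← comm_mul_left hc (cF t' b), comm_eq_of_map_eq hc hsplit (rfl : σ (w 0 b) = _),
        comm_mul_left hc hw0, hA, one_mul])
    have einv : ∀ (l : Kˣ) t b, e ((l : K) * t) ((l : K) ^ 2 * D.s (l : K) * b) = e t b :=
      fun l t b => Subtype.ext (by
        show ⁅L _, w 0 _⁆ = ⁅L t, w 0 b⁆
        rw [← comm_conj hc (cF t b) (g l)]
        refine comm_eq_of_map_eq hc ?_ ?_
        · rw [hgL, hL]
        · rw [hgw, hw, mul_zero])
    let E₂ : K → K →+ Additive σ.ker := fun t => AddMonoidHom.mk' (e t) (er t)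
    obtain ⟨a, ha0, ha1, hac⟩ := D.nonadd
    have hk : ∀ k : K, k ≠ 0 → ∀ y, D.s k ≠ 0 → e k y = e 1 (y * (k ^ 2 * D.s k)⁻¹) := fun k hk y hsk => by
      have := einv (Units.mk0 k hk) 1 (y * (k ^ 2 * D.s k)⁻¹)
      rwa [Units.val_mk0, mul_one, mul_left_comm,
        mul_inv_cancel₀ (mul_ne_zero (pow_ne_zero _ hk) hsk), mul_one] at this
    have hsne : ∀ k : K, k ≠ 0 → D.s k ≠ 0 := fun k hk h => by
      have h2 := D.d_x (Units.mk0 k hk) 0 1 0
      simp [h, D.x_zero] at h2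
      exact one_ne_zero (D.x_inj (h2.trans D.x_zero.symm)).2.1
    have h1 : ∀ v, e 1 v = 0 := by
      intro v
      set y := v / (((1 + a) ^ 2 * D.s (1 + a))⁻¹ - 1 - (a ^ 2 * D.s a)⁻¹) with hy
      have e1 := el 1 a y
      rw [hk _ ha1 y (hsne _ ha1), hk _ ha0 y (hsne _ ha0)] at e1
      have e2 : v = y * ((1 + a) ^ 2 * D.s (1 + a))⁻¹ - y - y * (a ^ 2 * D.s a)⁻¹ := by
        calc v = y * (((1 + a) ^ 2 * D.s (1 + a))⁻¹ - 1 - (a ^ 2 * D.s a)⁻¹) := by
              rw [hy, div_mul_cancel₀ _ hac]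
          _ = _ := by ring
      show E₂ 1 v = 0
      rw [e2, map_sub, map_sub]
      show e 1 _ - e 1 y - e 1 _ = 0
      rw [e1]; abel
    intro t y
    have : e t y = 0 := by
      rcases eq_or_ne t 0 with rfl | ht
      · have := el 0 0 y; rw [add_zero] at this; exact left_eq_add.1 this
      · rw [hk t ht y (hsne t ht), h1]
    exact congrArg (fun v : Additive σ.ker => ((Additive.toMul v : σ.ker) : Γ)) this
  -- C: a complement over the abelian layer
  obtain ⟨l0, hl0⟩ := D.ne_E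
  have hd0 : (l0 : K) * D.s (l0 : K) - 1 ≠ 0 := sub_ne_zero.2 hl0
  have hcommW : ∀ {v v' : Γ} {E F E' F' : K}, σ v = D.x 0 E F → σ v' = D.x 0 E' F' → Commute v v' := by
    intro v v' E F E' F' h h'
    rw [← commutatorElement_eq_one_iff_commute,
      comm_eq_of_map_eq hc (a' := w E F) (b' := w E' F') (by rw [h, hw]) (by rw [h', hw]), hA]
  let lE : K → Γ := fun a => ⁅g l0, w (a / ((l0 : K) * D.s (l0 : K) - 1)) 0⁆
  let lF : K → Γ := fun b => ⁅g m1, w 0 b⁆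
  have hlE : ∀ a, σ (lE a) = D.x 0 a 0 := fun a => by
    show σ (g l0 * w _ 0 * (g l0)⁻¹ * (w _ 0)⁻¹) = _
    rw [map_mul, hgw, map_inv, hw, D.x_inv_zero, D.x_mul_zero, mul_zero, neg_zero, add_zero,
      ← sub_eq_add_neg, ← sub_one_mul, mul_div_cancel₀ _ hd0]
  have hlF : ∀ b, σ (lF b) = D.x 0 0 b := fun b => by
    show σ (g m1 * w 0 b * (g m1)⁻¹ * (w 0 b)⁻¹) = _
    rw [map_mul, hgw, map_inv, hw, D.x_inv_zero, D.x_mul_zero, hm1c, hsm1]
    congr 1 <;> first | (linear_combination (-b) * D.three) | simp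
  have hadd : ∀ (γ v v' v'' : Γ) (E F E' F' : K), σ v = D.x 0 E F → σ v' = D.x 0 E' F' →
      σ v'' = σ (v * v') → (∃ E₁ F₁, σ (γ * v' * γ⁻¹) = D.x 0 E₁ F₁) → ⁅γ, v''⁆ = ⁅γ, v⁆ * ⁅γ, v'⁆ := by
    intro γ v v' v'' E F E' F' hv hv' hv'' ⟨E₁, F₁, h₁⟩
    rw [comm_eq_of_map_eq hc rfl hv'']
    have h2 : σ ⁅γ, v'⁆ = D.x 0 (E₁ + -E') (F₁ + -F') := by
      show σ (γ * v' * γ⁻¹ * v'⁻¹) = _
      rw [map_mul, h₁, map_inv, hv', D.x_inv_zero, D.x_mul_zero]
    calc ⁅γ, v * v'⁆ = ⁅γ, v⁆ * (v * ⁅γ, v'⁆ * v⁻¹) := by simp only [commutatorElement_def]; group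
      _ = ⁅γ, v⁆ * ⁅γ, v'⁆ := by rw [(hcommW hv h2).eq, mul_inv_cancel_right]
  have hEadd : ∀ a a', lE (a + a') = lE a * lE a' := fun a a' =>
    hadd _ _ _ _ _ _ _ _ (hw _ _) (hw _ _)
      (by rw [← w_add, add_zero, add_div]) ⟨_, _, hgw _ _ _⟩
  have hFadd : ∀ a a', lF (a + a') = lF a * lF a' := fun a a' =>
    hadd _ _ _ _ _ _ _ _ (hw _ _) (hw _ _) (by rw [← w_add, add_zero]) ⟨_, _, hgw _ _ _⟩
  let ℓ : K → K → Γ := fun a b => lE a * lF b
  have hℓ : ∀ a b, σ (ℓ a b) = D.x 0 a b := fun a b => by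
    show σ (lE a * lF b) = _
    rw [map_mul, hlE, hlF, D.x_mul_zero, add_zero, zero_add]
  have hℓadd : ∀ a b a' b', ℓ (a + a') (b + b') = ℓ a b * ℓ a' b' := fun a b a' b' => by
    show lE _ * lF _ = lE a * lF b * (lE a' * lF b')
    rw [hEadd, hFadd, mul_assoc (lE a), ← mul_assoc (lE a'), (hcommW (hlE a') (hlF b)).eq]
    simp only [mul_assoc]
  have hℓ0 : ℓ 0 0 = 1 := by
    have := hℓadd 0 0 0 0
    rw [add_zero] at this
    exact left_eq_mul.1 this
  have hℓinv : ∀ a b, (ℓ a b)⁻¹ = ℓ (-a) (-b) := fun a b =>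
    inv_eq_of_mul_eq_one_right (by rw [← hℓadd, add_neg_cancel, add_neg_cancel, hℓ0])
  -- the key lemma
  have key : ∀ {k : Γ} {a b : K}, k ∈ σ.ker → k = ℓ a b → k = 1 := by
    intro k a b hk he
    have h1 : D.x 0 a b = D.x 0 0 0 := by rw [← hℓ, ← he, D.x_zero]; exact hk
    obtain ⟨-, rfl, rfl⟩ := D.x_inj h1
    rw [he, hℓ0]
  have hequi : ∀ (l : Kˣ) a b, g l * ℓ a b * (g l)⁻¹ =
      ℓ ((l : K) * D.s (l : K) * a) ((l : K) ^ 2 * D.s (l : K) * b) := by
    intro l a b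
    have hsw : ∀ l' : Kˣ, σ (g l * g l' * (g l)⁻¹) = σ (g l') := fun l' => by
      rw [map_mul, map_mul, map_inv, hg, hg, (D.d_comm l l').eq, mul_inv_cancel_right]
    show g l * (lE a * lF b) * (g l)⁻¹ = lE _ * lF _
    rw [← MulAut.conj_apply, map_mul, MulAut.conj_apply, MulAut.conj_apply]
    congr 1
    · show g l * ⁅g l0, _⁆ * (g l)⁻¹ = ⁅g l0, _⁆
      rw [conjugate_commutatorElement]
      refine comm_eq_of_map_eq hc (hsw _) ?_
      rw [hgw, hw, mul_zero, mul_div_assoc]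
    · show g l * ⁅g m1, _⁆ * (g l)⁻¹ = ⁅g m1, _⁆
      rw [conjugate_commutatorElement]
      refine comm_eq_of_map_eq hc (hsw _) ?_
      rw [hgw, hw, mul_zero]
  -- D: the action of the lifts of the first layer on the complement
  have cLw : ∀ t E F, σ ⁅L t, w E F⁆ = D.x 0 0 (E * t) := fun t E F => by
    rw [map_commutatorElement, hL, hw, commutatorElement_def, mul_inv_eq_iff_eq_mul,
      mul_inv_eq_iff_eq_mul, D.x_mul, mul_assoc, D.x_mul, D.x_mul]
    simp [D.s_zero]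
  have hsplitw : ∀ t E F, ⁅L t, w E F⁆ = ⁅L t, w E 0⁆ := fun t E F => by
    rw [comm_eq_of_map_eq hc (rfl : σ (L t) = _)
      (show σ (w E F) = σ (w E 0 * w 0 F) by rw [← w_add, add_zero, zero_add]),
      comm_mul_right hc (cF t F), hB, mul_one]
  have hcentF : ∀ t {v : Γ} {b : K}, σ v = D.x 0 0 b → Commute (L t) v := fun t {v b} hv => by
    rw [← commutatorElement_eq_one_iff_commute, comm_eq_of_map_eq hc rfl (b' := w 0 b) (by rw [hv, hw]), hB]
  have hD : ∀ t E, ⁅L t, w E 0⁆ = ℓ 0 (E * t) := by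
    have hk : ∀ t E, ⁅L t, w E 0⁆ * (ℓ 0 (E * t))⁻¹ ∈ σ.ker := fun t E => by
      rw [MonoidHom.mem_ker, map_mul, map_inv, cLw, hℓ, mul_inv_cancel]
    let e : K → K → Additive σ.ker := fun t E => Additive.ofMul ⟨_, hk t E⟩
    have er : ∀ t E E', e t (E + E') = e t E + e t E' := fun t E E' => Subtype.ext (by
      show ⁅L t, w (E + E') 0⁆ * (ℓ 0 ((E + E') * t))⁻¹ =
        (⁅L t, w E 0⁆ * (ℓ 0 (E * t))⁻¹) * (⁅L t, w E' 0⁆ * (ℓ 0 (E' * t))⁻¹)
      have h1 : ⁅L t, w (E + E') 0⁆ = ⁅L t, w E 0⁆ * ⁅L t, w E' 0⁆ := by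
        rw [comm_eq_of_map_eq hc (rfl : σ (L t) = _)
          (show σ (w (E + E') 0) = σ (w E 0 * w E' 0) by rw [← w_add, add_zero])]
        calc ⁅L t, w E 0 * w E' 0⁆ = ⁅L t, w E 0⁆ * (w E 0 * ⁅L t, w E' 0⁆ * (w E 0)⁻¹) := by
              simp only [commutatorElement_def]; group
          _ = _ := by rw [(hcommW (hw E 0) (cLw t E' 0)).eq, mul_inv_cancel_right]
      rw [h1, add_mul, ← zero_add (0 : K), hℓadd, add_zero, _root_.mul_inv_rev]
      have hk' := ker_comm hc (hk t E') (ℓ 0 (E * t))⁻¹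
      calc ⁅L t, w E 0⁆ * ⁅L t, w E' 0⁆ * ((ℓ 0 (E' * t))⁻¹ * (ℓ 0 (E * t))⁻¹)
          = ⁅L t, w E 0⁆ * ((⁅L t, w E' 0⁆ * (ℓ 0 (E' * t))⁻¹) * (ℓ 0 (E * t))⁻¹) := by group
        _ = _ := by rw [← hk']; group)
    intro t E
    have h0 : e t 0 = 0 := by have := er t 0 0; rw [add_zero] at this; exact left_eq_add.1 this
    have h1 : e t E = e t (-E) := by
      -- conjugate by minus one, then absorb the sign
      have h1 : g m1 * (⁅L t, w E 0⁆ * (ℓ 0 (E * t))⁻¹) * (g m1)⁻¹ = ⁅L (-t), w E 0⁆ * (ℓ 0 (E * -t))⁻¹ := by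
        rw [← MulAut.conj_apply, map_mul, map_inv, MulAut.conj_apply, MulAut.conj_apply, hequi,
          conjugate_commutatorElement, hm1c, hsm1]
        congr 1
        · refine comm_eq_of_map_eq hc ?_ ?_
          · rw [hgL, hL, hm1c, neg_one_mul]
          · rw [hgw, hw, hm1c, hsm1]; simp
        · congr 2 <;> ring
      rw [ker_comm hc (hk t E) (g m1), mul_inv_cancel_right] at h1
      -- the left inverse in the first variable
      refine Subtype.ext ?_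
      show ⁅L t, w E 0⁆ * (ℓ 0 (E * t))⁻¹ = ⁅L t, w (-E) 0⁆ * (ℓ 0 (-E * t))⁻¹
      rw [h1]
      have hLL : σ (L t * L (-t)) = σ (w ((-t) * D.s t) ((-t) ^ 2 * D.s t)) := by
        rw [map_mul, hL, hL, hw, D.x_mul]; simp
      have h2 : ⁅L t * L (-t), w E 0⁆ = 1 := by
        rw [comm_eq_of_map_eq hc hLL (rfl : σ (w E 0) = _), hA]
      have h3' : L t * ⁅L (-t), w E 0⁆ * (L t)⁻¹ * ⁅L t, w E 0⁆ = 1 := by
        rw [← h2]; simp only [commutatorElement_def]; group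
      rw [(hcentF t (cLw (-t) E 0)).eq, mul_inv_cancel_right] at h3'
      have h4' : ⁅L t, w (-E) 0⁆ * ⁅L t, w E 0⁆ = 1 := by
        have h5 : ⁅L t, w (-E) 0 * w E 0⁆ = 1 := by
          rw [comm_eq_of_map_eq hc (rfl : σ (L t) = _) (b' := w 0 0) (by rw [← w_add, neg_add_cancel, add_zero]), hB]
        rw [← h5]
        calc ⁅L t, w (-E) 0⁆ * ⁅L t, w E 0⁆
            = ⁅L t, w (-E) 0⁆ * (w (-E) 0 * ⁅L t, w E 0⁆ * (w (-E) 0)⁻¹) := by
              rw [(hcommW (hw (-E) 0) (cLw t E 0)).eq, mul_inv_cancel_right]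
          _ = _ := by simp only [commutatorElement_def]; group
      rw [eq_inv_of_mul_eq_one_left h3', eq_inv_of_mul_eq_one_left h4', mul_neg, neg_mul]
    have h2 : e t E + e t E = 0 := by
      calc e t E + e t E = e t (-E) + e t E := by rw [← h1]
        _ = e t 0 := by rw [← er, neg_add_cancel]
        _ = 0 := h0
    have : e t E = 0 := eq_zero_of_two_three h2 (by rw [← er, ← er, h3, h0])
    exact mul_inv_eq_one.1 (congrArg (fun v : Additive σ.ker => ((Additive.toMul v : σ.ker) : Γ)) this)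
  have hconj : ∀ t a b, L t * ℓ a b * (L t)⁻¹ = ℓ a (b + a * t) := fun t a b => by
    have h1 : ⁅L t, ℓ a b⁆ = ℓ 0 (a * t) := by
      rw [comm_eq_of_map_eq hc rfl (b' := w a b) (by rw [hℓ, hw]), hsplitw, hD]
    calc L t * ℓ a b * (L t)⁻¹ = ⁅L t, ℓ a b⁆ * ℓ a b := by simp only [commutatorElement_def]; group
      _ = _ := by rw [h1, ← hℓadd, zero_add, add_comm b]
  -- E: the first layer
  have hcoord : ∀ t t', ∃ p : K × K, σ ⁅L t, L t'⁆ = D.x 0 p.1 p.2 := by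
    intro t t'
    have hin : σ ⁅L t, L t'⁆ ∈ U := by
      have hm : ∀ r, σ (L r) ∈ U := fun r => (hU _).2 ⟨r, 0, 0, hL r⟩
      rw [map_commutatorElement, commutatorElement_def]
      exact mul_mem (mul_mem (mul_mem (hm t) (hm t')) (inv_mem (hm t))) (inv_mem (hm t'))
    obtain ⟨T, E, F, he⟩ := (hU _).1 hin
    have h1 : σ ⁅L t, L t'⁆ * (σ (L t') * σ (L t)) = σ (L t) * σ (L t') := by
      rw [← map_mul, ← map_mul, ← map_mul]
      congr 1
      simp only [commutatorElement_def]; group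
    rw [he, hL, hL, D.x_mul, D.x_mul, D.x_mul] at h1
    have hT : T = 0 := by linear_combination (D.x_inj h1).1
    exact ⟨(E, F), by rw [he, hT]⟩
  choose C hC using hcoord
  have hk : ∀ t t', ⁅L t, L t'⁆ * (ℓ (C t t').1 (C t t').2)⁻¹ ∈ σ.ker := fun t t' => by
    rw [MonoidHom.mem_ker, map_mul, map_inv, hℓ, hC, mul_inv_cancel]
  let kk : K → K → Γ := fun t t' => ⁅L t, L t'⁆ * (ℓ (C t t').1 (C t t').2)⁻¹
  have hkk : ∀ t t', ⁅L t, L t'⁆ = kk t t' * ℓ (C t t').1 (C t t').2 := fun t t' => by simp [kk]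
  have hkc : ∀ t t' γ, γ * kk t t' = kk t t' * γ := fun t t' γ => ker_comm hc (hk t t') γ
  have hcmp : ∀ {k k' : Γ} {a b a' b' : K}, k ∈ σ.ker → k' ∈ σ.ker → k * ℓ a b = k' * ℓ a' b' → k = k' := by
    intro k k' a b a' b' hk1 hk2 he
    have h1 : k'⁻¹ * k = ℓ a' b' * (ℓ a b)⁻¹ := by
      rw [eq_mul_inv_iff_mul_eq, mul_assoc, he, inv_mul_cancel_left]
    rw [hℓinv, ← hℓadd] at h1
    exact (inv_mul_eq_one.1 (key (mul_mem (inv_mem hk2) hk1) h1)).symm
  let e : K → K → Additive σ.ker := fun t t' => Additive.ofMul ⟨kk t t', hk t t'⟩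
  have el : ∀ t₁ t₂ t', e (t₁ + t₂) t' = e t₁ t' + e t₂ t' := fun t₁ t₂ t' => Subtype.ext (by
    show kk (t₁ + t₂) t' = kk t₁ t' * kk t₂ t'
    set p1 := t₂ * D.s t₁
    set p2 := t₂ ^ 2 * D.s t₁ + t₂ * D.s t₁ * (t₁ + t₂)
    have hsplit : σ (L t₁ * L t₂) = σ (ℓ p1 p2 * L (t₁ + t₂)) := by
      rw [map_mul, map_mul, hL, hL, hℓ, hL, D.x_mul, D.x_mul]; simp [D.s_zero, p1, p2]
    have hl : ⁅L t₁ * L t₂, L t'⁆ = kk t₁ t' * kk t₂ t' *
        ℓ ((C t₂ t').1 + (C t₁ t').1) ((C t₂ t').2 + (C t₂ t').1 * t₁ + (C t₁ t').2) := by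
      calc ⁅L t₁ * L t₂, L t'⁆ = L t₁ * ⁅L t₂, L t'⁆ * (L t₁)⁻¹ * ⁅L t₁, L t'⁆ := by
            simp only [commutatorElement_def]; group
        _ = _ := by
            rw [hkk t₂, hkk t₁, hℓadd, ← hconj]
            calc L t₁ * (kk t₂ t' * ℓ (C t₂ t').1 (C t₂ t').2) * (L t₁)⁻¹ * (kk t₁ t' * ℓ (C t₁ t').1 (C t₁ t').2)
                = (L t₁ * kk t₂ t') * ℓ (C t₂ t').1 (C t₂ t').2 * (L t₁)⁻¹ * kk t₁ t' * ℓ (C t₁ t').1 (C t₁ t').2 := by
                  group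
              _ = (kk t₂ t' * L t₁) * ℓ (C t₂ t').1 (C t₂ t').2 * (L t₁)⁻¹ * kk t₁ t' * ℓ (C t₁ t').1 (C t₁ t').2 := by
                  rw [hkc t₂ t' (L t₁)]
              _ = kk t₂ t' * ((L t₁ * ℓ (C t₂ t').1 (C t₂ t').2 * (L t₁)⁻¹) * kk t₁ t') * ℓ (C t₁ t').1 (C t₁ t').2 := by
                  group
              _ = kk t₂ t' * (kk t₁ t' * (L t₁ * ℓ (C t₂ t').1 (C t₂ t').2 * (L t₁)⁻¹)) * ℓ (C t₁ t').1 (C t₁ t').2 := by
                  rw [hkc t₁ t' (L t₁ * ℓ (C t₂ t').1 (C t₂ t').2 * (L t₁)⁻¹)]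
              _ = _ := by rw [← hkc t₁ t' (kk t₂ t')]; group
    have hr : ⁅ℓ p1 p2 * L (t₁ + t₂), L t'⁆ = kk (t₁ + t₂) t' *
        ℓ ((C (t₁ + t₂) t').1 + 0) ((C (t₁ + t₂) t').2 + -(p1 * t')) := by
      calc ⁅ℓ p1 p2 * L (t₁ + t₂), L t'⁆
          = ℓ p1 p2 * ⁅L (t₁ + t₂), L t'⁆ * (ℓ p1 p2)⁻¹ * ⁅L t', ℓ p1 p2⁆⁻¹ := by
            simp only [commutatorElement_def]; group
        _ = _ := by
            rw [(hcommW (hℓ p1 p2) (hC (t₁ + t₂) t')).eq, mul_inv_cancel_right,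
              comm_eq_of_map_eq hc (a := L t') (a' := L t') rfl (b := ℓ p1 p2) (b' := w p1 p2)
                (by rw [hℓ, hw]), hsplitw, hD, hkk, hℓinv, neg_zero,
              hℓadd, mul_assoc]
    exact hcmp (hk _ _) (mul_mem (hk _ _) (hk _ _))
      ((hr.symm.trans (comm_eq_of_map_eq hc hsplit rfl).symm).trans hl))
  have hskew : ∀ t t', e t' t = -e t t' := fun t t' => Subtype.ext (by
    show kk t' t = (kk t t')⁻¹
    have h1 : ⁅L t', L t⁆ = (kk t t')⁻¹ * ℓ (-(C t t').1) (-(C t t').2) := by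
      rw [← commutatorElement_inv, hkk, ← hℓinv, _root_.mul_inv_rev]
      exact ker_comm hc (inv_mem (hk t t')) _
    exact hcmp (hk _ _) (inv_mem (hk _ _)) ((hkk t' t).symm.trans h1))
  have hE : ∀ t t', e t t' = 0 := pairing_eq_zero e el
    (fun a b c => by rw [hskew (b + c), hskew b, hskew c, el, neg_add])
    (fun a => Subtype.ext (key (hk a a) (by
      show ⁅L a, L a⁆ * (ℓ (C a a).1 (C a a).2)⁻¹ = ℓ (-(C a a).1) (-(C a a).2)
      rw [commutatorElement_self, one_mul, hℓinv])))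
    (fun r hr _ a b => Subtype.ext (by
      show kk (r * a) (r * b) = kk a b
      set l : Kˣ := Units.mk0 r hr
      have h1 : g l * ⁅L a, L b⁆ * (g l)⁻¹ = ⁅L (r * a), L (r * b)⁆ := by
        rw [conjugate_commutatorElement]
        refine comm_eq_of_map_eq hc ?_ ?_ <;> rw [hgL, hL, Units.val_mk0]
      rw [hkk, hkk, ← mul_assoc, hkc, mul_assoc, mul_assoc, ← mul_assoc (g l), hequi] at h1
      exact (hcmp (hk _ _) (hk _ _) h1).symm)) h4 h9
  have hLL : ∀ t t', ⁅L t, L t'⁆ = ℓ (C t t').1 (C t t').2 := fun t t' => by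
    rw [hkk, show kk t t' = 1 from congrArg (fun v : Additive σ.ker => ((Additive.toMul v : σ.ker) : Γ)) (hE t t'),
      one_mul]
  -- conclusion
  let N : Subgroup Γ :=
    { carrier := {y | ∃ a b, y = ℓ a b}
      one_mem' := ⟨0, 0, hℓ0.symm⟩
      mul_mem' := by rintro _ _ ⟨a, b, rfl⟩ ⟨a', b', rfl⟩; exact ⟨_, _, (hℓadd a b a' b').symm⟩
      inv_mem' := by rintro _ ⟨a, b, rfl⟩; exact ⟨_, _, hℓinv a b⟩ }
  let S : Set Γ := {y | (∃ t, y = L t) ∨ y ∈ N}
  have hUS : U = Subgroup.closure (σ '' S) := by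
    refine le_antisymm (fun y hy => ?_) ((Subgroup.closure_le _).2 ?_)
    · obtain ⟨t, E, F, rfl⟩ := (hU y).1 hy
      rw [show D.x t E F = σ (L t) * σ (ℓ E F) by rw [hL, hℓ, D.x_mul]; simp]
      exact mul_mem (Subgroup.subset_closure ⟨_, Or.inl ⟨t, rfl⟩, rfl⟩)
        (Subgroup.subset_closure ⟨_, Or.inr ⟨E, F, rfl⟩, rfl⟩)
    · rintro _ ⟨y, ⟨t, rfl⟩ | ⟨a, b, rfl⟩, rfl⟩
      · exact (hU _).2 ⟨t, 0, 0, hL t⟩
      · exact (hU _).2 ⟨0, a, b, hℓ a b⟩
  rw [hUS] at hz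
  have hzN : z ∈ N := by
    refine commutator_comap_closure_le hc S N (fun y hy => ?_) ?_ hz
    · rcases hy with ⟨t, rfl⟩ | hy
      · rw [Subgroup.mem_normalizer_iff]
        intro v
        constructor
        · rintro ⟨a, b, rfl⟩; exact ⟨_, _, hconj t a b⟩
        · rintro ⟨a, b, hab⟩
          refine ⟨a, b + -(a * t), mul_left_cancel (a := L t) (mul_right_cancel (b := (L t)⁻¹) ?_)⟩
          rw [hab, hconj, neg_add_cancel_right]
      · exact Subgroup.le_normalizer hy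
    · rintro _ (⟨t, rfl⟩ | ⟨a, b, rfl⟩) _ (⟨t', rfl⟩ | ⟨a', b', rfl⟩)
      · exact ⟨_, _, hLL t t'⟩
      · exact ⟨0, a' * t, by rw [comm_eq_of_map_eq hc rfl (b' := w a' b') (by rw [hℓ, hw]), hsplitw, hD]⟩
      · rw [← commutatorElement_inv]
        exact inv_mem ⟨0, a * t', by rw [comm_eq_of_map_eq hc rfl (b' := w a b) (by rw [hℓ, hw]), hsplitw, hD]⟩
      · rw [commutatorElement_eq_one_iff_commute.2 (hcommW (hℓ a b) (hℓ a' b'))]
        exact one_mem N
  obtain ⟨a, b, rfl⟩ := hzN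
  exact key hzk rfl

end CfsgLib.SchurMult.ReePart
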