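import Cfsg.Agent.Lib.SchurMult.Criterion
import Cfsg.Agent.Lib.SchurMult.CentralComm
import Cfsg.Agent.Lib.SchurMult.FieldPairing
import Cfsg.Agent.Lib.Suzuki.Centralizers
import Cfsg.Agent.Lib.Suzuki.LieBridge

/-!
The Schur multiplier of `Sz(q)`, `q ≥ 32`, is trivial.
-/

set_option autoImplicit false
set_option linter.style.haveILetI false

namespace CfsgLib.SchurMult

open CfsgLib.Suzuki
open Polynomial (X C eval)
open scoped commutatorElement

universe u v

variable {F : Type u} [Field F] {m : ℕ}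

/-- For `q ≥ 32` the map `x ↦ (θ x · x)⁻¹` is not additive. -/
theorem suzuki_not_additive (h : Hyp F m) (hm : 2 ≤ m) :
    ∃ x : F, x ≠ 0 ∧ 1 + x ≠ 0 ∧
      (th m (1 + x) * (1 + x))⁻¹ - 1 - (th m x * x)⁻¹ ≠ 0 := by
  haveI := h.finite
  letI : Fintype F := Fintype.ofFinite F
  set N := 2 ^ (m + 1) with hN
  let P : Polynomial F := X * (1 + X) *
    ((1 + X ^ N) * (1 + X) * (X ^ N * X + 1) + X ^ N * X)
  have hN1 : 1 ≤ N := Nat.one_le_two_pow
  have hP : P ≠ 0 := by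
    have h0 : ((1 + X ^ N) * (1 + X) * (X ^ N * X + 1) + X ^ N * X : Polynomial F).eval 0 = 1 := by
      simp [zero_pow (show N ≠ 0 by omega)]
    have h1 : (X : Polynomial F) ≠ 0 := Polynomial.X_ne_zero
    have h2 : (1 + X : Polynomial F) ≠ 0 := fun e => by simpa using congrArg (eval 0) e
    have h3 : ((1 + X ^ N) * (1 + X) * (X ^ N * X + 1) + X ^ N * X : Polynomial F) ≠ 0 := fun e => by
      rw [e] at h0; simp at h0
    exact mul_ne_zero (mul_ne_zero h1 h2) h3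
  have hdeg : P.natDegree < Fintype.card F := by
    have hle : P.natDegree ≤ 2 * N + 4 := by
      simp only [P]
      compute_degree
      all_goals omega
    have hq : Fintype.card F = 2 ^ (2 * m + 1) := by rw [← Nat.card_eq_fintype_card]; exact h.card
    have h8 : 8 ≤ 2 ^ (m + 1) := by
      calc 8 = 2 ^ 3 := by norm_num
        _ ≤ _ := Nat.pow_le_pow_right (by norm_num) (by omega)
    have h4 : 4 ≤ 2 ^ m := by
      calc 4 = 2 ^ 2 := by norm_num
        _ ≤ _ := Nat.pow_le_pow_right (by norm_num) hm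
    have : 4 * N ≤ 2 ^ (2 * m + 1) := by
      rw [show 2 * m + 1 = m + (m + 1) by ring, pow_add]
      exact Nat.mul_le_mul_right _ h4
    omega
  obtain ⟨x, hx⟩ := exists_eval_ne_zero P hP hdeg
  simp only [P, Polynomial.eval_mul, Polynomial.eval_add, Polynomial.eval_one, Polynomial.eval_X,
    Polynomial.eval_pow, ne_eq, mul_eq_zero, not_or] at hx
  obtain ⟨⟨hx0, hx1⟩, hx2⟩ := hx
  refine ⟨x, hx0, hx1, fun e => hx2 ?_⟩
  have ha : th m (1 + x) ≠ 0 := th_ne_zero hx1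
  have hb : th m x ≠ 0 := th_ne_zero hx0
  field_simp at e
  rw [h.th_add] at e
  simp only [th, one_pow, ← hN] at e
  linear_combination (-1 : F) * e + ((x ^ N * x) : F) * h.two_eq_zero

/-- Every finite stem extension of `Sz(q)`, `q ≥ 32`, is an isomorphism. -/
theorem suzuki_hasCyclicSchurMultiplier_one (h : Hyp F m) (hm : 2 ≤ m) :
    Cfsg.HasCyclicSchurMultiplier (Cfsg.Sz F m) 1 := by
  haveI := h.finite
  haveI := h.finite_group
  letI : Fintype F := Fintype.ofFinite F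
  refine hasCyclicSchurMultiplier_one_of_local fun Γ _ _ σ hσ p hp _ => ?_
  haveI := Fact.mk hp
  have hc := hσ.2.1
  rcases ne_or_eq p 2 with hp2 | rfl
  · obtain ⟨P⟩ : Nonempty (Sylow p (Cfsg.Sz F m)) := inferInstance
    haveI := h.isCyclic_of_odd_pGroup hp2 (P : Subgroup _) P.isPGroup'
    refine ⟨P, P.not_dvd_index, fun z hz _ => ?_⟩
    rwa [commutator_comap_eq_bot_of_isCyclic hc hσ.1, Subgroup.mem_bot] at hz
  refine ⟨h.U, by rw [← h.sylU_coe]; exact h.sylU.not_dvd_index, fun z hz hzk => ?_⟩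
  have hq : Fintype.card F = 2 ^ (2 * m + 1) := by rw [← Nat.card_eq_fintype_card]; exact h.card
  have hq32 : 32 ≤ Fintype.card F := by
    rw [hq]
    calc 32 = 2 ^ 5 := by norm_num
      _ ≤ _ := Nat.pow_le_pow_right (by norm_num) (by omega)
  have h4 : Fintype.card F ≠ 4 := by omega
  have h9 : Fintype.card F ≠ 9 := by omega
  letI : CommGroup σ.ker :=
    { mul_comm := fun x y => Subtype.ext (Subgroup.mem_center_iff.1 (hc y.2) (x : Γ)) }
  obtain ⟨L, hL⟩ : ∃ L : F → F → Γ, ∀ a b, σ (L a b) = h.u a b :=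
    ⟨fun a b => (hσ.1 (h.u a b)).choose, fun a b => (hσ.1 (h.u a b)).choose_spec⟩
  have hu0 : ∀ a b, σ (L a b) = h.u a 0 * h.u 0 b := fun a b => by rw [hL, h.u_mul]; simp
  have hcz : ∀ a b y, Commute (σ (L a b)) (σ (L 0 y)) := fun a b y => by
    rw [hL, hL, Commute, SemiconjBy, h.u_mul, h.u_mul]
    simp only [add_zero, zero_add, mul_zero, th_zero, zero_mul, add_comm b y]
  have hz_add : ∀ x y, σ (L 0 (x + y)) = σ (L 0 x * L 0 y) := fun x y => by
    rw [map_mul, hL, hL, hL, h.u_mul]; simp [th_zero]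
  obtain ⟨g, hg⟩ : ∃ g : Fˣ → Γ, ∀ t, σ (g t) = h.d t :=
    ⟨fun t => (hσ.1 (h.d t)).choose, fun t => (hσ.1 (h.d t)).choose_spec⟩
  have hgu : ∀ t a b, σ (g t * L a b * (g t)⁻¹) = h.u (kap m t * a) (th m (kap m t) * kap m t * b) :=
    fun t a b => by rw [map_mul, map_mul, map_inv, hg, hL, h.d_u]
  have hmu : ∀ s : F, s ≠ 0 → ∃ t : Fˣ, th m (kap m t) * kap m t = s := fun s hs => by
    obtain ⟨k, hk⟩ := h.th_mul_self_bijective.2 s
    obtain ⟨t, rfl⟩ := h.exists_kap (κ := k) (fun e => hs (by rw [← hk, e]; simp))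
    exact ⟨t, hk⟩
  -- A: the lifts of the centre of `U` commute
  have hA : ∀ x y, ⁅L 0 x, L 0 y⁆ = 1 := by
    intro x y
    let e : F → F → Additive σ.ker := fun a b =>
      Additive.ofMul ⟨⁅L 0 a, L 0 b⁆, comm_mem_ker (hcz 0 a b)⟩
    have key := pairing_eq_zero e
      (fun a b c => Subtype.ext (by
        show ⁅L 0 (a + b), L 0 c⁆ = ⁅L 0 a, L 0 c⁆ * ⁅L 0 b, L 0 c⁆
        rw [← comm_mul_left hc (hcz 0 b c)]; exact comm_eq_of_map_eq hc (hz_add a b) rfl))
      (fun a b c => Subtype.ext (by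
        show ⁅L 0 a, L 0 (b + c)⁆ = ⁅L 0 a, L 0 b⁆ * ⁅L 0 a, L 0 c⁆
        rw [← comm_mul_right hc (hcz 0 a c)]; exact comm_eq_of_map_eq hc rfl (hz_add b c)))
      (fun a => Subtype.ext (commutatorElement_self _))
      (fun s hs _ a b => Subtype.ext (by
        show ⁅L 0 (s * a), L 0 (s * b)⁆ = ⁅L 0 a, L 0 b⁆
        obtain ⟨t, rfl⟩ := hmu s hs
        rw [← comm_conj hc (hcz 0 a b) (g t)]
        refine comm_eq_of_map_eq hc ?_ ?_ <;> rw [hgu, hL, mul_zero]))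
      h4 h9 x y
    exact congrArg (fun w : Additive σ.ker => ((Additive.toMul w : σ.ker) : Γ)) key
  -- B: they commute with all lifts
  have hB : ∀ a y, ⁅L a 0, L 0 y⁆ = 1 := by
    let e : F → F → Additive σ.ker := fun a y =>
      Additive.ofMul ⟨⁅L a 0, L 0 y⁆, comm_mem_ker (hcz a 0 y)⟩
    have er : ∀ a y y', e a (y + y') = e a y + e a y' := fun a y y' => Subtype.ext (by
      show ⁅L a 0, L 0 (y + y')⁆ = ⁅L a 0, L 0 y⁆ * ⁅L a 0, L 0 y'⁆
      rw [← comm_mul_right hc (hcz a 0 y')]; exact comm_eq_of_map_eq hc rfl (hz_add y y'))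
    have el : ∀ a a' y, e (a + a') y = e a y + e a' y := fun a a' y => Subtype.ext (by
      show ⁅L (a + a') 0, L 0 y⁆ = ⁅L a 0, L 0 y⁆ * ⁅L a' 0, L 0 y⁆
      rw [← comm_mul_left hc (hcz a' 0 y),
        comm_eq_of_map_eq hc (a := L a 0 * L a' 0) (a' := L (a + a') 0 * L 0 (th m a * a'))
          (by rw [map_mul, map_mul, hL, hL, hL, hL, h.u_mul, h.u_mul]; simp) rfl,
        comm_mul_left hc (hcz 0 _ y), hA, mul_one])
    have einv : ∀ (k : F), k ≠ 0 → ∀ a y, e (k * a) (th m k * k * y) = e a y := fun k hk a y => Subtype.ext (by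
      show ⁅L (k * a) 0, L 0 (th m k * k * y)⁆ = ⁅L a 0, L 0 y⁆
      obtain ⟨t, rfl⟩ := h.exists_kap hk
      rw [← comm_conj hc (hcz a 0 y) (g t)]
      refine comm_eq_of_map_eq hc ?_ ?_ <;> rw [hgu, hL, mul_zero])
    let E₂ : F → F →+ Additive σ.ker := fun a => AddMonoidHom.mk' (e a) (er a)
    obtain ⟨x, hx0, hx1, hxc⟩ := suzuki_not_additive h hm
    have hk : ∀ k : F, k ≠ 0 → ∀ y, e k y = e 1 (y * (th m k * k)⁻¹) := fun k hk y => by
      have := einv k hk 1 (y * (th m k * k)⁻¹)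
      rwa [mul_one, mul_left_comm, mul_inv_cancel₀ (mul_ne_zero (th_ne_zero hk) hk), mul_one] at this
    have h1 : ∀ v, e 1 v = 0 := by
      intro v
      set y := v / ((th m (1 + x) * (1 + x))⁻¹ - 1 - (th m x * x)⁻¹) with hy
      have e1 := el 1 x y
      rw [hk _ hx1 y, hk _ hx0 y] at e1
      have e2 : v = y * (th m (1 + x) * (1 + x))⁻¹ - y - y * (th m x * x)⁻¹ := by
        calc v = y * ((th m (1 + x) * (1 + x))⁻¹ - 1 - (th m x * x)⁻¹) := by rw [hy, div_mul_cancel₀ _ hxc]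
          _ = _ := by ring
      show E₂ 1 v = 0
      rw [e2, map_sub, map_sub]
      show e 1 _ - e 1 y - e 1 _ = 0
      rw [e1]; abel
    intro a y
    have : e a y = 0 := by
      rcases eq_or_ne a 0 with rfl | ha
      · have := el 0 0 y; rw [add_zero] at this; exact left_eq_add.1 this
      · rw [hk a ha, h1]
    exact congrArg (fun w : Additive σ.ker => ((Additive.toMul w : σ.ker) : Γ)) this
  -- C: a complement to the kernel over the centre of `U`
  have hcomm0 : ∀ {w w' : Γ} {x y : F}, σ w = h.u 0 x → σ w' = h.u 0 y → Commute w w' := fun {w w' x y} hw hw' => by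
    rw [← commutatorElement_eq_one_iff_commute,
      comm_eq_of_map_eq hc (a' := L 0 x) (b' := L 0 y) (by rw [hw, hL]) (by rw [hw', hL]), hA]
  obtain ⟨x0, hx00, hx01⟩ := h.exists_ne_zero_one
  obtain ⟨t0, ht0⟩ := hmu x0 hx00
  have hd : x0 + 1 ≠ 0 := fun e => hx01 (h.add_eq_zero_iff.1 e)
  let δ : Γ → Γ := fun w => g t0 * w * (g t0)⁻¹ * w⁻¹
  have hδker : ∀ {w w' : Γ}, σ w = σ w' → δ w = δ w' := fun {w w'} e => by
    show ⁅g t0, w⁆ = ⁅g t0, w'⁆
    exact comm_eq_of_map_eq hc rfl e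
  have hδmap : ∀ {w : Γ} {x : F}, σ w = h.u 0 x → σ (δ w) = h.u 0 (x0 * x + x) := fun {w x} hw => by
    show σ (g t0 * w * (g t0)⁻¹ * w⁻¹) = _
    rw [map_mul, map_mul, map_mul, map_inv, map_inv, hg, hw, h.d_u, ht0, h.u_inv, h.u_mul]
    simp [th_zero]
  let ℓ : F → Γ := fun b => δ (L 0 (b / (x0 + 1)))
  have hℓmap : ∀ b, σ (ℓ b) = h.u 0 b := fun b => by
    rw [hδmap (hL 0 _)]
    congr 1
    field_simp
  have hℓadd : ∀ a b, ℓ (a + b) = ℓ a * ℓ b := fun a b => by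
    show δ _ = δ _ * δ _
    rw [add_div, hδker (hz_add _ _)]
    set p := L 0 (a / (x0 + 1))
    set q := L 0 (b / (x0 + 1))
    have c1 : Commute p⁻¹ (g t0 * q * (g t0)⁻¹ * q⁻¹) :=
      (hcomm0 (hL 0 _) (hδmap (hL 0 _))).inv_left
    show g t0 * (p * q) * (g t0)⁻¹ * (p * q)⁻¹ = (g t0 * p * (g t0)⁻¹ * p⁻¹) * (g t0 * q * (g t0)⁻¹ * q⁻¹)
    rw [mul_assoc (g t0 * p * (g t0)⁻¹) p⁻¹, c1.eq]
    group
  let N : Subgroup Γ :=
    { carrier := Set.range ℓ
      one_mem' := ⟨0, by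
        have := hℓadd 0 0
        rw [add_zero] at this
        exact left_eq_mul.1 this⟩
      mul_mem' := by rintro _ _ ⟨a, rfl⟩ ⟨b, rfl⟩; exact ⟨a + b, hℓadd a b⟩
      inv_mem' := by
        rintro _ ⟨a, rfl⟩
        refine ⟨a, eq_inv_of_mul_eq_one_left ?_⟩
        rw [← hℓadd, h.add_self]
        have := hℓadd 0 0
        rw [add_zero] at this
        exact left_eq_mul.1 this }
  have hℓ0 : ℓ 0 = 1 := by
    have := hℓadd 0 0
    rw [add_zero] at this
    exact left_eq_mul.1 this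
  have hD : ∀ a c, ⁅L a 0, L c 0⁆ = ℓ (th m a * c + th m c * a) := by
    let D : F → F → F := fun a c => th m a * c + th m c * a
    have hmap : ∀ a c, σ ⁅L a 0, L c 0⁆ = h.u 0 (D a c) := fun a c => by
      rw [map_commutatorElement, hL, hL, h.commutator_u]
    have hk : ∀ a c, ⁅L a 0, L c 0⁆ * (ℓ (D a c))⁻¹ ∈ σ.ker := fun a c => by
      rw [MonoidHom.mem_ker, map_mul, map_inv, hmap, hℓmap, mul_inv_cancel]
    let e : F → F → Additive σ.ker := fun a c => Additive.ofMul ⟨_, hk a c⟩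
    have hzcomm : ∀ (a : F) {w : Γ} {x : F}, σ w = h.u 0 x → Commute (L a 0) w := fun a {w x} hw => by
      rw [← commutatorElement_eq_one_iff_commute, comm_eq_of_map_eq hc (b' := L 0 x) rfl (by rw [hw, hL]), hB]
    have hsplit : ∀ a a', σ (L a 0 * L a' 0) = σ (L (a + a') 0 * L 0 (th m a * a')) := fun a a' => by
      rw [map_mul, map_mul, hL, hL, hL, hL, h.u_mul, h.u_mul]; simp
    have h1 : ∀ a a' c, ⁅L (a + a') 0, L c 0⁆ = ⁅L a 0, L c 0⁆ * ⁅L a' 0, L c 0⁆ := fun a a' c => by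
      have e1 : ⁅L a 0 * L a' 0, L c 0⁆ = ⁅L (a + a') 0, L c 0⁆ := by
        rw [comm_eq_of_map_eq hc (hsplit a a') rfl]
        calc ⁅L (a + a') 0 * L 0 (th m a * a'), L c 0⁆
            = L (a + a') 0 * ⁅L 0 (th m a * a'), L c 0⁆ * (L (a + a') 0)⁻¹ * ⁅L (a + a') 0, L c 0⁆ := by
              simp only [commutatorElement_def]; group
          _ = _ := by
              rw [(commutatorElement_eq_one_iff_commute.2 ((hzcomm c (hL 0 _)).symm))]
              group
      rw [← e1]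
      calc ⁅L a 0 * L a' 0, L c 0⁆
          = L a 0 * ⁅L a' 0, L c 0⁆ * (L a 0)⁻¹ * ⁅L a 0, L c 0⁆ := by
            simp only [commutatorElement_def]; group
        _ = ⁅L a' 0, L c 0⁆ * ⁅L a 0, L c 0⁆ := by rw [(hzcomm a (hmap a' c)).eq, mul_inv_cancel_right]
        _ = _ := (hcomm0 (hmap a' c) (hmap a c)).eq
    have key := pairing_eq_zero e
      (fun a a' c => Subtype.ext (by
        show ⁅L (a + a') 0, L c 0⁆ * (ℓ (D (a + a') c))⁻¹ =
          (⁅L a 0, L c 0⁆ * (ℓ (D a c))⁻¹) * (⁅L a' 0, L c 0⁆ * (ℓ (D a' c))⁻¹)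
        rw [h1, show D (a + a') c = D a c + D a' c by simp only [D, h.th_add]; ring, hℓadd]
        have hk' := ker_comm hc (hk a' c) (ℓ (D a c))⁻¹
        calc ⁅L a 0, L c 0⁆ * ⁅L a' 0, L c 0⁆ * (ℓ (D a c) * ℓ (D a' c))⁻¹
            = ⁅L a 0, L c 0⁆ * ((⁅L a' 0, L c 0⁆ * (ℓ (D a' c))⁻¹) * (ℓ (D a c))⁻¹) := by group
          _ = _ := by rw [← hk']; group))
      (fun a c c' => Subtype.ext (by
        show ⁅L a 0, L (c + c') 0⁆ * (ℓ (D a (c + c')))⁻¹ =
          (⁅L a 0, L c 0⁆ * (ℓ (D a c))⁻¹) * (⁅L a 0, L c' 0⁆ * (ℓ (D a c'))⁻¹)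
        rw [← commutatorElement_inv, h1, show D a (c + c') = D a c + D a c' by simp only [D, h.th_add]; ring, hℓadd,
          _root_.mul_inv_rev, commutatorElement_inv, commutatorElement_inv,
          (hcomm0 (hmap a c') (hmap a c)).eq]
        have hk' := ker_comm hc (hk a c') (ℓ (D a c))⁻¹
        calc ⁅L a 0, L c 0⁆ * ⁅L a 0, L c' 0⁆ * (ℓ (D a c) * ℓ (D a c'))⁻¹
            = ⁅L a 0, L c 0⁆ * ((⁅L a 0, L c' 0⁆ * (ℓ (D a c'))⁻¹) * (ℓ (D a c))⁻¹) := by group
          _ = _ := by rw [← hk']; group))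
      (fun a => Subtype.ext (by
        show ⁅L a 0, L a 0⁆ * (ℓ (D a a))⁻¹ = 1
        rw [show D a a = 0 from h.add_self _, hℓ0, commutatorElement_self, inv_one, mul_one]))
      (fun s hs _ a c => Subtype.ext (by
        show ⁅L (s * a) 0, L (s * c) 0⁆ * (ℓ (D (s * a) (s * c)))⁻¹ = ⁅L a 0, L c 0⁆ * (ℓ (D a c))⁻¹
        obtain ⟨t, rfl⟩ := h.exists_kap hs
        have e1 : ⁅L (kap m t * a) 0, L (kap m t * c) 0⁆ = g t * ⁅L a 0, L c 0⁆ * (g t)⁻¹ := by
          rw [conjugate_commutatorElement]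
          refine comm_eq_of_map_eq hc ?_ ?_ <;> rw [hgu, hL, mul_zero]
        have e2 : ℓ (D (kap m t * a) (kap m t * c)) = g t * ℓ (D a c) * (g t)⁻¹ := by
          show ⁅g t0, _⁆ = g t * ⁅g t0, _⁆ * (g t)⁻¹
          rw [conjugate_commutatorElement]
          refine comm_eq_of_map_eq hc ?_ ?_
          · rw [map_mul, map_mul, map_inv, hg, hg, h.d_mul, h.d_inv, h.d_mul, mul_comm t t0,
              mul_inv_cancel_right]
          · rw [hgu, hL, mul_zero]
            congr 1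
            simp only [D, th_mul]
            ring
        rw [e1, e2]
        calc g t * ⁅L a 0, L c 0⁆ * (g t)⁻¹ * (g t * ℓ (D a c) * (g t)⁻¹)⁻¹
            = g t * (⁅L a 0, L c 0⁆ * (ℓ (D a c))⁻¹) * (g t)⁻¹ := by group
          _ = _ := by rw [ker_comm hc (hk a c) (g t), mul_inv_cancel_right]))
      h4 h9
    intro a c
    exact mul_inv_eq_one.1 (congrArg (fun w : Additive σ.ker => ((Additive.toMul w : σ.ker) : Γ)) (key a c))
  -- conclusion
  let S : Set Γ := {w | ∃ a, w = L a 0 ∨ w = L 0 a}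
  have hU : h.U = Subgroup.closure (σ '' S) := by
    refine le_antisymm ?_ ((Subgroup.closure_le _).2 ?_)
    · rintro _ ⟨a, b, rfl⟩
      rw [show h.u a b = σ (L a 0) * σ (L 0 b) by rw [hL, hL, h.u_mul]; simp]
      exact mul_mem (Subgroup.subset_closure ⟨_, ⟨a, Or.inl rfl⟩, rfl⟩)
        (Subgroup.subset_closure ⟨_, ⟨b, Or.inr rfl⟩, rfl⟩)
    · rintro _ ⟨_, ⟨a, rfl | rfl⟩, rfl⟩ <;> rw [hL] <;> exact h.u_mem_U _ _
  have hSN : ∀ s ∈ S, ∀ b, Commute s (ℓ b) := by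
    rintro s ⟨a, rfl | rfl⟩ b
    · rw [← commutatorElement_eq_one_iff_commute,
        comm_eq_of_map_eq hc (b' := L 0 b) rfl (by rw [hℓmap, hL]), hB]
    · exact hcomm0 (hL 0 a) (hℓmap b)
  rw [hU] at hz
  have hzN : z ∈ N := by
    refine commutator_comap_closure_le hc S N (fun s hs => ?_) ?_ hz
    · rw [Subgroup.mem_normalizer_iff]
      intro w
      constructor <;> rintro ⟨b, hb⟩ <;> refine ⟨b, ?_⟩
      · rw [← hb, (hSN s hs b).eq, mul_inv_cancel_right]
      · have : w = s⁻¹ * (s * w * s⁻¹) * s := by group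
        rw [this, ← hb, mul_assoc, ← (hSN s hs b).eq, inv_mul_cancel_left]
    · rintro _ ⟨a, rfl | rfl⟩ _ ⟨c, rfl | rfl⟩
      · exact ⟨_, (hD a c).symm⟩
      · rw [hB]; exact one_mem N
      · rw [← commutatorElement_inv, hB, inv_one]; exact one_mem N
      · rw [hA]; exact one_mem N
  obtain ⟨b, rfl⟩ := hzN
  have e : h.u 0 b = h.u 0 0 := by rw [h.u_zero, ← hℓmap]; exact hzk
  rw [(h.u_injective e).2, hℓ0]

end CfsgLib.SchurMult
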