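import Cfsg.Agent.Lib.SchurMult.TwoCollect
import Mathlib.Data.Nat.Bitwise

/-!
The certified collector without a table, for larger `2`-groups: products of normal forms are collected
on demand, and the subgroup spanned by a series with steps of index `2` is counted separately.
-/

set_option autoImplicit false

namespace CfsgLib.SchurMult

open scoped commutatorElement

/-- Certificate data for the collector without a table. -/
structure LazyCollector where
  /-- number of generators -/
  n : ℕ
  /-- bound on the depth of collection -/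
  fuel : ℕ
  /-- relations `lhs = rhs` as words, the left sides `[j, i]` with `i ≤ j` at `j * (j + 1) / 2 + i` -/
  rels : List (List ℕ × List ℕ)
  /-- the equations -/
  eqs : List TailEq
  /-- tails composing the change of each lift -/
  gauge : List ℕ
  /-- the equations combining to each relation -/
  comb : List ℕ

namespace LazyCollector

variable (c : LazyCollector)

/-- The number of the relation with left side `[j, i]`. -/
def relNo (j i : ℕ) : ℕ := j * (j + 1) / 2 + i

/-- Collect a word onto a normal form with bounded depth. -/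
def runF : ℕ → ℕ → List ℕ → Option (ℕ × ℕ)
  | _, x, [] => some (x, 0)
  | 0, _, _ :: _ => none
  | f + 1, x, i :: w =>
    match
      (bif x < 2 ^ i then some (x ||| 2 ^ i, 0)
      else
        match runF f (x ^^^ 2 ^ Collector.topBit c.n x)
          (c.rels.getD (relNo (Collector.topBit c.n x) i) ([], [])).2 with
        | some (r, m) => some (r, m ^^^ 2 ^ relNo (Collector.topBit c.n x) i)
        | none => none) with
    | none => none
    | some (r, m) =>
      match runF f r w with
      | none => none
      | some (r', m') => some (r', m ^^^ m')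

/-- Collecting a word. -/
def run (x : ℕ) (w : List ℕ) : Option (ℕ × ℕ) := c.runF c.fuel x w

/-- The product of two normal forms. -/
def mulNF (x y : ℕ) : Option (ℕ × ℕ) := c.run x (Collector.digits c.n y)

/-- The relations have the required shape. -/
def shapeOK : Bool :=
  (List.range c.n).all fun j => (List.range (j + 1)).all fun i =>
    decide (relNo j i < c.rels.length) && (c.rels.getD (relNo j i) ([], [])).1 == [j, i] &&
      match (c.rels.getD (relNo j i) ([], [])).2 with
      | [] => true
      | h :: w => decide (i ≤ h) && decide (h < c.n) && w.all fun k => decide (i < k) && decide (k < c.n)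

/-- The mask of one product pair of a conjugation, and its set of correction terms. -/
def pairMask (m : List (ℕ × ℕ)) (p : ℕ × ℕ) : Option ((ℕ × ℕ) × List ℕ) :=
  match Collector.img m p.1, Collector.img m p.2, c.mulNF p.1 p.2 with
  | some a, some b, some (r, L) =>
    match Collector.img m r, c.mulNF a b with
    | some r₂, some (r', L') => bif r₂ == r' then some ((L ^^^ L', 0), [p.1, p.2, r]) else none
    | _, _ => none
  | _, _, _ => none

/-- The position of a key in a map. -/
def posIn (m : List (ℕ × ℕ)) (x : ℕ) : ℕ := m.findIdx fun q => q.1 == x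

/-- Both sums over the pairs: the tails, and the correction terms by position in the map. -/
def pairsMask (m : List (ℕ × ℕ)) : List (ℕ × ℕ) → Option (ℕ × ℕ)
  | [] => some (0, 0)
  | p :: ps =>
    match c.pairMask m p, pairsMask m ps with
    | some ((L, _), [x, y, r]), some (L', E) =>
      some (L ^^^ L', 2 ^ posIn m x ^^^ 2 ^ posIn m y ^^^ 2 ^ posIn m r ^^^ E)
    | _, _ => none

/-- The tails that sum to zero by an equation, if it is well formed. -/
def eqMask : TailEq → Option ℕ
  | .assoc pre v =>
    bif decide (v < c.rels.length) then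
      match c.run 0 (pre ++ (c.rels.getD v ([], [])).1), c.run 0 (pre ++ (c.rels.getD v ([], [])).2) with
      | some (r, m), some (r', m') => bif r == r' then some (m ^^^ m' ^^^ 2 ^ v) else none
      | _, _ => none
    else none
  | .conj _ m pairs =>
    match c.pairsMask m pairs with
    | some (L, E) =>
      bif decide (E ≤ 1) && m.head? == some (0, 0) then some L else none
    | none => none

/-- Sum of the masks of selected equations. -/
def selMask : List TailEq → ℕ → ℕ → Option ℕ
  | [], _, _ => some 0
  | e :: es, s, k =>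
    match selMask es s (k + 1) with
    | none => none
    | some M =>
      bif s.testBit k then
        match c.eqMask e with
        | none => none
        | some L => some (L ^^^ M)
      else some M

/-- Sum of the gauge masks along a word. -/
def gaugeMask : List ℕ → ℕ
  | [] => 0
  | i :: w => c.gauge.getD i 0 ^^^ gaugeMask w

/-- Every tail is a gauge change modulo the equations. -/
def solvedOK : Bool :=
  c.shapeOK && c.rels.all (fun r => r.1.all (fun i => decide (i < c.n)) && r.2.all fun i => decide (i < c.n)) &&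
    (List.range c.rels.length).all fun v =>
      c.selMask c.eqs (c.comb.getD v 0) 0 ==
        some (2 ^ v ^^^ c.gaugeMask ((c.rels.getD v ([], [])).1 ++ (c.rels.getD v ([], [])).2))

end LazyCollector

section Lazy

variable {M : Type*} [Group M] {c : LazyCollector} {l t : ℕ → M}

/-- The relations with tails. -/
structure LazyTails (c : LazyCollector) (l t : ℕ → M) : Prop where
  sq : ∀ v, t v * t v = 1
  central : ∀ v g, g * t v = t v * g
  rel : ∀ v < c.rels.length,
    lprod l (c.rels.getD v ([], [])).1 = lprod l (c.rels.getD v ([], [])).2 * t v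

/-- The value of a mask. -/
abbrev lval (c : LazyCollector) (t : ℕ → M) (m : ℕ) : M := bprod t c.rels.length m

theorem topBit_spec : ∀ {k x : ℕ}, x < 2 ^ k → x ≠ 0 →
    x.testBit (Collector.topBit k x) = true ∧ Collector.topBit k x < k ∧
      ∀ i, Collector.topBit k x < i → i < k → x.testBit i = false
  | 0, x, h, h0 => by simp at h; omega
  | k + 1, x, h, h0 => by
    rw [Collector.topBit]
    cases hb : x.testBit k
    · have hlt : x < 2 ^ k := Nat.lt_pow_two_of_testBit _ fun i hi => by
        rcases Nat.eq_or_lt_of_le hi with rfl | hi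
        · exact hb
        · exact Nat.testBit_lt_two_pow (lt_of_lt_of_le h (Nat.pow_le_pow_right (by norm_num) hi))
      obtain ⟨h1, h2, h3⟩ := topBit_spec hlt h0
      refine ⟨h1, Nat.lt_succ_of_lt h2, fun i hi hik => ?_⟩
      rcases Nat.eq_or_lt_of_le (Nat.le_of_lt_succ hik) with rfl | hik
      · exact hb
      · exact h3 i hi hik
    · exact ⟨hb, Nat.lt_succ_self k, fun i h1 h2 => absurd h2 (by simp at h1; omega)⟩

/-- Facts at a step that is not trivial. -/
theorem step_facts (hS : c.shapeOK = true) {x i : ℕ} (hi : i < c.n) (hx : x < 2 ^ c.n)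
    (hxi : ¬ x < 2 ^ i) :
    let j := Collector.topBit c.n x
    x.testBit j = true ∧ j < c.n ∧ i ≤ j ∧ (∀ k, j < k → k < c.n → x.testBit k = false) ∧
      x ^^^ 2 ^ j < x ∧ LazyCollector.relNo j i < c.rels.length ∧
      (c.rels.getD (LazyCollector.relNo j i) ([], [])).1 = [j, i] ∧
      ∀ h w, (c.rels.getD (LazyCollector.relNo j i) ([], [])).2 = h :: w →
        i ≤ h ∧ h < c.n ∧ ∀ k ∈ w, i < k ∧ k < c.n := by
  intro j
  have hx0 : x ≠ 0 := fun e => hxi (e ▸ pow_pos (by norm_num) i)
  obtain ⟨h1, h2, h3⟩ := topBit_spec hx hx0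
  have hij : i ≤ j := by
    by_contra hlt
    refine hxi (Nat.lt_pow_two_of_testBit _ fun k hk => ?_)
    rcases Nat.lt_or_ge k c.n with hkn | hkn
    · exact h3 k (show j < k by omega) hkn
    · exact Nat.testBit_lt_two_pow (lt_of_lt_of_le hx (Nat.pow_le_pow_right (by norm_num) hkn))
  simp only [LazyCollector.shapeOK, List.all_eq_true, List.mem_range] at hS
  have hs := hS j h2 i (by omega)
  simp only [Bool.and_eq_true, decide_eq_true_eq, beq_iff_eq] at hs
  obtain ⟨⟨hv, hl⟩, hr⟩ := hs
  refine ⟨h1, h2, hij, h3, ?_, hv, hl, fun h w e => ?_⟩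
  · refine Nat.lt_of_testBit j (by rw [Nat.testBit_xor, h1, Nat.testBit_two_pow]; simp [j]) h1 fun k hk => ?_
    simp [Nat.testBit_two_pow, show j ≠ k by omega]
  · rw [e] at hr
    simp only [Bool.and_eq_true, decide_eq_true_eq, List.all_eq_true] at hr
    exact ⟨hr.1.1, hr.1.2, hr.2⟩

namespace LazyTails

variable (h : LazyTails c l t)
include h

theorem lval_xor (a b : ℕ) : lval c t (a ^^^ b) = lval c t a * lval c t b :=
  bprod_xor h.sq h.central _ a b

theorem lval_central (m : ℕ) (g : M) : g * lval c t m = lval c t m * g := by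
  have : lval c t m ∈ Subgroup.center M :=
    bprod_mem (fun i => Subgroup.mem_center_iff.2 (h.central i)) _ _
  exact Subgroup.mem_center_iff.1 this g

theorem lval_sq (m : ℕ) : lval c t m * lval c t m = 1 := by
  rw [← h.lval_xor, Nat.xor_self]; exact bprod_zero t _

/-- Collecting is sound. -/
theorem runF_spec (hS : c.shapeOK = true) : ∀ (f : ℕ) (w : List ℕ) (x r m : ℕ), x < 2 ^ c.n →
    (∀ i ∈ w, i < c.n) → c.runF f x w = some (r, m) →
      r < 2 ^ c.n ∧ nf l c.n x * lprod l w = nf l c.n r * lval c t m
  | f, [], x, r, m, hx, _, e => by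
    rw [LazyCollector.runF, Option.some.injEq, Prod.mk.injEq] at e
    obtain ⟨rfl, rfl⟩ := e
    simp [lprod, lval, bprod_zero, hx]
  | 0, _ :: _, _, _, _, _, _, e => by simp [LazyCollector.runF] at e
  | f + 1, i :: w, x, r, m, hx, hw, e => by
    have hi : i < c.n := hw i List.mem_cons_self
    rw [LazyCollector.runF] at e
    obtain ⟨r₁, m₁, hr₁, he₁, hstep⟩ : ∃ r₁ m₁, r₁ < 2 ^ c.n ∧
        nf l c.n x * l i = nf l c.n r₁ * lval c t m₁ ∧
        (match c.runF f r₁ w with
          | none => none
          | some (r', m') => some (r', m₁ ^^^ m')) = some (r, m) := by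
      by_cases hxi : x < 2 ^ i
      · rw [show decide (x < 2 ^ i) = true by simpa using hxi, cond_true] at e
        refine ⟨_, 0, Nat.or_lt_two_pow hx (Nat.pow_lt_pow_right (by norm_num) hi), ?_, e⟩
        rw [lval, bprod_zero, mul_one]
        exact (bprod_or_top l hi fun j hj _ =>
          Nat.testBit_lt_two_pow (lt_of_lt_of_le hxi (Nat.pow_le_pow_right (by norm_num) hj))).symm
      · rw [show decide (x < 2 ^ i) = false by simpa using hxi, cond_false] at e
        obtain ⟨hxj, hj, -, hhi, hy, hv, hlhs, hrhs⟩ := step_facts hS hi hx hxi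
        set j := Collector.topBit c.n x
        set v := LazyCollector.relNo j i
        rcases hrun : c.runF f (x ^^^ 2 ^ j) (c.rels.getD v ([], [])).2 with _ | ⟨r₁, m₁⟩
        · rw [hrun] at e; simp at e
        · rw [hrun] at e
          have hRlt : ∀ k ∈ (c.rels.getD v ([], [])).2, k < c.n := by
            intro k hk
            rcases hR : (c.rels.getD v ([], [])).2 with _ | ⟨a, w'⟩
            · rw [hR] at hk; simp at hk
            · obtain ⟨-, ha, hw'⟩ := hrhs a w' hR
              rw [hR] at hk
              rcases List.mem_cons.1 hk with rfl | hk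
              exacts [ha, (hw' k hk).2]
          obtain ⟨hr, he⟩ := runF_spec hS f _ _ r₁ m₁ (hy.trans hx) hRlt hrun
          refine ⟨r₁, m₁ ^^^ 2 ^ v, hr, ?_, e⟩
          have hrel := h.rel v hv
          rw [hlhs, lprod, lprod, lprod, mul_one] at hrel
          rw [show nf l c.n x = nf l c.n (x ^^^ 2 ^ j) * l j from bprod_top l hj hxj hhi, mul_assoc,
            hrel, ← mul_assoc, he, mul_assoc, h.lval_xor,
            show lval c t (2 ^ v) = t v from bprod_two_pow hv]
    rcases hrest : c.runF f r₁ w with _ | ⟨r', m'⟩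
    · rw [hrest] at hstep; simp at hstep
    · rw [hrest, Option.some.injEq, Prod.mk.injEq] at hstep
      obtain ⟨rfl, rfl⟩ := hstep
      obtain ⟨hr, he⟩ := runF_spec hS f w r₁ r' m' hr₁ (fun k hk => hw k (List.mem_cons_of_mem _ hk)) hrest
      refine ⟨hr, ?_⟩
      rw [lprod, ← mul_assoc, he₁, mul_assoc, ← h.lval_central, ← mul_assoc, he, mul_assoc,
        ← h.lval_xor, Nat.xor_comm]

theorem mul_spec (hS : c.shapeOK = true) {x y r m : ℕ} (hx : x < 2 ^ c.n)
    (e : c.mulNF x y = some (r, m)) :
    r < 2 ^ c.n ∧ nf l c.n x * nf l c.n y = nf l c.n r * lval c t m := by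
  have := h.runF_spec hS c.fuel (Collector.digits c.n y) x r m hx (fun i hi => ?_) e
  · rwa [lprod_digits] at this
  · suffices ∀ k, k ≤ c.n → ∀ i ∈ Collector.digits k y, i < c.n from this _ le_rfl i hi
    intro k
    induction k with
    | zero => intro _ i hi; simp [Collector.digits] at hi
    | succ k ih =>
      intro hk i hi
      rw [Collector.digits] at hi
      cases hb : y.testBit k <;> simp [hb] at hi
      · exact ih (by omega) i hi
      · rcases hi with hi | rfl
        · exact ih (by omega) i hi
        · omega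

theorem assoc_eq (hS : c.shapeOK = true)
    (hwords : ∀ v < c.rels.length, (∀ i ∈ (c.rels.getD v ([], [])).1, i < c.n) ∧
      ∀ i ∈ (c.rels.getD v ([], [])).2, i < c.n)
    {pre : List ℕ} (hpre : ∀ i ∈ pre, i < c.n) {v L : ℕ} (hok : c.eqMask (.assoc pre v) = some L) :
    lval c t L = 1 := by
  rw [LazyCollector.eqMask] at hok
  by_cases hv : v < c.rels.length
  · rw [show decide (v < c.rels.length) = true by simpa using hv, cond_true] at hok
    rcases h1 : c.run 0 (pre ++ (c.rels.getD v ([], [])).1) with _ | ⟨r, m⟩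
    · rw [h1] at hok; simp at hok
    rcases h2 : c.run 0 (pre ++ (c.rels.getD v ([], [])).2) with _ | ⟨r', m'⟩
    · rw [h1, h2] at hok; simp at hok
    rw [h1, h2] at hok
    dsimp only at hok
    cases hr : (r == r')
    · rw [hr, cond_false] at hok; simp at hok
    rw [hr, cond_true, Option.some.injEq] at hok
    obtain rfl : r = r' := by simpa using hr
    subst hok
    have e1 := (h.runF_spec hS c.fuel _ 0 r m (by positivity) (fun i hi =>
      (List.mem_append.1 hi).elim (hpre i) ((hwords v hv).1 i)) h1).2
    have e2 := (h.runF_spec hS c.fuel _ 0 r m' (by positivity) (fun i hi =>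
      (List.mem_append.1 hi).elim (hpre i) ((hwords v hv).2 i)) h2).2
    rw [show nf l c.n 0 = 1 from bprod_zero l _, one_mul, lprod_append, h.rel v hv, ← mul_assoc,
      ← lprod_append] at e1
    rw [show nf l c.n 0 = 1 from bprod_zero l _, one_mul] at e2
    rw [e2, mul_assoc] at e1
    rw [h.lval_xor, h.lval_xor, show lval c t (2 ^ v) = t v from bprod_two_pow hv, ← mul_left_cancel e1]
    calc _ = lval c t m' * lval c t m' * (t v * t v) := by
          simp only [mul_assoc]
          congr 1
          rw [← mul_assoc (t v), ← h.central v, mul_assoc]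
      _ = 1 := by rw [h.lval_sq, h.sq, one_mul]
  · rw [show decide (v < c.rels.length) = false by simpa using hv, cond_false] at hok
    simp at hok

theorem conj_eq (hS : c.shapeOK = true) {S : Subgroup M} (hSc : ∀ s ∈ S, s * s = 1 ∧ ∀ g, g * s = s * g)
    {k : ℕ} {m pairs : List (ℕ × ℕ)} {g : M} (hm : ∀ q ∈ m, q.1 < 2 ^ c.n ∧ q.2 < 2 ^ c.n)
    (hg : ∀ q ∈ m, (g * nf l c.n q.1 * g⁻¹) * (nf l c.n q.2)⁻¹ ∈ S) {L : ℕ}
    (hok : c.eqMask (.conj k m pairs) = some L) : lval c t L = 1 := by
  -- the correction term of each entry of the map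
  set E : ℕ → M := fun i => if hi : i < m.length then
    (g * nf l c.n m[i].1 * g⁻¹) * (nf l c.n m[i].2)⁻¹ else 1 with hE
  have hES : ∀ i, E i ∈ S := by
    intro i
    rw [hE]
    by_cases hi : i < m.length
    · simp only [hi, dif_pos]; exact hg _ (List.getElem_mem hi)
    · simp [hi]
  have hEx : ∀ a b, bprod E m.length (a ^^^ b) = bprod E m.length a * bprod E m.length b :=
    bprod_xor (fun i => (hSc _ (hES i)).1) (fun i => (hSc _ (hES i)).2) _
  have hEc : ∀ a y, y * bprod E m.length a = bprod E m.length a * y := fun a y =>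
    Subgroup.mem_center_iff.1 (bprod_mem (S := Subgroup.center M)
      (fun i => Subgroup.mem_center_iff.2 (hSc _ (hES i)).2) _ _) y
  have himg : ∀ {m' : List (ℕ × ℕ)} {x y : ℕ}, Collector.img m' x = some y →
      ∃ hi : LazyCollector.posIn m' x < m'.length, m'[LazyCollector.posIn m' x] = (x, y) := by
    intro m'
    induction m' with
    | nil => intro x y h; simp [Collector.img] at h
    | cons q m' ih =>
      intro x y h
      rw [Collector.img] at h
      cases hq : q.1 == x
      · rw [hq, cond_false] at h
        obtain ⟨hi, he⟩ := ih h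
        have e : LazyCollector.posIn (q :: m') x = LazyCollector.posIn m' x + 1 := by
          simp [LazyCollector.posIn, List.findIdx_cons, hq]
        exact ⟨by rw [e, List.length_cons]; omega, by simp [e, he]⟩
      · rw [hq, cond_true, Option.some.injEq] at h
        have e : LazyCollector.posIn (q :: m') x = 0 := by
          simp [LazyCollector.posIn, List.findIdx_cons, hq]
        rw [beq_iff_eq] at hq
        subst hq h
        exact ⟨by rw [e]; simp, by simp [e]⟩
  have hEq : ∀ {x y : ℕ}, Collector.img m x = some y →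
      LazyCollector.posIn m x < m.length ∧ x < 2 ^ c.n ∧ y < 2 ^ c.n ∧
        g * nf l c.n x * g⁻¹ = E (LazyCollector.posIn m x) * nf l c.n y := by
    intro x y hx
    obtain ⟨hi, he⟩ := himg hx
    have := hm _ (List.getElem_mem hi)
    rw [he] at this
    refine ⟨hi, this.1, this.2, ?_⟩
    simp [hE, hi, he]
  have hone : ∀ p L' e x y r, c.pairMask m p = some ((L', e), [x, y, r]) →
      lval c t L' * bprod E m.length
        (2 ^ LazyCollector.posIn m x ^^^ 2 ^ LazyCollector.posIn m y ^^^ 2 ^ LazyCollector.posIn m r) = 1 := by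
    rintro ⟨x₀, y₀⟩ L' e x y r hp
    rw [LazyCollector.pairMask] at hp
    rcases ha : Collector.img m x₀ with _ | a
    · simp [ha] at hp
    rcases hb : Collector.img m y₀ with _ | b
    · simp [ha, hb] at hp
    rcases hxy : c.mulNF x₀ y₀ with _ | ⟨r₀, L₁⟩
    · simp [ha, hb, hxy] at hp
    rcases hr : Collector.img m r₀ with _ | r₂
    · simp [ha, hb, hxy, hr] at hp
    rcases hab : c.mulNF a b with _ | ⟨r', L₂⟩
    · simp [ha, hb, hxy, hr, hab] at hp
    simp only [ha, hb, hxy, hr, hab] at hp
    cases hrr : (r₂ == r')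
    · rw [hrr, cond_false] at hp; simp at hp
    rw [hrr, cond_true] at hp
    simp only [Option.some.injEq, Prod.mk.injEq, List.cons.injEq, and_true] at hp
    obtain ⟨⟨rfl, -⟩, rfl, rfl, rfl⟩ := hp
    obtain rfl : r₂ = r' := by simpa using hrr
    obtain ⟨ix, hx, ha', eA⟩ := hEq ha
    obtain ⟨iy, -, -, eB⟩ := hEq hb
    obtain ⟨ir, -, -, eR⟩ := hEq hr
    obtain ⟨-, e1⟩ := h.mul_spec hS hx hxy
    obtain ⟨-, e2⟩ := h.mul_spec hS ha' hab
    set A := E (LazyCollector.posIn m x₀)
    set B := E (LazyCollector.posIn m y₀)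
    set R := E (LazyCollector.posIn m r₀)
    have hBc : ∀ z, z * B = B * z := (hSc _ (hES _)).2
    have key : A * B * lval c t L₂ = R * lval c t L₁ := by
      refine mul_right_cancel (b := nf l c.n r₂) ?_
      calc A * B * lval c t L₂ * nf l c.n r₂ = A * B * (nf l c.n a * nf l c.n b) := by
            rw [e2, h.lval_central L₂ (nf l c.n r₂), mul_assoc]
        _ = A * (nf l c.n a * B) * nf l c.n b := by rw [hBc (nf l c.n a)]; group
        _ = g * nf l c.n x₀ * g⁻¹ * (g * nf l c.n y₀ * g⁻¹) := by rw [eA, eB]; group
        _ = g * nf l c.n r₀ * (lval c t L₁ * g⁻¹) := by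
            rw [show g * nf l c.n x₀ * g⁻¹ * (g * nf l c.n y₀ * g⁻¹) =
              g * (nf l c.n x₀ * nf l c.n y₀) * g⁻¹ by group, e1]
            group
        _ = (g * nf l c.n r₀ * g⁻¹) * lval c t L₁ := by rw [← h.lval_central]; group
        _ = R * lval c t L₁ * nf l c.n r₂ := by rw [eR, mul_assoc, h.lval_central, ← mul_assoc]
    rw [h.lval_xor, hEx, hEx, bprod_two_pow ix, bprod_two_pow iy, bprod_two_pow ir]
    calc lval c t L₁ * lval c t L₂ * (A * B * R)
        = lval c t L₁ * (lval c t L₂ * (A * B)) * R := by group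
      _ = lval c t L₁ * (A * B * lval c t L₂) * R := by rw [h.lval_central L₂ (A * B)]
      _ = lval c t L₁ * (R * lval c t L₁) * R := by rw [key]
      _ = lval c t L₁ * lval c t L₁ * (R * R) := by
        rw [h.lval_central L₁ R, ← mul_assoc, mul_assoc]
      _ = 1 := by rw [h.lval_sq, (hSc _ (hES _)).1, one_mul]
  have hall : ∀ (ps : List (ℕ × ℕ)) L' E', c.pairsMask m ps = some (L', E') →
      lval c t L' * bprod E m.length E' = 1 := by
    intro ps
    induction ps with
    | nil =>
      intro L' E' hp
      simp only [LazyCollector.pairsMask, Option.some.injEq, Prod.mk.injEq] at hp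
      obtain ⟨rfl, rfl⟩ := hp
      simp [lval, bprod_zero]
    | cons p ps ih =>
      intro L' E' hp
      rw [LazyCollector.pairsMask] at hp
      split at hp
      · rename_i L₀ e₀ x y r L₁ E₁ h1 h2
        simp only [Option.some.injEq, Prod.mk.injEq] at hp
        obtain ⟨rfl, rfl⟩ := hp
        have a1 := hone p L₀ e₀ x y r h1
        have a2 := ih L₁ E₁ h2
        rw [h.lval_xor, hEx _ E₁]
        set F := bprod E m.length
          (2 ^ LazyCollector.posIn m x ^^^ 2 ^ LazyCollector.posIn m y ^^^ 2 ^ LazyCollector.posIn m r)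
          with hF
        calc _ = lval c t L₀ * (lval c t L₁ * F) * bprod E m.length E₁ := by group
          _ = lval c t L₀ * (F * lval c t L₁) * bprod E m.length E₁ := by
            rw [hF, hEc _ (lval c t L₁)]
          _ = (lval c t L₀ * F) * (lval c t L₁ * bprod E m.length E₁) := by group
          _ = 1 := by rw [a1, a2, one_mul]
      · simp at hp
  rw [LazyCollector.eqMask] at hok
  rcases hp : c.pairsMask m pairs with _ | ⟨L₁, E₁⟩
  · rw [hp] at hok; simp at hok
  rw [hp] at hok
  dsimp only at hok
  cases hb : (decide (E₁ ≤ 1) && m.head? == some (0, 0))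
  · rw [hb, cond_false] at hok; simp at hok
  rw [hb, cond_true, Option.some.injEq] at hok
  subst hok
  simp only [Bool.and_eq_true, decide_eq_true_eq, beq_iff_eq] at hb
  have := hall pairs L₁ E₁ hp
  rcases m with _ | ⟨q, m'⟩
  · simp at hb
  obtain rfl : q = (0, 0) := by simpa using hb.2
  have hE0 : E 0 = 1 := by simp [hE, nf, bprod_zero]
  rw [show bprod E ((0, 0) :: m').length E₁ = 1 by
    rcases Nat.le_one_iff_eq_zero_or_eq_one.1 hb.1 with e | e <;> rw [e]
    · exact bprod_zero E _
    · exact (bprod_two_pow (i := 0) (by simp)).trans hE0, mul_one] at this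
  exact this

end LazyTails

/-- With exact relations the normal forms are closed under the generators. -/
theorem exists_nf_mul (h : LazyTails c l fun _ => 1) (hS : c.shapeOK = true) :
    ∀ (d i : ℕ), c.n = i + d → i < c.n → ∀ x < 2 ^ c.n,
      ∃ r < 2 ^ c.n, nf l c.n x * l i = nf l c.n r := by
  intro d
  induction d using Nat.strong_induction_on with
  | _ d ihd =>
    intro i hid hi x
    induction x using Nat.strong_induction_on with
    | _ x ihx =>
      intro hx
      by_cases hxi : x < 2 ^ i
      · exact ⟨_, Nat.or_lt_two_pow hx (Nat.pow_lt_pow_right (by norm_num) hi),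
          (bprod_or_top l hi fun j hj _ =>
            Nat.testBit_lt_two_pow (lt_of_lt_of_le hxi (Nat.pow_le_pow_right (by norm_num) hj))).symm⟩
      obtain ⟨hxj, hj, -, hhi, hy, hv, hlhs, hrhs⟩ := step_facts hS hi hx hxi
      set j := Collector.topBit c.n x
      have hrel := h.rel _ hv
      rw [hlhs, lprod, lprod, lprod, mul_one, mul_one] at hrel
      have hwalk : ∀ (w : List ℕ), (∀ k ∈ w, i < k ∧ k < c.n) → ∀ y < 2 ^ c.n,
          ∃ r < 2 ^ c.n, nf l c.n y * lprod l w = nf l c.n r := by
        intro w
        induction w with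
        | nil => intro _ y hy; exact ⟨y, hy, by rw [lprod, mul_one]⟩
        | cons k w ih =>
          intro hw y hy
          obtain ⟨hik, hk⟩ := hw k List.mem_cons_self
          obtain ⟨r, hr, he⟩ := ihd (c.n - k) (by omega) k (by omega) hk y hy
          obtain ⟨r', hr', he'⟩ := ih (fun a ha => hw a (List.mem_cons_of_mem _ ha)) r hr
          exact ⟨r', hr', by rw [lprod, ← mul_assoc, he, he']⟩
      rw [show nf l c.n x = nf l c.n (x ^^^ 2 ^ j) * l j from bprod_top l hj hxj hhi, mul_assoc, hrel]
      rcases hR : (c.rels.getD (LazyCollector.relNo j i) ([], [])).2 with _ | ⟨a, w⟩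
      · exact ⟨_, hy.trans hx, by rw [lprod, mul_one]⟩
      · obtain ⟨hia, ha, hw⟩ := hrhs a w hR
        obtain ⟨r, hr, he⟩ : ∃ r < 2 ^ c.n, nf l c.n (x ^^^ 2 ^ j) * l a = nf l c.n r := by
          rcases Nat.eq_or_lt_of_le hia with rfl | hlt
          · exact ihx _ hy (hy.trans hx)
          · exact ihd (c.n - a) (by omega) a (by omega) ha _ (hy.trans hx)
        obtain ⟨r', hr', he'⟩ := hwalk w hw r hr
        exact ⟨r', hr', by rw [lprod, ← mul_assoc, he, he']⟩

/-- With exact relations the normal forms form a subgroup. -/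
theorem lazy_closure_subset_nf [Finite M] (h : LazyTails c l fun _ => 1) (hS : c.shapeOK = true)
    {z : M} (hz : z ∈ Subgroup.closure (l '' Set.Iio c.n)) : ∃ x < 2 ^ c.n, z = nf l c.n x := by
  rw [← Subgroup.mem_toSubmonoid, Subgroup.closure_toSubmonoid_of_finite] at hz
  induction hz using Submonoid.closure_induction_right with
  | one => exact ⟨0, by positivity, (bprod_zero l _).symm⟩
  | mul_right y _ g hg ih =>
    obtain ⟨x, hx, rfl⟩ := ih
    obtain ⟨i, hi, rfl⟩ := hg
    exact exists_nf_mul h hS (c.n - i) i (by rw [Set.mem_Iio] at hi; omega) hi x hx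

end Lazy

/-- A series in which each generator is new spans at least `2 ^ n` elements. -/
theorem two_pow_le_card_series {G : Type*} [Group G] [Finite G] (el : ℕ → G) (n : ℕ)
    (h : ∀ i < n, el i ∉ Subgroup.closure (el '' Set.Ioo i n)) :
    2 ^ n ≤ Nat.card (Subgroup.closure (el '' Set.Iio n)) := by
  suffices ∀ d, d ≤ n → 2 ^ d ≤ Nat.card (Subgroup.closure (el '' Set.Ico (n - d) n)) by
    have := this n le_rfl
    rwa [Nat.sub_self, show Set.Ico 0 n = Set.Iio n by ext; simp] at this
  intro d
  induction d with
  | zero => intro _; simpa using Nat.card_pos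
  | succ d ih =>
    intro hd
    set A := Subgroup.closure (el '' Set.Ico (n - d) n)
    set B := Subgroup.closure (el '' Set.Ico (n - (d + 1)) n)
    have hAB : A ≤ B := Subgroup.closure_mono (Set.image_mono (Set.Ico_subset_Ico_left (by omega)))
    have hmem : el (n - (d + 1)) ∈ B := Subgroup.subset_closure ⟨_, ⟨le_rfl, by omega⟩, rfl⟩
    have hnot : el (n - (d + 1)) ∉ A := by
      have := h (n - (d + 1)) (by omega)
      rwa [show Set.Ioo (n - (d + 1)) n = Set.Ico (n - d) n by ext; simp; omega] at this
    have hd2 := Subgroup.card_dvd_of_le hAB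
    have hne : Nat.card A ≠ Nat.card B := fun e =>
      hnot ((Subgroup.eq_of_le_of_card_ge hAB e.ge).symm ▸ hmem)
    obtain ⟨q, hq⟩ := hd2
    have hq2 : 2 ≤ q := by
      rcases q with _ | _ | q
      · rw [mul_zero] at hq; exact absurd hq Nat.card_pos.ne'
      · simp at hq; exact absurd hq.symm hne
      · omega
    calc 2 ^ (d + 1) = 2 ^ d * 2 := pow_succ 2 d
      _ ≤ Nat.card A * q := Nat.mul_le_mul (ih (by omega)) hq2
      _ = Nat.card B := hq.symm

section Main

universe v

/-- A solved certificate over a Sylow `2`-subgroup shows that the multiplier has odd order. -/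
theorem lazy_not_two_dvd_card_ker {G : Type v} [Group G] [Finite G] (c : LazyCollector) (el conjEl : ℕ → G)
    (hsolved : c.solvedOK = true)
    (hwf : ∀ e ∈ c.eqs, match e with
      | .assoc pre _ => ∀ i ∈ pre, i < c.n
      | .conj _ m _ => ∀ q ∈ m, q.1 < 2 ^ c.n ∧ q.2 < 2 ^ c.n)
    (hrel : ∀ v < c.rels.length,
      lprod el (c.rels.getD v ([], [])).1 = lprod el (c.rels.getD v ([], [])).2)
    (hconj : ∀ e ∈ c.eqs, match e with
      | .assoc _ _ => True
      | .conj k m _ => ∀ q ∈ m, conjEl k * nf el c.n q.1 * (conjEl k)⁻¹ = nf el c.n q.2)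
    (hcard : 2 ^ c.n ≤ Nat.card (Subgroup.closure (el '' Set.Iio c.n)))
    (hG : ∃ m, ¬ 2 ∣ m ∧ Nat.card G = 2 ^ c.n * m)
    (Γ : Type v) [Group Γ] [Finite Γ] (σ : Γ →* G) (hσ : Cfsg.IsStemExtension σ) :
    ¬ 2 ∣ Nat.card σ.ker := by
  intro hd
  obtain ⟨Δ, _, _, τ, hτ, hτ2⟩ := exists_stem_card_ker_eq hσ Nat.prime_two hd
  simp only [LazyCollector.solvedOK, Bool.and_eq_true, List.all_eq_true, List.mem_range, beq_iff_eq,
    decide_eq_true_eq] at hsolved
  obtain ⟨⟨hS, hw⟩, hcomb⟩ := hsolved
  set H : Subgroup G := Subgroup.closure (el '' Set.Iio c.n)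
  have hel : LazyTails c el fun _ => (1 : G) :=
    ⟨fun _ => mul_one 1, fun _ g => by simp, fun v hv => by rw [hrel v hv, mul_one]⟩
  have hnfH : ∀ x, nf el c.n x ∈ H := by
    intro x
    suffices ∀ k, k ≤ c.n → bprod el k x ∈ H from this _ le_rfl
    intro k
    induction k with
    | zero => intro _; exact one_mem H
    | succ k ih =>
      intro hk
      rw [bprod]
      cases x.testBit k
      · exact ih (by omega)
      · exact mul_mem (ih (by omega))
          (Subgroup.subset_closure ⟨k, Set.mem_Iio.2 (by omega), rfl⟩)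
  let F : Fin (2 ^ c.n) → H := fun x => ⟨nf el c.n x, hnfH x⟩
  have hsurj : Function.Surjective F := fun ⟨z, hz⟩ => by
    obtain ⟨x, hx, rfl⟩ := lazy_closure_subset_nf hel hS hz
    exact ⟨⟨x, hx⟩, rfl⟩
  have hle : Nat.card H ≤ 2 ^ c.n := by
    simpa using Nat.card_le_card_of_surjective F hsurj
  have hinj : Function.Injective F :=
    (hsurj.bijective_of_nat_card_le (by simpa using hcard)).1
  have hindex : ¬ 2 ∣ H.index := by
    obtain ⟨m, hm, hGm⟩ := hG
    have := H.card_mul_index
    rw [show Nat.card H = 2 ^ c.n from le_antisymm hle hcard, hGm] at this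
    rwa [Nat.eq_of_mul_eq_mul_left (by positivity) this]
  refine not_dvd_card_ker_of_local hτ Nat.prime_two H hindex ?_ (hτ2.symm ▸ dvd_rfl)
  have hcen : ∀ k ∈ τ.ker, ∀ g : Δ, g * k = k * g := fun k hk g =>
    Subgroup.mem_center_iff.1 (hτ.2.1 hk) g
  have hsq : ∀ k ∈ τ.ker, k * k = 1 := fun k hk => by
    have := pow_card_eq_one' (x := (⟨k, hk⟩ : τ.ker))
    rw [hτ2, pow_two] at this
    exact congrArg Subtype.val this
  choose s hs using hτ.1
  set l : ℕ → Δ := fun i => s (el i) with hl
  have hτl : (fun i => τ (l i)) = el := funext fun i => hs (el i)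
  set t : ℕ → Δ := fun v => if v < c.rels.length then
    (lprod l (c.rels.getD v ([], [])).2)⁻¹ * lprod l (c.rels.getD v ([], [])).1 else 1 with ht
  have htker : ∀ v, t v ∈ τ.ker := by
    intro v
    rw [ht, MonoidHom.mem_ker]
    by_cases hv : v < c.rels.length
    · simp only
      rw [if_pos hv, map_mul, map_inv, map_lprod, map_lprod, hτl, hrel v hv, inv_mul_cancel]
    · simp [hv]
  have hl_t : LazyTails c l t :=
    ⟨fun v => hsq _ (htker v), fun v => hcen _ (htker v), fun v hv => by simp [ht, hv]⟩
  have hwords : ∀ v < c.rels.length, (∀ i ∈ (c.rels.getD v ([], [])).1, i < c.n) ∧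
      ∀ i ∈ (c.rels.getD v ([], [])).2, i < c.n := fun v hv => by
    rw [List.getD_eq_getElem _ _ hv]; exact hw _ (List.getElem_mem hv)
  have heq1 : ∀ e ∈ c.eqs, ∀ L, c.eqMask e = some L → lval c t L = 1 := by
    intro e he L hL
    have hwf' := hwf _ he
    have hconj' := hconj _ he
    cases e with
    | assoc pre v => exact hl_t.assoc_eq hS hwords hwf' hL
    | conj k m pairs =>
      refine hl_t.conj_eq hS (S := τ.ker) (fun k hk => ⟨hsq k hk, hcen k hk⟩) (g := s (conjEl k))
        hwf' (fun q hq => ?_) hL
      have := hconj' q hq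
      simp [MonoidHom.mem_ker, map_bprod, hτl, hs, nf, this]
  have hsel : ∀ (es : List TailEq) (b k L : ℕ), (∀ e ∈ es, e ∈ c.eqs) →
      c.selMask es b k = some L → lval c t L = 1 := by
    intro es b
    induction es with
    | nil =>
      intro k L _ hL
      simp only [LazyCollector.selMask, Option.some.injEq] at hL
      rw [← hL]; exact bprod_zero t _
    | cons e es ih =>
      intro k L hes hL
      rw [LazyCollector.selMask] at hL
      rcases hrest : c.selMask es b (k + 1) with _ | L'
      · rw [hrest] at hL; simp at hL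
      rw [hrest] at hL
      dsimp only at hL
      have h' := ih (k + 1) L' (fun f hf => hes f (List.mem_cons_of_mem _ hf)) hrest
      cases hb : b.testBit k
      · rw [hb, cond_false, Option.some.injEq] at hL; rw [← hL]; exact h'
      · rw [hb, cond_true] at hL
        rcases he : c.eqMask e with _ | L''
        · rw [he] at hL; simp at hL
        rw [he, Option.some.injEq] at hL
        rw [← hL, hl_t.lval_xor, heq1 e (hes e List.mem_cons_self) L'' he, h', one_mul]
  set e : ℕ → Δ := fun i => lval c t (c.gauge.getD i 0) with he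
  have heker : ∀ i, e i ∈ τ.ker := fun i => bprod_mem htker _ _
  have hegauge : ∀ w, lval c t (c.gaugeMask w) = lprod e w := by
    intro w
    induction w with
    | nil => exact bprod_zero t _
    | cons i w ih => rw [LazyCollector.gaugeMask, hl_t.lval_xor, ih]; rfl
  set l' : ℕ → Δ := fun i => l i * e i with hl'
  have hτl' : (fun i => τ (l' i)) = el := funext fun i => by
    simp [hl', MonoidHom.mem_ker.1 (heker i), hl, hs]
  have hlmul : ∀ w, lprod l' w = lprod l w * lprod e w :=
    lprod_mul_central fun i => hcen _ (heker i)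
  have hl'1 : LazyTails c l' fun _ => (1 : Δ) := by
    refine ⟨fun _ => mul_one 1, fun _ g => by simp, fun v hv => ?_⟩
    have h1 := hsel c.eqs (c.comb.getD v 0) 0 _ (fun _ h => h) (hcomb v hv)
    rw [hl_t.lval_xor, show lval c t (2 ^ v) = t v from bprod_two_pow hv, hegauge,
      lprod_append] at h1
    have hR : lprod e (c.rels.getD v ([], [])).2 * lprod e (c.rels.getD v ([], [])).2 = 1 := by
      rw [← hegauge]; exact hl_t.lval_sq _
    rw [mul_one, hlmul, hlmul, hl_t.rel v hv, mul_assoc]
    congr 1
    rw [← mul_assoc] at h1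
    rw [eq_inv_of_mul_eq_one_left h1]
    exact inv_eq_of_mul_eq_one_left hR
  intro z hz hzk
  set K : Subgroup Δ := Subgroup.closure (l' '' Set.Iio c.n)
  have himg : H = Subgroup.closure (τ '' (l' '' Set.Iio c.n)) := by
    show Subgroup.closure (el '' _) = _
    rw [Set.image_image, hτl']
  rw [himg] at hz
  have hzK : z ∈ K := commutator_comap_closure_le hτ.2.1 (l' '' Set.Iio c.n) K
    (fun a ha => Subgroup.le_normalizer (Subgroup.subset_closure ha))
    (fun a ha b hb => by
      have ha' : a ∈ K := Subgroup.subset_closure ha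
      have hb' : b ∈ K := Subgroup.subset_closure hb
      rw [commutatorElement_def]
      exact mul_mem (mul_mem (mul_mem ha' hb') (inv_mem ha')) (inv_mem hb')) hz
  obtain ⟨x, hx, rfl⟩ := lazy_closure_subset_nf hl'1 hS hzK
  rw [MonoidHom.mem_ker, map_bprod, hτl'] at hzk
  have : F ⟨x, hx⟩ = F ⟨0, by positivity⟩ := Subtype.ext (by
    show nf el c.n x = nf el c.n 0
    rw [show nf el c.n x = 1 from hzk]; exact (bprod_zero el _).symm)
  have hx0 : x = 0 := congrArg Fin.val (hinj this)
  subst hx0
  exact bprod_zero l' _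

end Main

end CfsgLib.SchurMult
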